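import Cfsg.Agent.H46.TwistCover.RankOne

/-!
# Bruhat decomposition of a central extension of a twisted group and the bound on its kernel
-/

set_option autoImplicit false

namespace Cfsg.Agent.H46.TwistCover

open Cfsg.Lie Cfsg.Agent.H47 Cfsg.Agent.H46
open scoped Matrix MatrixGroups

variable {D : ChevalleyDatum} {T : GraphData D} {G : Good D} {F : Type*} [Field F] {d : ℕ} {f : F →+* F}
  {E : Type*} [Group E] {π : E →* GL D.Idx F}

/-- The lift of a word. -/
noncomputable def mE (T : GraphData D) (G : Good D) (d : ℕ) (f : F →+* F) (π : E →* GL D.Idx F)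
    (w : List (Fin T.m)) : E := (w.map fun j => nE T G d f π j 1).prod

/-- The big cells. -/
def Cell (T : GraphData D) (G : Good D) (d : ℕ) (f : F →+* F) (π : E →* GL D.Idx F) : Set E :=
  {x | ∃ a ∈ W T G d f π (lev G 1), ∃ τ ∈ TE T G d f π, ∃ w, ∃ b ∈ W T G d f π (lev G 1),
    x = a * τ * mE T G d f π w * b}

/-- The torus parameters of parameters of the orbits. -/
noncomputable def zOf (T : GraphData D) (f : F →+* F) (h : T.Ok G) (u : Fin T.m → Fˣ) (k : Fin D.rank) : Fˣ :=
  (Units.map f.toMonoidHom)^[(T.orb (h.cover k).choose).idxOf k] (u (h.cover k).choose)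

section comb

variable (h : T.Ok G)

include h

theorem negF_negF (r : Fin D.nroots) : G.negF (G.negF r) = r := Fin.ext (G.neg_neg r.2)

theorem negF_pos_iff (r : Fin D.nroots) : D.nroots / 2 ≤ (G.negF r).val ↔ r.val < D.nroots / 2 := by
  constructor
  · intro hh
    have h1 := G.isNegRoot_iff.1 (G.isNegRoot_negF.2 ((isPos_iff G).2 hh))
    rw [negF_negF h] at h1
    omega
  · intro hh
    exact (isPos_iff G).1 (G.isPosRoot_neg (G.isNegRoot_iff.2 hh))

theorem actW_negF (O : OrbOk T G d) (r : Fin D.nroots) : ∀ w, actW T G w (G.negF r) = G.negF (actW T G w r)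
  | [] => rfl
  | j :: w => by
    show T.wJ G j (actW T G w (G.negF r)) = _
    rw [actW_negF O r w, O.wJ_neg]; rfl

omit h in
theorem actW_append (r : Fin D.nroots) (w v : List (Fin T.m)) :
    actW T G (w ++ v) r = actW T G w (actW T G v r) := List.foldr_append

theorem actW_reverse (r : Fin D.nroots) : ∀ w, actW T G w (actW T G w.reverse r) = r
  | [] => rfl
  | j :: w => by
    rw [List.reverse_cons, actW_append]
    show T.wJ G j (actW T G w (actW T G w.reverse (T.wJ G j r))) = r
    rw [actW_reverse _ w, h.invol]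

theorem sR_pos (j : Fin T.m) : D.nroots / 2 ≤ (sR T G j).val :=
  (isPos_iff G).1 (G.isPosRoot_simple (T.rep j).2)

theorem mem_orb_sR (O : OrbOk T G d) {j : Fin T.m} {r : Fin D.nroots} :
    r ∈ orbSet T d (sR T G j) ↔ r ∈ (T.orb j).map G.simpleF := by
  simp only [orbSet, sR, O.len_eq, Finset.mem_image, Finset.mem_range, GraphData.orb, List.mem_map, List.mem_range,
    iter_simple h]
  exact ⟨fun ⟨s, hs, e⟩ => ⟨_, ⟨s, hs, rfl⟩, e⟩, fun ⟨_, ⟨s, hs, rfl⟩, e⟩ => ⟨s, hs, e⟩⟩

/-- A word making a negative root positive has a letter doing so. -/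
theorem exists_letter : ∀ (w : List (Fin T.m)) (ν : Fin D.nroots), ν.val < D.nroots / 2 →
    D.nroots / 2 ≤ (actW T G w ν).val → ∃ pre p mid, w = pre ++ p :: mid ∧
      (actW T G mid ν).val < D.nroots / 2 ∧ D.nroots / 2 ≤ (T.wJ G p (actW T G mid ν)).val
  | [], ν, h1, h2 => absurd h2 (not_le.2 h1)
  | j :: w, ν, h1, h2 => by
    rcases lt_or_ge (actW T G w ν).val (D.nroots / 2) with hh | hh
    · exact ⟨[], j, w, rfl, hh, h2⟩
    · obtain ⟨pre, p, mid, e, e1, e2⟩ := exists_letter w ν h1 hh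
      exact ⟨j :: pre, p, mid, by rw [e]; rfl, e1, e2⟩

theorem nW_monomial : ∀ w, nW T G F w ∈ D.monomialSubgroup F
  | [] => by rw [nW]; exact one_mem _
  | j :: w => by
    rw [nW, List.map_cons, List.prod_cons]
    exact mul_mem (T.mem_nPar_monomial h j fun _ _ => one_ne_zero) (nW_monomial w)

theorem perm_nW (r : Fin D.nroots) : ∀ w, G.perm (nW T G F w) r = actW T G w r
  | [] => by
    have e : G.perm (1 : GL D.Idx F) = 1 := G.perm_diagonal (one_mem _)
    rw [show nW T G F ([] : List (Fin T.m)) = 1 from rfl, e]; rfl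
  | j :: w => by
    rw [show nW T G F (j :: w) = T.nPar G j (fun _ => (1 : F)) * nW T G F w from List.prod_cons,
      G.perm_mul (T.mem_nPar_monomial h j fun _ _ => one_ne_zero)
      (nW_monomial h w), Equiv.Perm.mul_apply, T.perm_nPar_one h, T.wJ_eq h]
    exact congrArg (T.wJ G j) (perm_nW r w)

theorem zOf_fix {u : Fin T.m → Fˣ} (hu : ∀ j, f^[T.len j] (u j : F) = u j) : Fix T f (zOf T f h u) := by
  have e : ∀ k, (zOf T f h u k : F) = T.orbParam f (h.cover k).choose (u (h.cover k).choose) k := by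
    intro k
    rw [zOf, GraphData.orbParam]
    induction (T.orb (h.cover k).choose).idxOf k with
    | zero => rfl
    | succ n ih => rw [Function.iterate_succ_apply', Function.iterate_succ_apply', ← ih]; rfl
  intro k
  refine Units.ext ?_
  rw [e]
  show _ = f (zOf T f h u k : F)
  have hj := h.disjoint _ _ _ (h.cover (T.ρF k)).choose_spec (T.ρF_mem h (h.cover k).choose_spec)
  rw [e, hj, T.sat_orbParam h f (hu _) k (h.cover k).choose_spec]

theorem zOf_rep (u : Fin T.m → Fˣ) (j : Fin T.m) : zOf T f h u (T.rep j) = u j := by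
  have hj : (h.cover (T.rep j)).choose = j := h.disjoint _ _ _ (h.cover _).choose_spec (T.rep_mem_orb h j)
  have h0 := T.idxOf_orb h (j := j) (h.len_pos j).1
  rw [Function.iterate_zero_apply] at h0
  rw [zOf, hj, h0, Function.iterate_zero_apply]

end comb

namespace Lifts

variable (K : Lifts T G d f π)

include K

theorem nW_torus {z : Fin D.rank → Fˣ} (hz : Fix T f z) : ∀ w,
    ∃ z', Fix T f z' ∧ nW T G F w * G.torus z * (nW T G F w)⁻¹ = G.torus z'
  | [] => ⟨z, hz, by simp [nW]⟩
  | j :: w => by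
    obtain ⟨z1, h1, e1⟩ := nW_torus hz w
    obtain ⟨z2, h2, e2⟩ := T.fixTorus_conj K.ok f j (g := G.torus z1) ⟨z1, h1, rfl⟩
    refine ⟨z2, h2, ?_⟩
    rw [show nW T G F (j :: w) = T.nPar G j (fun _ => (1 : F)) * nW T G F w from List.prod_cons, ← e2, ← e1]
    simp only [mul_inv_rev, mul_assoc]

theorem map_mE (w : List (Fin T.m)) : π (mE T G d f π w) = nW T G F w := by
  rw [mE, nW, map_list_prod, List.map_map]
  exact congrArg List.prod (List.map_congr_left fun j _ => K.map_nE_one j)

/-- The lifts of words permute the lifts. -/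
theorem mE_L (r : Fin D.nroots) (w : List (Fin T.m)) : ∃ e : F, (e = 1 ∨ e = -1) ∧
    ∀ u, InO T d f r u →
      mE T G d f π w * L T G d f π r u * (mE T G d f π w)⁻¹ = L T G d f π (actW T G w r) (e * u) := by
  obtain ⟨e, he, hw⟩ := conj_actW f K.ok K.orb r w
  refine ⟨e, he, fun u hu => K.L_conj (φ := fun v => e * v) ?_ (fun z hz => ?_) (fun v _ => ?_) hu⟩
  · intro v hv
    rw [InO, olen_actW K.ok]
    exact InO.mul f (InO.sign f he) hv
  · rw [K.map_mE]; exact K.nW_torus hz w
  · rw [K.map_mE]; exact hw v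

theorem nE_L_pair (j : Fin T.m) (r : Fin D.nroots) : ∃ e : F, (e = 1 ∨ e = -1) ∧
    (∀ u, InO T d f r u →
      nE T G d f π j 1 * L T G d f π r u * (nE T G d f π j 1)⁻¹ = L T G d f π (T.wJ G j r) (e * u)) ∧
    ∀ u, InO T d f r u → nE T G d f π j 1 * L T G d f π (G.negF r) u * (nE T G d f π j 1)⁻¹ =
      L T G d f π (G.negF (T.wJ G j r)) (e * u) := by
  obtain ⟨e, he, h1, h2⟩ := nPar_conj_pair (F := F) K.ok K.orb j r
  have hN : ∀ z, Fix T f z → ∃ z', Fix T f z' ∧
      π (nE T G d f π j 1) * G.torus z * (π (nE T G d f π j 1))⁻¹ = G.torus z' :=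
    fun z hz => K.nE_normalises (InO.one f _) one_ne_zero hz
  refine ⟨e, he, fun u hu => K.L_conj (φ := fun v => e * v) ?_ hN (fun v _ => ?_) hu,
    fun u hu => K.L_conj (r := G.negF r) (φ := fun v => e * v) ?_ hN (fun v _ => ?_) (K.inO_negF_iff.2 hu)⟩
  · intro v hv; rw [InO, olen_wJ K.ok]; exact InO.mul f (InO.sign f he) hv
  · rw [K.map_nE_one]; exact nPar_conj_oX K.ok K.orb f (h1 v)
  · intro v hv
    rw [← K.orb.wJ_neg, InO, olen_wJ K.ok]
    exact InO.mul f (InO.sign f he) hv
  · rw [K.map_nE_one, ← K.orb.wJ_neg]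
    refine nPar_conj_oX K.ok K.orb f ?_
    rw [h2 v, K.orb.wJ_neg]

theorem TE_normalises_W {τ a : E} (hτ : τ ∈ TE T G d f π) {S : Finset (Fin D.nroots)} (ha : a ∈ W T G d f π S) :
    τ * a * τ⁻¹ ∈ W T G d f π S := by
  obtain ⟨z, hz, e⟩ := K.TE_map hτ
  exact K.torus_normalizes hz e ha

theorem nE_normalises_W {j : Fin T.m} {a : E} (ha : a ∈ W T G d f π (lev G 1 \ orbSet T d (sR T G j))) :
    nE T G d f π j 1 * a * (nE T G d f π j 1)⁻¹ ∈ W T G d f π (lev G 1 \ orbSet T d (sR T G j)) := by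
  refine conj_mem_closure ?_ ha
  rintro _ ⟨c, hc, u, hu, rfl⟩
  obtain ⟨e, he, h1, -⟩ := K.nE_L_pair j c
  rw [h1 u hu]
  obtain ⟨hc1, hc2⟩ := Finset.mem_sdiff.1 hc
  rw [mem_orb_sR K.ok K.orb, K.ok.cls_iff] at hc2
  have hcp := (mem_lev.1 hc1).1
  have hwp : D.nroots / 2 ≤ (T.wJ G j c).val := not_lt.1 fun hh => hc2 ⟨hcp, hh⟩
  refine L_mem_W (Finset.mem_sdiff.2 ⟨mem_lev.2 ⟨hwp, htR_pos (G := G) hwp⟩, ?_⟩) ?_
  · rw [mem_orb_sR K.ok K.orb, K.ok.cls_iff, K.ok.invol]
    exact fun hh => absurd hcp (not_le.2 hh.2)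
  · rw [InO, olen_wJ K.ok]; exact InO.mul f (InO.sign f he) hu

theorem L_mem_top {r : Fin D.nroots} (hr : D.nroots / 2 ≤ r.val) {t : F} (ht : InO T d f r t) :
    L T G d f π r t ∈ W T G d f π (lev G 1) :=
  L_mem_W (mem_lev.2 ⟨hr, htR_pos (G := G) hr⟩) ht

variable [Finite F]

theorem nE_inv (j : Fin T.m) :
    ∃ τ ∈ TE T G d f π, (nE T G d f π j 1)⁻¹ = τ * nE T G d f π j 1 := by
  have R := K.sl2Rels j
  have h1 := R.n_neg 1
  have e : ∀ t : fld f (T.len j), Cfsg.Agent.H92.rn (fun t : fld f (T.len j) => xE T G d f π j t)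
      (fun t : fld f (T.len j) => yE T G d f π j t) t = nE T G d f π j t := fun t => by
    simp only [Cfsg.Agent.H92.rn, nE, Subfield.coe_inv]
  rw [e, e] at h1
  simp only [NegMemClass.coe_neg, OneMemClass.coe_one] at h1
  refine ⟨hE T G d f π j (-1), K.hE_mem (InO.sign f (Or.inr rfl)) (neg_ne_zero.2 one_ne_zero), ?_⟩
  rw [← h1, ← K.nE_eq]

theorem nE_sq (j : Fin T.m) : nE T G d f π j 1 * nE T G d f π j 1 ∈ TE T G d f π := by
  obtain ⟨τ, hτ, e⟩ := K.nE_inv j
  have : τ⁻¹ = nE T G d f π j 1 * nE T G d f π j 1 := by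
    rw [← mul_inv_eq_iff_eq_mul] at *
    rw [← e]; group
  exact this ▸ inv_mem hτ

theorem mE_conj_TE {τ : E} (hτ : τ ∈ TE T G d f π) : ∀ w,
    mE T G d f π w * τ * (mE T G d f π w)⁻¹ ∈ TE T G d f π
  | [] => by simpa [mE] using hτ
  | j :: w => by
    have := K.nE_conj_TE (j := j) (mE_conj_TE hτ w)
    rw [show mE T G d f π (j :: w) = nE T G d f π j 1 * mE T G d f π w from List.prod_cons]
    simpa only [mul_inv_rev, mul_assoc] using this

/-- A simple root element moved across the monomial lift. -/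
theorem nE_xE {j : Fin T.m} {u : F} (hu : InO T d f (sR T G j) u) (hu0 : u ≠ 0) :
    nE T G d f π j 1 * xE T G d f π j u = xE T G d f π j (-u⁻¹) * hE T G d f π j u⁻¹ * nE T G d f π j 1 *
      xE T G d f π j (-u⁻¹) * nE T G d f π j 1 := by
  have hi : InO T d f (sR T G j) u⁻¹ := InO.inv f hu
  have h1 : nE T G d f π j 1 * xE T G d f π j u * (nE T G d f π j 1)⁻¹ = yE T G d f π j u := by
    have := K.conj_xE (InO.one f (sR T G j)) one_ne_zero hu
    rwa [one_pow, div_one] at this
  have hx : ∀ v, InO T d f (sR T G j) v → xE T G d f π j (-v) = (xE T G d f π j v)⁻¹ := fun v hv => (K.L_neg hv).symm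
  have h2 : nE T G d f π j u⁻¹ = xE T G d f π j u⁻¹ * yE T G d f π j u * xE T G d f π j u⁻¹ := by
    simp only [nE, Cfsg.Agent.H92.rn, inv_inv]
  rw [mul_inv_eq_iff_eq_mul] at h1
  rw [h1, hx _ hi, mul_assoc (xE T G d f π j u⁻¹)⁻¹ (hE T G d f π j u⁻¹), ← K.nE_eq, h2]
  group

theorem cell_of_W {a x : E} (ha : a ∈ W T G d f π (lev G 1)) (hx : x ∈ Cell T G d f π) :
    a * x ∈ Cell T G d f π := by
  obtain ⟨a', ha', τ, hτ, w, b, hb, rfl⟩ := hx
  exact ⟨a * a', mul_mem ha ha', τ, hτ, w, b, hb, by simp only [mul_assoc]⟩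

theorem cell_of_TE {σ x : E} (hσ : σ ∈ TE T G d f π) (hx : x ∈ Cell T G d f π) :
    σ * x ∈ Cell T G d f π := by
  obtain ⟨a', ha', τ, hτ, w, b, hb, rfl⟩ := hx
  exact ⟨σ * a' * σ⁻¹, K.TE_normalises_W hσ ha', σ * τ, mul_mem hσ hτ, w, b, hb, by group⟩

/-- The basic step of the cell decomposition. -/
theorem cell_step (j : Fin T.m) (w : List (Fin T.m)) {u : F} (hu : InO T d f (sR T G j) u) {b : E}
    (hb : b ∈ W T G d f π (lev G 1)) :
    nE T G d f π j 1 * xE T G d f π j u * mE T G d f π w * b ∈ Cell T G d f π := by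
  have mk : ∀ w' {b' : E}, b' ∈ W T G d f π (lev G 1) → mE T G d f π w' * b' ∈ Cell T G d f π :=
    fun w' b' hb' => ⟨1, one_mem _, 1, one_mem _, w', b', hb', by simp⟩
  have move : ∀ (w' : List (Fin T.m)), D.nroots / 2 ≤ (actW T G w'.reverse (sR T G j)).val →
      ∀ v, InO T d f (sR T G j) v →
      ∃ b' ∈ W T G d f π (lev G 1), xE T G d f π j v * mE T G d f π w' = mE T G d f π w' * b' := by
    intro w' hpos v hv
    obtain ⟨e, he, h⟩ := K.mE_L (actW T G w'.reverse (sR T G j)) w'
    have hv' : InO T d f (actW T G w'.reverse (sR T G j)) (e * v) := by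
      rw [InO, olen_actW K.ok]
      exact InO.mul f (InO.sign f he) hv
    refine ⟨_, K.L_mem_top hpos hv', ?_⟩
    have := h _ hv'
    rw [actW_reverse K.ok, ← mul_assoc, show e * e = 1 by rcases he with rfl | rfl <;> simp, one_mul,
      mul_inv_eq_iff_eq_mul] at this
    exact this.symm
  rcases le_or_gt (D.nroots / 2) (actW T G w.reverse (sR T G j)).val with hs | hs
  · obtain ⟨b', hb', e⟩ := move w hs u hu
    rw [mul_assoc (nE T G d f π j 1), e, ← mul_assoc, mul_assoc]
    exact mk (j :: w) (mul_mem hb' hb)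
  · by_cases hu0 : u = 0
    · rw [hu0, xE, K.L_zero, mul_one]
      exact mk (j :: w) hb
    · have hi : InO T d f (sR T G j) (-u⁻¹) := InO.neg f (InO.inv f hu)
      have hpos : D.nroots / 2 ≤ (actW T G (j :: w).reverse (sR T G j)).val := by
        rw [List.reverse_cons, actW_append]
        show D.nroots / 2 ≤ (actW T G w.reverse (T.wJ G j (G.simpleF (T.rep j)))).val
        rw [K.ok.wJ_simple j _ (T.rep_mem_orb K.ok j), actW_negF K.ok K.orb, negF_pos_iff K.ok]
        exact hs
      obtain ⟨b', hb', e⟩ := move (j :: w) hpos _ hi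
      have hn : ∀ w', nE T G d f π j 1 * mE T G d f π w' = mE T G d f π (j :: w') := fun _ => List.prod_cons.symm
      rw [K.nE_xE hu hu0, show xE T G d f π j (-u⁻¹) * hE T G d f π j u⁻¹ * nE T G d f π j 1 * xE T G d f π j (-u⁻¹) *
        nE T G d f π j 1 * mE T G d f π w * b = xE T G d f π j (-u⁻¹) * (hE T G d f π j u⁻¹ * (nE T G d f π j 1 *
          (xE T G d f π j (-u⁻¹) * (nE T G d f π j 1 * mE T G d f π w)) * b)) by simp only [mul_assoc], hn, e,
        ← mul_assoc (nE T G d f π j 1), hn, mul_assoc (mE T G d f π _)]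
      exact K.cell_of_W (K.L_mem_top (sR_pos K.ok j) hi)
        (K.cell_of_TE (K.hE_mem (InO.inv f hu) (inv_ne_zero hu0)) (mk _ (mul_mem hb' hb)))

theorem cell_of_nE (hsep : Sep T G d f ∨ Uniq T G d f π) (j : Fin T.m) {x : E} (hx : x ∈ Cell T G d f π) :
    nE T G d f π j 1 * x ∈ Cell T G d f π := by
  obtain ⟨a, ha, τ, hτ, w, b, hb, rfl⟩ := hx
  have hmin : ∀ s ∈ lev G 1, htR G (sR T G j) ≤ htR G s := fun s hs => by
    have e : htR G (sR T G j) = 1 := by
      simp [htR, sR, Good.simpleF, G.rc_simple (T.rep j).2]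
    rw [e]; exact (mem_lev.1 hs).2
  obtain ⟨t, ht, y, hy, ea⟩ := K.W_split hsep (up_lev 1)
    (mem_lev.2 ⟨sR_pos K.ok j, htR_pos (G := G) (sR_pos K.ok j)⟩) hmin (inv_mem ha)
  have ea' : a = y⁻¹ * xE T G d f π j (-t) := by
    rw [xE, ← K.L_neg ht, ← mul_inv_rev, ← ea, inv_inv]
  obtain ⟨z, hz, hzτ⟩ := K.TE_map hτ
  obtain ⟨z', hz', hzτ'⟩ := K.TE_map (inv_mem hτ)
  set c : F := (G.torusVal z' (sR T G j).val : F)
  have hnt : InO T d f (sR T G j) (-t) := InO.neg f ht
  have hc : InO T d f (sR T G j) (c * -t) := InO.mul f (torusVal_inO K.ok K.orb f hz' _) hnt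
  have e1 : xE T G d f π j (-t) * τ = τ * xE T G d f π j (c * -t) := by
    have := K.L_torus hnt hz' hzτ'
    rw [inv_inv] at this
    rw [xE, xE, ← this]; group
  set τ' := nE T G d f π j 1 * τ * (nE T G d f π j 1)⁻¹ with hτ'
  have e2 : nE T G d f π j 1 * (a * τ * mE T G d f π w * b) =
      (nE T G d f π j 1 * y⁻¹ * (nE T G d f π j 1)⁻¹) *
        (τ' * (nE T G d f π j 1 * xE T G d f π j (c * -t) * mE T G d f π w * b)) := by
    rw [ea', mul_assoc y⁻¹ (xE T G d f π j (-t)) τ, e1, hτ']; group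
  rw [e2]
  exact K.cell_of_W (W_mono Finset.sdiff_subset (K.nE_normalises_W (inv_mem hy)))
    (K.cell_of_TE (K.nE_conj_TE hτ) (K.cell_step j w hc hb))

/-- A word acting trivially lifts into the torus. -/
theorem mE_mem_TE : ∀ (n : ℕ) (w : List (Fin T.m)), w.length ≤ n → nW T G F w ∈ D.diagonalSubgroup F →
    mE T G d f π w ∈ TE T G d f π := by
  intro n
  induction n with
  | zero =>
    intro w hw _
    rw [List.length_eq_zero_iff.1 (Nat.le_zero.1 hw)]
    exact one_mem _
  | succ n ih =>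
    intro w hw hd
    rcases List.eq_nil_or_concat w with rfl | ⟨w', k, rfl⟩
    · exact one_mem _
    have hid : ∀ r, actW T G (w' ++ [k]) r = r := fun r => by
      rw [← perm_nW (F := F) K.ok, ← List.concat_eq_append, G.perm_diagonal hd]; rfl
    set ρ := sR T G k
    have hρ := sR_pos (G := G) K.ok k
    have hk : T.wJ G k ρ = G.negF ρ := K.ok.wJ_simple k _ (T.rep_mem_orb K.ok k)
    have hν : (G.negF ρ).val < D.nroots / 2 := by
      rcases lt_or_ge (G.negF ρ).val (D.nroots / 2) with hh | hh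
      · exact hh
      · exact absurd hρ (not_le.2 ((negF_pos_iff K.ok ρ).1 hh))
    have hlast : actW T G w' (G.negF ρ) = ρ := by
      have := hid ρ
      rw [actW_append] at this
      rwa [show actW T G [k] ρ = T.wJ G k ρ from rfl, hk] at this
    obtain ⟨pre, p, mid, rfl, e1, e2⟩ := exists_letter K.ok w' (G.negF ρ) hν (hlast.symm ▸ hρ)
    set y := actW T G mid ρ with hy
    have ex : actW T G mid (G.negF ρ) = G.negF y := actW_negF K.ok K.orb ρ mid
    rw [ex] at e1 e2
    have hyp : D.nroots / 2 ≤ y.val := by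
      have := (negF_pos_iff K.ok (G.negF y)).2 e1
      rwa [negF_negF K.ok] at this
    rw [K.orb.wJ_neg, negF_pos_iff K.ok] at e2
    have hmem : y ∈ orbSet T d (sR T G p) := (mem_orb_sR K.ok K.orb).2 ((K.ok.cls_iff p y).2 ⟨hyp, e2⟩)
    obtain ⟨i, -, hi⟩ := Finset.mem_image.1 hmem
    obtain ⟨e, he, hp⟩ := K.mE_L ρ mid
    obtain ⟨e', he', hp'⟩ := K.mE_L (G.negF ρ) mid
    rw [ex] at hp'
    have hsgn : ∀ x : F, x = 1 ∨ x = -1 → L T G d f π y x = xE T G d f π p x ∧
        L T G d f π (G.negF y) x = L T G d f π (G.negF (sR T G p)) x := by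
      intro x hx
      have hfix : ∀ m, f^[m] x = x := fun m => by
        rcases hx with rfl | rfl
        · exact iterate_map_one f m
        · rw [iterate_map_neg, iterate_map_one]
      have key : ∀ r, InO T d f r x → (∀ m, eS T r m = 1) → ∀ m, L T G d f π (T.πF^[m] r) x = L T G d f π r x := by
        intro r hrx heS m
        induction m with
        | zero => rfl
        | succ m ihm =>
          have hin : InO T d f (T.πF^[m] r) x := hfix _
          have hε : T.S.ε (T.πF^[m] r).val = 1 := by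
            have h1 := heS (m + 1)
            have h0 := heS m
            rw [eS, List.range_succ, List.map_append, List.prod_append] at h1
            rw [eS] at h0
            simpa [h0] using h1
          rw [← ihm, Function.iterate_succ_apply']
          have := K.L_pi hin
          rwa [hε, Int.cast_one, one_mul, show f x = x from hfix 1] at this
      rw [← hi]
      refine ⟨key _ (hfix _) (eS_simple K.ok _) i, ?_⟩
      rw [← iter_negF K.ok]
      exact key _ (hfix _) (fun m => by rw [sR, eS_negF K.ok, eS_simple K.ok]) i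
    have hee : e' = e := by
      have hn : ∀ (l : List (Fin T.m)) (r : Fin D.nroots), ∃ s : F, (s = 1 ∨ s = -1) ∧
          (∀ u, nW T G F l * oX T G d f r u * (nW T G F l)⁻¹ = oX T G d f (actW T G l r) (s * u)) ∧
          ∀ u, nW T G F l * oX T G d f (G.negF r) u * (nW T G F l)⁻¹ =
            oX T G d f (G.negF (actW T G l r)) (s * u) := by
        intro l r
        induction l with
        | nil => exact ⟨1, Or.inl rfl, fun u => by simp [nW, actW], fun u => by simp [nW, actW]⟩
        | cons a l ihl =>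
          obtain ⟨s, hs, f1, f2⟩ := ihl
          obtain ⟨s', hs', g1, g2⟩ := nPar_conj_pair (F := F) K.ok K.orb a (actW T G l r)
          have hw : ∀ x : GL D.Idx F, nW T G F (a :: l) * x * (nW T G F (a :: l))⁻¹ =
              T.nPar G a (fun _ => (1 : F)) * (nW T G F l * x * (nW T G F l)⁻¹) *
                (T.nPar G a (fun _ => (1 : F)))⁻¹ := fun x => by
            rw [show nW T G F (a :: l) = T.nPar G a (fun _ => (1 : F)) * nW T G F l from List.prod_cons]
            simp only [mul_inv_rev, mul_assoc]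
          refine ⟨s' * s, by rcases hs with rfl | rfl <;> rcases hs' with rfl | rfl <;> simp,
            fun u => ?_, fun u => ?_⟩
          · rw [hw, f1, nPar_conj_oX K.ok K.orb f (g1 (s * u)), ← mul_assoc]; rfl
          · rw [hw, f2, nPar_conj_oX K.ok K.orb f (e := s') (u := s * u)
              (by rw [g2, K.orb.wJ_neg]), K.orb.wJ_neg, ← mul_assoc]
            rfl
      obtain ⟨s, hs, f1, f2⟩ := hn mid ρ
      have h1 := congrArg π (hp 1 (InO.one f _))
      have h2 := congrArg π (hp' 1 (InO.one f _))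
      have i1 : InO T d f (actW T G mid ρ) (e * 1) := by
        rw [InO, olen_actW K.ok]; exact InO.mul f (InO.sign f he) (InO.one f ρ)
      have i2 : InO T d f (G.negF y) (e' * 1) := by
        rw [K.inO_negF_iff, hy, InO, olen_actW K.ok]; exact InO.mul f (InO.sign f he') (InO.one f ρ)
      rw [map_mul, map_mul, map_inv, K.map_mE, K.map_L (InO.one f _), f1, K.map_L i1] at h1
      rw [map_mul, map_mul, map_inv, K.map_mE, K.map_L (InO.one f _), f2, K.map_L i2] at h2
      have a1 := oX_inj f K.ok K.orb h1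
      have a2 := oX_inj f K.ok K.orb h2
      simp only [mul_one] at a1 a2
      rw [← a1, ← a2]
    subst hee
    have hk1 : mE T G d f π mid * nE T G d f π k 1 * (mE T G d f π mid)⁻¹ = nE T G d f π p e' := by
      have hi1 : InO T d f ρ (1 : F) := InO.one f _
      have hi2 : InO T d f (G.negF ρ) (-(1 : F)⁻¹) := by rw [inv_one]; exact InO.sign f (Or.inr rfl)
      have hinv : e'⁻¹ = e' := by rcases he with rfl | rfl <;> simp [inv_neg]
      have q1 := hp 1 hi1
      have q2 := hp' _ hi2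
      rw [inv_one, mul_neg, mul_one] at q2
      rw [mul_one, (hsgn e' he).1] at q1
      rw [(hsgn (-e') (by rcases he with rfl | rfl <;> simp)).2] at q2
      have hc : ∀ m a b : E, m * (a * b * a) * m⁻¹ = (m * a * m⁻¹) * (m * b * m⁻¹) * (m * a * m⁻¹) :=
        fun m a b => by group
      rw [show nE T G d f π k 1 = L T G d f π ρ 1 * L T G d f π (G.negF ρ) (-(1 : F)⁻¹) * L T G d f π ρ 1 from rfl,
        hc, q1, inv_one, q2, show nE T G d f π p e' =
          xE T G d f π p e' * L T G d f π (G.negF (sR T G p)) (-e'⁻¹) * xE T G d f π p e' from rfl, hinv]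
    rw [mul_inv_eq_iff_eq_mul, show nE T G d f π p e' = hE T G d f π p e' * nE T G d f π p 1 from K.nE_eq] at hk1
    have happ : ∀ l l', mE T G d f π (l ++ l') = mE T G d f π l * mE T G d f π l' := fun l l' => by
      rw [mE, mE, mE, List.map_append, List.prod_append]
    have hτ : hE T G d f π p e' ∈ TE T G d f π :=
      K.hE_mem (InO.sign f he) (by rcases he with rfl | rfl <;> simp)
    set M := mE T G d f π pre
    set Q := nE T G d f π p 1
    set c := (M * (Q * hE T G d f π p e' * Q⁻¹) * M⁻¹) * (M * (Q * Q) * M⁻¹) with hc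
    have hcT : c ∈ TE T G d f π :=
      mul_mem (K.mE_conj_TE (K.nE_conj_TE hτ) pre) (K.mE_conj_TE (K.nE_sq p) pre)
    have eq : mE T G d f π ((pre ++ p :: mid) ++ [k]) = c * mE T G d f π (pre ++ mid) := by
      rw [happ, happ, happ, show mE T G d f π (p :: mid) = Q * mE T G d f π mid from List.prod_cons,
        show mE T G d f π [k] = nE T G d f π k 1 from mul_one _,
        mul_assoc M, mul_assoc Q, hk1, hc, show mE T G d f π pre = M from rfl]
      group
    rw [List.concat_eq_append, eq]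
    refine mul_mem hcT (ih _ (by simp at hw ⊢; omega) ?_)
    obtain ⟨zc, -, hzc⟩ := K.TE_map hcT
    have h3 := congrArg π eq
    rw [K.map_mE, map_mul, K.map_mE, ← List.concat_eq_append] at h3
    rw [show nW T G F (pre ++ mid) = (π c)⁻¹ * nW T G F ((pre ++ p :: mid).concat k) by rw [h3, inv_mul_cancel_left]]
    exact mul_mem (inv_mem (G.mem_diagonal.2 ⟨zc, hzc⟩)) hd

/-- Everything lies in a cell. -/
theorem mem_cell (hsep : Sep T G d f ∨ Uniq T G d f π)
    (hgen : Subgroup.closure {x | ∃ r t, InO T d f r t ∧ x = L T G d f π r t} = ⊤) (x : E) :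
    x ∈ Cell T G d f π := by
  set s : Set E := (W T G d f π (lev G 1) : Set E) ∪ Set.range (fun j => nE T G d f π j 1) with hs
  have hall : Subgroup.closure s = ⊤ := by
    refine eq_top_iff.2 (hgen.symm.le.trans ((Subgroup.closure_le _).2 ?_))
    rintro _ ⟨r, t, ht, rfl⟩
    rcases le_or_gt (D.nroots / 2) r.val with hr | hr
    · exact Subgroup.subset_closure (Or.inl (K.L_mem_top hr ht))
    · obtain ⟨q, hq, hqr⟩ := K.orb.top_surj r hr
      obtain ⟨e, he, hw⟩ := K.mE_L q T.top
      have ht' : InO T d f q (e * t) := by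
        rw [← hqr, InO, olen_actW K.ok] at ht
        exact InO.mul f (InO.sign f he) ht
      have := hw _ ht'
      rw [hqr, ← mul_assoc, show e * e = 1 by rcases he with rfl | rfl <;> simp, one_mul] at this
      rw [← this]
      have hm : mE T G d f π T.top ∈ Subgroup.closure s := Subgroup.list_prod_mem _ fun y hy => by
        obtain ⟨j, -, rfl⟩ := List.mem_map.1 hy
        exact Subgroup.subset_closure (Or.inr ⟨j, rfl⟩)
      exact mul_mem (mul_mem hm (Subgroup.subset_closure (Or.inl (K.L_mem_top hq ht')))) (inv_mem hm)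
  induction hall.symm.le (Subgroup.mem_top x) using Subgroup.closure_induction_left with
  | one => exact ⟨1, one_mem _, 1, one_mem _, [], 1, one_mem _, by simp [mE]⟩
  | mul_left a ha y _ ih =>
    rcases ha with ha | ⟨j, rfl⟩
    · exact K.cell_of_W ha ih
    · exact K.cell_of_nE hsep j ih
  | inv_mul_cancel a ha y _ ih =>
    rcases ha with ha | ⟨j, rfl⟩
    · exact K.cell_of_W (inv_mem ha) ih
    · obtain ⟨τ, hτ, e⟩ := K.nE_inv j
      rw [e, mul_assoc]
      exact K.cell_of_TE hτ (K.cell_of_nE hsep j ih)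

/-- The kernel lies in the lifted torus. -/
theorem ker_le_TE (hsep : Sep T G d f ∨ Uniq T G d f π)
    (hgen : Subgroup.closure {x | ∃ r t, InO T d f r t ∧ x = L T G d f π r t} = ⊤) :
    π.ker ≤ TE T G d f π := by
  intro x hx
  obtain ⟨a, ha, τ, hτ, w, b, hb, rfl⟩ := K.mem_cell hsep hgen x
  rw [MonoidHom.mem_ker] at hx
  simp only [map_mul] at hx
  have hWle : ∀ g ∈ W T G d f π (lev G 1), π g ∈ D.posUnipotent F := fun g hg => by
    have : (W T G d f π (lev G 1)).map π ≤ D.posUnipotent F := by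
      rw [K.map_W]
      refine (Subgroup.closure_le _).2 ?_
      rintro _ ⟨r, hr, t, -, rfl⟩
      refine G.posSub_le_posUnipotent (sset (lev G 1)) (oX_mem_posSub K.ok K.orb f (fun y hy => (mem_lev.1 hy).1)
        (fun y hy => ?_) t)
      obtain ⟨i, -, rfl⟩ := Finset.mem_image.1 hy
      exact iter_mem (lev_stable K.ok K.orb 1) hr i
    exact this ⟨g, hg, rfl⟩
  obtain ⟨z, -, hzτ⟩ := K.TE_map hτ
  have hmono : π (τ * mE T G d f π w) ∈ D.monomialSubgroup F := by
    rw [map_mul, K.map_mE, hzτ]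
    exact mul_mem (Subgroup.mem_sup_left (G.mem_diagonal.2 ⟨z, rfl⟩)) (nW_monomial K.ok w)
  have hu : π (τ * mE T G d f π w) ∈ D.posUnipotent F := by
    have e : π (τ * mE T G d f π w) = (π a)⁻¹ * (π b)⁻¹ := by
      rw [eq_inv_mul_iff_mul_eq, eq_inv_iff_mul_eq_one, map_mul]
      simpa only [mul_assoc] using hx
    rw [e]; exact mul_mem (inv_mem (hWle a ha)) (inv_mem (hWle b hb))
  have h1 : π (τ * mE T G d f π w) = 1 :=
    (Subgroup.eq_bot_iff_forall _).1 (G.posUnipotent_inf_monomial (F := F)) _ ⟨hu, hmono⟩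
  have hab : a * b = 1 := by
    refine K.eq_one_of_mem_W hsep _ (up_lev 1) (lev_stable K.ok K.orb 1) _ (mul_mem ha hb) ?_
    rw [map_mul]
    calc π a * π b = π a * π (τ * mE T G d f π w) * π b := by rw [h1, mul_one]
      _ = 1 := by rw [map_mul, ← mul_assoc]; exact hx
  have hd : nW T G F w ∈ D.diagonalSubgroup F := by
    rw [map_mul, K.map_mE, hzτ, mul_eq_one_iff_eq_inv'] at h1
    rw [h1]
    exact inv_mem (G.mem_diagonal.2 ⟨z, rfl⟩)
  have hb' : b = a⁻¹ := eq_inv_of_mul_eq_one_right hab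
  have hc : τ * mE T G d f π w ∈ Subgroup.center E := K.central h1
  rw [hb', mul_assoc a τ, Subgroup.mem_center_iff.1 hc a, mul_inv_cancel_right]
  exact mul_mem hτ (K.mE_mem_TE w.length w le_rfl hd)

/-- The bound on the kernel. -/
theorem card_ker_le (hsep : Sep T G d f ∨ Uniq T G d f π)
    (hgen : Subgroup.closure {x | ∃ r t, InO T d f r t ∧ x = L T G d f π r t} = ⊤) :
    Nat.card π.ker ≤ Nat.card {z : Fin D.rank → Fˣ //
      (∀ k, z (T.ρF k) = Units.map f.toMonoidHom (z k)) ∧ act (cartT D G.tab) z = 1} := by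
  classical
  have hcomm : Pairwise fun i j : Fin T.m => ∀ (a : (fld f (T.len i))ˣ) (b : (fld f (T.len j))ˣ),
      Commute (K.hHom i a) (K.hHom j b) := by
    intro i j _ a b
    rw [K.hHom_apply, K.hHom_apply]
    have ha : InO T d f (sR T G i) ((a : fld f (T.len i)) : F) := K.inO_sR_iff.2 (a : fld f (T.len i)).2
    have hb : InO T d f (sR T G j) ((b : fld f (T.len j)) : F) := K.inO_sR_iff.2 (b : fld f (T.len j)).2
    have ha0 : ((a : fld f (T.len i)) : F) ≠ 0 := fun e => a.ne_zero (Subtype.ext e)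
    have hb0 : ((b : fld f (T.len j)) : F) ≠ 0 := fun e => b.ne_zero (Subtype.ext e)
    obtain ⟨z, hz, e⟩ := K.map_hE_mem ha ha0
    exact mul_inv_eq_iff_eq_mul.1 (K.torus_conj_hE hb hb0 hz e)
  set θ := MonoidHom.noncommPiCoprod K.hHom hcomm
  have hle : TE T G d f π ≤ θ.range := by
    refine (Subgroup.closure_le _).2 ?_
    rintro _ ⟨j, t, ht, h0, rfl⟩
    refine ⟨Pi.mulSingle j (Units.mk0 ⟨t, K.inO_sR_iff.1 ht⟩ fun e => h0 (congrArg Subtype.val e)), ?_⟩
    rw [MonoidHom.noncommPiCoprod_mulSingle, K.hHom_apply]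
    rfl
  let v : (∀ j, (fld f (T.len j))ˣ) →* (Fin T.m → Fˣ) :=
    MonoidHom.mk' (fun u j => Units.map (fld f (T.len j)).subtype.toMonoidHom (u j)) fun a b => by funext j; simp
  let Z : (∀ j, (fld f (T.len j))ˣ) →* (Fin D.rank → Fˣ) :=
    MonoidHom.mk' (fun u => zOf T f K.ok (v u)) fun a b => by
      funext k
      simp only [zOf, map_mul, Pi.mul_apply, iterate_map_mul]
  have hπθ : π.comp θ = G.torus.comp Z := by
    refine pi_hom_ext _ _ fun j x => ?_
    rw [MonoidHom.comp_apply, MonoidHom.noncommPiCoprod_mulSingle, K.hHom_apply,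
      K.map_hE (K.inO_sR_iff.2 (x : fld f (T.len j)).2), MonoidHom.comp_apply, GraphData.orbProd]
    set t : F := ((x : fld f (T.len j)) : F)
    have hne : ∀ k, T.orbParam f j t k ≠ 0 := fun k h1 =>
      x.ne_zero (Subtype.ext (f.injective.iterate _ (h1.trans (iterate_map_zero f _).symm)))
    rw [List.map_congr_left (g := fun k => G.torus (Pi.mulSingle k (Units.mk0 _ (hne k))))
      (fun k _ => by rw [G.torus_mulSingle, Units.val_mk0]), ← Function.comp_def, ← List.map_map,
      ← map_list_prod]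
    congr 1
    funext k
    rw [← List.prod_toFinset _ (K.ok.nodup j), Finset.prod_apply]
    simp only [Pi.mulSingle_apply, Finset.prod_ite_eq, List.mem_toFinset]
    show _ = zOf T f K.ok (v (Pi.mulSingle j x)) k
    set j₀ := (K.ok.cover k).choose with hj₀
    have hk := (K.ok.cover k).choose_spec
    by_cases hmem : k ∈ T.orb j
    · have hj : j₀ = j := K.ok.disjoint _ _ _ hk hmem
      rw [if_pos hmem, zOf, ← hj₀, hj]
      simp only [v, MonoidHom.mk'_apply, Pi.mulSingle_eq_same]
      refine Units.ext ?_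
      rw [Units.val_mk0, GraphData.orbParam]
      induction (T.orb j).idxOf k with
      | zero => rfl
      | succ n ih => rw [Function.iterate_succ_apply', Function.iterate_succ_apply', ih]; rfl
    · have hj : j₀ ≠ j := fun e => hmem (e ▸ hk)
      rw [if_neg hmem, zOf, ← hj₀]
      simp only [v, MonoidHom.mk'_apply, Pi.mulSingle_eq_of_ne hj, map_one, iterate_map_one]
  let S := {u : ∀ j, (fld f (T.len j))ˣ // π (θ u) = 1}
  have h1 : Nat.card π.ker ≤ Nat.card S := by
    refine Nat.card_le_card_of_surjective (fun u : S => (⟨θ u.1, u.2⟩ : π.ker)) ?_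
    rintro ⟨x, hx⟩
    obtain ⟨u, rfl⟩ := hle (K.ker_le_TE hsep hgen hx)
    exact ⟨⟨u, hx⟩, rfl⟩
  refine h1.trans (Nat.card_le_card_of_injective (fun u : S => ⟨Z u.1, ?_, ?_⟩) ?_)
  · exact zOf_fix K.ok fun j => (u.1 j : fld f (T.len j)).2
  · rw [← G.mem_ker_torus, MonoidHom.mem_ker, ← MonoidHom.comp_apply, ← hπθ]
    exact u.2
  · rintro ⟨u, hu⟩ ⟨u', hu'⟩ e
    refine Subtype.ext (funext fun j => Units.ext (Subtype.ext ?_))
    have := congrFun (congrArg Subtype.val e) (T.rep j)
    simp only [Z, MonoidHom.mk'_apply, zOf_rep] at this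
    exact congrArg Units.val this

end Lifts

end Cfsg.Agent.H46.TwistCover
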