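import Cfsg.Agent.H46.TwistCover.SelfComm
import Cfsg.Agent.H82.Chev.TorusLift
import Cfsg.Agent.H46.TwistOrder

/-!
# Torus elements separating the orbits
-/

set_option autoImplicit false

namespace Cfsg.Agent.H46.TwistCover

open Cfsg.Lie Cfsg.Agent.H47 Cfsg.Agent.H46
open Cfsg.Agent.H82.Chev (cval zpow_finset_sum)
open scoped Matrix MatrixGroups

variable {D : ChevalleyDatum} {T : GraphData D} {G : Good D}

/-- A cocharacter shifted along the node map. -/
def shiftX (T : GraphData D) (d : ℕ) (x : List ℤ) (s : ℕ) : List ℤ :=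
  (List.finRange D.rank).map fun k => x.getD (T.ρF^[d - s] k).val 0

/-- The exponents of a root on a twisted cocharacter. -/
def XV (T : GraphData D) (G : Good D) (d : ℕ) (x : List ℤ) (r : ℕ) : List ℤ :=
  (List.range d).map fun s => cval D G.tab (shiftX T d x s) r

/-- Exponents giving a non-trivial character. -/
def goodV (L : List ℤ) : Bool :=
  L.any (fun u => decide (u ≠ 0)) &&
    (L.all (fun u => decide (u.natAbs ≤ 1)) ||
      (decide ((L.filter fun u => decide (u ≠ 0)).length = 1) && L.all (fun u => decide (u.natAbs ≤ 2))))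

/-- Exponents giving the trivial character. -/
def zeroV (L : List ℤ) : Bool := L.all (fun u => decide (u = 0))

/-- Every root is moved by a twisted cocharacter. -/
def chkMoves (T : GraphData D) (G : Good D) (d : ℕ) (ZS : List (List ℤ)) : Bool :=
  (List.finRange D.nroots).all fun r => ZS.any fun x => goodV (XV T G d x r.val)

/-- Distinct positive orbits are separated by a twisted cocharacter. -/
def chkSepO (T : GraphData D) (G : Good D) (d : ℕ) (ZS : List (List ℤ)) : Bool :=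
  (List.finRange D.nroots).all fun a => (List.finRange D.nroots).all fun b =>
    decide (a.val < D.nroots / 2) || decide (b.val < D.nroots / 2) ||
      (List.range (olen T d a)).any (fun s => decide (T.πF^[s] a = b)) ||
      ZS.any fun x => (zeroV (XV T G d x a.val) && goodV (XV T G d x b.val)) ||
        (zeroV (XV T G d x b.val) && goodV (XV T G d x a.val))

variable {F : Type*} [Field F]

/-- The exponent of a twisted cocharacter at a node. -/
def expX (T : GraphData D) (d q : ℕ) (x : List ℤ) (k : Fin D.rank) : ℤ :=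
  ∑ s ∈ Finset.range d, (q : ℤ) ^ s * x.getD (T.ρF^[d - s] k).val 0

/-- The value of a twisted cocharacter. -/
def zc (T : GraphData D) (d q : ℕ) (x : List ℤ) (c : Fˣ) (k : Fin D.rank) : Fˣ := c ^ expX T d q x k

/-- The exponent of a root. -/
def expR (T : GraphData D) (G : Good D) (d q : ℕ) (x : List ℤ) (r : ℕ) : ℤ :=
  ∑ s ∈ Finset.range d, (q : ℤ) ^ s * (XV T G d x r).getD s 0

theorem torusVal_zc (d q : ℕ) (x : List ℤ) (c : Fˣ) (r : ℕ) :
    G.torusVal (zc T d q x c) r = c ^ expR T G d q x r := by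
  have e : expR T G d q x r = ∑ k : Fin D.rank, expX T d q x k * G.cartForm k (G.rc r) := by
    rw [expR]
    simp only [expX, Finset.sum_mul]
    rw [Finset.sum_comm]
    refine Finset.sum_congr rfl fun s hs => ?_
    rw [List.getD_eq_getElem _ _ (by simpa [XV] using Finset.mem_range.1 hs)]
    simp only [XV, List.getElem_map, List.getElem_range, cval, sumR_eq_sum_fin, Finset.mul_sum]
    refine Finset.sum_congr rfl fun k _ => ?_
    rw [List.getD_eq_getElem _ _ (by simp [shiftX]), G.cart_eq_cartForm]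
    simp only [shiftX, List.getElem_map, List.getElem_finRange, Fin.cast_mk, Fin.eta]
    ring
  rw [e, zpow_finset_sum]
  exact Finset.prod_congr rfl fun k _ => by rw [zc, zpow_mul]

variable [Fintype F] {d q : ℕ} {f : F →+* F} (hf : ∀ x, f x = x ^ q) (hK : Fintype.card F = q ^ d)
  (hd : 0 < d)

include hf hK

theorem zpow_card_sub_one (c : Fˣ) : c ^ ((q : ℤ) ^ d - 1) = 1 := by
  have h := FiniteField.pow_card_sub_one_eq_one (c : F) c.ne_zero
  rw [hK] at h
  have h1 : 1 ≤ q ^ d := hK ▸ Fintype.card_pos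
  rw [show (q : ℤ) ^ d - 1 = ((q ^ d - 1 : ℕ) : ℤ) by push_cast [Nat.cast_sub h1]; ring, zpow_natCast]
  exact Units.ext (by rw [Units.val_pow_eq_pow_val, h, Units.val_one])

theorem fix_zc (O : OrbOk T G d) (x : List ℤ) (c : Fˣ) : Fix T f (zc T d q x c) := by
  intro k
  have e : Units.map f.toMonoidHom (zc T d q x c k) = c ^ ((q : ℤ) * expX T d q x k) := by
    rw [mul_comm, zpow_mul, zpow_natCast]
    refine Units.ext ?_
    rw [Units.val_pow_eq_pow_val]
    exact hf _
  rw [e]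
  set a : ℕ → ℤ := fun s => (q : ℤ) ^ s * x.getD (T.ρF^[d + 1 - s] k).val 0 with ha
  have h1 : expX T d q x (T.ρF k) = ∑ s ∈ Finset.range d, a s := Finset.sum_congr rfl fun s hs => by
    rw [ha, ← Function.iterate_succ_apply T.ρF]
    show _ = (q : ℤ) ^ s * x.getD (T.ρF^[d + 1 - s] k).val 0
    rw [show d + 1 - s = (d - s) + 1 by have := Finset.mem_range.1 hs; omega]
  have h2 : (q : ℤ) * expX T d q x k = ∑ s ∈ Finset.range d, a (s + 1) := by
    rw [expX, Finset.mul_sum]
    refine Finset.sum_congr rfl fun s _ => ?_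
    show _ = (q : ℤ) ^ (s + 1) * x.getD (T.ρF^[d + 1 - (s + 1)] k).val 0
    rw [Nat.succ_sub_succ_eq_sub, pow_succ]
    ring
  have h3 := (Finset.sum_range_succ' a d).symm.trans (Finset.sum_range_succ a d)
  have h4 : (q : ℤ) * expX T d q x k =
      expX T d q x (T.ρF k) + ((q : ℤ) ^ d - 1) * x.getD (T.ρF k).val 0 := by
    have a0 : a 0 = x.getD (T.ρF k).val 0 := by
      show (q : ℤ) ^ 0 * _ = _
      rw [pow_zero, one_mul, Nat.sub_zero, Function.iterate_succ_apply, O.rho_iter]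
    have ad : a d = (q : ℤ) ^ d * x.getD (T.ρF k).val 0 := by
      show (q : ℤ) ^ d * x.getD (T.ρF^[d + 1 - d] k).val 0 = _
      rw [Nat.add_sub_cancel_left, Function.iterate_one]
    rw [h1, h2]
    linear_combination h3 - a0 + ad
  rw [h4, zpow_add, zpow_mul, zpow_card_sub_one hf hK, one_zpow, mul_one]
  rfl

/-- A generator of the unit group. -/
theorem exists_gen : ∃ c : Fˣ, ∀ n : ℤ, c ^ n = 1 → ((q : ℤ) ^ d - 1) ∣ n := by
  obtain ⟨c, hc⟩ := IsCyclic.exists_generator (α := Fˣ)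
  refine ⟨c, fun n hn => ?_⟩
  have ho : orderOf c = q ^ d - 1 := by
    rw [orderOf_eq_card_of_forall_mem_zpowers hc, Nat.card_units, Nat.card_eq_fintype_card, hK]
  have h1 : 1 ≤ q ^ d := hK ▸ Fintype.card_pos
  have := orderOf_dvd_iff_zpow_eq_one.2 hn
  rwa [ho, Nat.cast_sub h1, Nat.cast_pow, Nat.cast_one] at this

omit hf hK in
theorem expR_eq_zero {x : List ℤ} {r : ℕ} (h : zeroV (XV T G d x r) = true) : expR T G d q x r = 0 := by
  refine Finset.sum_eq_zero fun s hs => ?_
  rw [List.getD_eq_getElem _ _ (by simpa [XV] using Finset.mem_range.1 hs)]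
  simp only [zeroV, List.all_eq_true, decide_eq_true_eq] at h
  rw [h _ (List.getElem_mem _), mul_zero]

omit hf hK in
theorem good_bound (hd23 : d = 2 ∨ d = 3) (hq : 3 ≤ q) {x : List ℤ} {r : ℕ} (h : goodV (XV T G d x r) = true) :
    expR T G d q x r ≠ 0 ∧ (expR T G d q x r).natAbs < q ^ d - 1 := by
  have hq' : (3 : ℤ) ≤ q := by exact_mod_cast hq
  have h2 : 9 ≤ q ^ 2 := by nlinarith
  have h3 : 27 ≤ q ^ 3 := by nlinarith
  rw [← Int.ofNat_lt, Int.natCast_natAbs, Nat.cast_sub (by rcases hd23 with rfl | rfl <;> omega), Nat.cast_pow,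
    abs_lt]
  simp only [goodV, Bool.and_eq_true, Bool.or_eq_true, List.all_eq_true, List.any_eq_true, decide_eq_true_eq] at h
  rcases hd23 with rfl | rfl
  · obtain ⟨u, v, huv⟩ : ∃ u v, XV T G 2 x r = [u, v] := ⟨_, _, rfl⟩
    have e : expR T G 2 q x r = u + (q : ℤ) * v := by
      simp [expR, huv, Finset.sum_range_succ]
    rw [e]
    rw [huv] at h
    simp only [List.mem_cons, List.not_mem_nil, or_false, forall_eq_or_imp, forall_eq] at h
    obtain ⟨⟨w, hw, hw0⟩, h⟩ := h
    have hb : u.natAbs ≤ 2 ∧ v.natAbs ≤ 2 := by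
      rcases h with ⟨a, b⟩ | ⟨-, a, b⟩ <;> exact ⟨by omega, by omega⟩
    obtain ⟨u0, v0⟩ : (-2 ≤ u ∧ u ≤ 2) ∧ (-2 ≤ v ∧ v ≤ 2) := by omega
    rcases u0 with ⟨ua, ub⟩
    rcases v0 with ⟨va, vb⟩
    interval_cases u <;> interval_cases v <;>
      first
        | (simp at h; done)
        | (rcases hw with rfl | rfl <;> simp at hw0; done)
        | refine ⟨?_, ?_, ?_⟩ <;> push_cast <;> nlinarith
  · obtain ⟨u, v, w, huv⟩ : ∃ u v w, XV T G 3 x r = [u, v, w] := ⟨_, _, _, rfl⟩
    have e : expR T G 3 q x r = u + (q : ℤ) * v + (q : ℤ) ^ 2 * w := by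
      simp [expR, huv, Finset.sum_range_succ]
    rw [e]
    rw [huv] at h
    simp only [List.mem_cons, List.not_mem_nil, or_false, forall_eq_or_imp, forall_eq] at h
    obtain ⟨⟨z, hz, hz0⟩, h⟩ := h
    have hb : u.natAbs ≤ 2 ∧ v.natAbs ≤ 2 ∧ w.natAbs ≤ 2 := by
      rcases h with ⟨a, b, c⟩ | ⟨-, a, b, c⟩ <;> exact ⟨by omega, by omega, by omega⟩
    obtain ⟨u0, v0, w0⟩ : (-2 ≤ u ∧ u ≤ 2) ∧ (-2 ≤ v ∧ v ≤ 2) ∧ (-2 ≤ w ∧ w ≤ 2) := by omega
    rcases u0 with ⟨ua, ub⟩
    rcases v0 with ⟨va, vb⟩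
    rcases w0 with ⟨wa, wb⟩
    interval_cases u <;> interval_cases v <;> interval_cases w <;>
      first
        | (simp at h; done)
        | (rcases hz with rfl | rfl | rfl <;> simp at hz0; done)
        | refine ⟨?_, ?_, ?_⟩ <;> push_cast <;> nlinarith [mul_le_mul_of_nonneg_right hq' (sq_nonneg (q : ℤ))]

variable (hd23 : d = 2 ∨ d = 3) (hq : 3 ≤ q) (O : OrbOk T G d)

include O hd23 hq

theorem exists_moving {x : List ℤ} {r : ℕ} (h : goodV (XV T G d x r) = true) :
    ∃ c : Fˣ, (G.torusVal (zc T d q x c) r : F) ≠ 1 := by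
  obtain ⟨c, hc⟩ := exists_gen hf hK
  refine ⟨c, fun e => ?_⟩
  obtain ⟨h0, hlt⟩ := good_bound hd23 hq h
  have h1 := hc _ ((torusVal_zc d q x c r).symm.trans (Units.ext e))
  refine absurd (Int.le_of_dvd (Int.natCast_pos.2 (Int.natAbs_pos.2 h0)) (Int.dvd_natAbs.2 h1)) ?_
  have hqd : 1 ≤ q ^ d := hK ▸ Fintype.card_pos
  rw [not_le, ← Nat.cast_pow, ← Nat.cast_one, ← Nat.cast_sub hqd]
  exact Int.ofNat_lt.2 hlt

theorem moves_of_chk {ZS : List (List ℤ)} (h : chkMoves T G d ZS = true) (r : Fin D.nroots) :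
    ∃ z, Fix T f z ∧ (G.torusVal z r.val : F) ≠ 1 := by
  simp only [chkMoves, List.all_eq_true, List.any_eq_true] at h
  obtain ⟨x, -, hx⟩ := h r (List.mem_finRange r)
  obtain ⟨c, hc⟩ := exists_moving hf hK hd23 hq O hx
  exact ⟨_, fix_zc hf hK O x c, hc⟩

theorem sep_of_chk {ZS : List (List ℤ)} (h : chkSepO T G d ZS = true) : Sep T G d f := by
  intro a b ha hb hab
  simp only [chkSepO, List.all_eq_true, List.any_eq_true, Bool.or_eq_true, Bool.and_eq_true,
    decide_eq_true_eq] at h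
  rcases h a (List.mem_finRange a) b (List.mem_finRange b) with ((h1 | h1) | ⟨s, hs, e⟩) | ⟨x, -, h1⟩
  · omega
  · omega
  · exact absurd (Finset.mem_image.2 ⟨s, Finset.mem_range.2 (List.mem_range.1 hs), e⟩) hab
  · rcases h1 with ⟨hz, hg⟩ | ⟨hz, hg⟩ <;>
      obtain ⟨c, hc⟩ := exists_moving hf hK hd23 hq O hg
    · refine ⟨_, fix_zc hf hK O x c, Or.inl ⟨?_, hc⟩⟩
      rw [torusVal_zc, expR_eq_zero hz, zpow_zero, Units.val_one]
    · refine ⟨_, fix_zc hf hK O x c, Or.inr ⟨?_, hc⟩⟩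
      rw [torusVal_zc, expR_eq_zero hz, zpow_zero, Units.val_one]

omit hd23 hq in
/-- Two cocharacters of exponents of greatest common divisor one give all scalars. -/
theorem surj_of_exp {x y : List ℤ} {r : ℕ} {a b : ℤ}
    (h : expR T G d q x r * a + expR T G d q y r * b = 1) (c : F) (hc : c ≠ 0) :
    ∃ z, Fix T f z ∧ (G.torusVal z r : F) = c := by
  refine ⟨zc T d q x (Units.mk0 c hc ^ a) * zc T d q y (Units.mk0 c hc ^ b), ?_, ?_⟩
  · intro k
    rw [Pi.mul_apply, Pi.mul_apply, map_mul, fix_zc hf hK O x _ k, fix_zc hf hK O y _ k]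
  · rw [G.torusVal_mul, torusVal_zc, torusVal_zc, ← zpow_mul, ← zpow_mul, ← zpow_add, mul_comm a, mul_comm b, h,
      zpow_one, Units.val_mk0]

omit hd23 hq in
theorem inO_all {r : Fin D.nroots} (hr : olen T d r = d) (c : F) : InO T d f r c := by
  rw [InO, hr, iterate_qFrob f hf, ← hK, FiniteField.pow_card]

omit hf hK O hd23 hq in
/-- A scalar outside the roots of unity of order at most three. -/
theorem exists_scalar (h5 : 5 ≤ Fintype.card F) : ∃ c : F, c ≠ 0 ∧ 1 + c ≠ 0 ∧ c * c + c + 1 ≠ 0 := by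
  classical
  by_contra hne
  push_neg at hne
  obtain ⟨r0, hr0⟩ : ∃ r0 : F, ∀ c : F, c ≠ 0 → 1 + c ≠ 0 → c = r0 ∨ c = -1 - r0 := by
    by_cases h : ∃ c0 : F, c0 * c0 + c0 + 1 = 0
    · obtain ⟨c0, h0⟩ := h
      refine ⟨c0, fun c h1 h2 => ?_⟩
      have := hne c h1 h2
      rcases mul_eq_zero.1 (show (c - c0) * (c + c0 + 1) = 0 by linear_combination this - h0) with e | e
      · exact Or.inl (sub_eq_zero.1 e)
      · exact Or.inr (by linear_combination e)
    · exact ⟨0, fun c h1 h2 => absurd ⟨c, hne c h1 h2⟩ h⟩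
  have hsub : (Finset.univ : Finset F) ⊆ {0, -1, r0, -1 - r0} := fun c _ => by
    by_cases h1 : c = 0
    · simp [h1]
    by_cases h2 : 1 + c = 0
    · have : c = -1 := by linear_combination h2
      simp [this]
    rcases hr0 c h1 h2 with e | e <;> simp [e]
  have := Finset.card_le_card hsub
  rw [Finset.card_univ] at this
  have h4 : ({0, -1, r0, -1 - r0} : Finset F).card ≤ 4 := Finset.card_le_four
  omega

end Cfsg.Agent.H46.TwistCover
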