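import Cfsg.Agent.H46.TwistCover.Stem
import Cfsg.Agent.H82.Chev.TorusHom
import Cfsg.Agent.H82.Mult
import Cfsg.Agent.H46.TwistOrder

/-!
# A cover of a twisted group inside a cover of the ambient group
-/

set_option autoImplicit false

namespace Cfsg.Agent.H46.TwistCover

open Cfsg.Lie Cfsg.Agent.H47 Cfsg.Agent.H46
open Cfsg.Agent.H82.Chev (RootLift nn hh)
open scoped Matrix MatrixGroups commutatorElement

universe u

variable {D : ChevalleyDatum} {T : GraphData D} {G : Good D} {F : Type u} [Field F] {d : ℕ} {f : F →+* F}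
  {E₀ : Type u} [Group E₀] {π₀ : E₀ →* GL D.Idx F} {L₀ : ℕ → F → E₀}

theorem root_ne (G : Good D) {a b : Fin D.rank} (hab : a ≠ b) :
    D.simple b ≠ D.simple a ∧ D.simple b ≠ D.neg (D.simple a) ∧ D.neg (D.simple b) ≠ D.simple a ∧
      D.neg (D.simple b) ≠ D.neg (D.simple a) := by
  have h1 : D.simple b ≠ D.simple a := fun e => hab (by
    by_contra
    have := congrArg G.rc e
    rw [G.rc_simple a.2, G.rc_simple b.2] at this
    have := congrFun this a
    simp [hab] at this)
  refine ⟨h1, G.ne_neg_of_pos (G.isPosRoot_simple a.2) (G.isPosRoot_simple b.2),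
    (G.ne_neg_of_pos (G.isPosRoot_simple b.2) (G.isPosRoot_simple a.2)).symm,
    fun e => h1 (by rw [← G.neg_neg (G.simple_lt b.2), e, G.neg_neg (G.simple_lt a.2)])⟩

variable [Finite F] (R : RootLift G π₀ L₀)

include R

theorem torusHom_mul_L (z : Fin D.rank → Fˣ) {s : ℕ} (hs : s < D.nroots) (t : F) :
    R.torusHom z * L₀ s t * (R.torusHom z)⁻¹ = L₀ s ((G.torusVal z s : F) * t) := by
  have hz : R.torusHom z ∈ R.equi := R.torusSub_le_equi (R.range_torusHom ▸ ⟨z, rfl⟩)
  rw [mul_inv_eq_iff_eq_mul]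
  refine hz.2 s s hs hs t _ ?_
  rw [R.map_torusHom, G.torus_mul_xg z hs]

theorem L₀_commute {r s : ℕ} (hr : r < D.nroots) (hs : s < D.nroots) (hne : s ≠ r) (hneg : s ≠ D.neg r)
    (hct : D.commTerms r s = []) (t u : F) : Commute (L₀ r t) (L₀ s u) := by
  have := R.comm r s hr hs hne hneg t u
  rw [ChevalleyDatum.commWord, hct] at this
  show _ = _
  simpa using this.symm

theorem simple_commute (h : T.Ok G) {j : Fin T.m} {a b : Fin D.rank} (ha : a ∈ T.orb j) (hb : b ∈ T.orb j)
    (hab : a ≠ b) (t u : F) :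
    Commute (L₀ (D.simple a) t) (L₀ (D.simple b) u) ∧
    Commute (L₀ (D.simple a) t) (L₀ (D.neg (D.simple b)) u) ∧
    Commute (L₀ (D.neg (D.simple a)) t) (L₀ (D.simple b) u) ∧
    Commute (L₀ (D.neg (D.simple a)) t) (L₀ (D.neg (D.simple b)) u) := by
  obtain ⟨-, h1, h2, h3, h4⟩ := h.orth j a ha b hb hab
  have la := G.simple_lt a.2
  have lb := G.simple_lt b.2
  obtain ⟨n1, n2, n3, n4⟩ := root_ne G hab
  refine ⟨L₀_commute R la lb n1 n2 h1 t u, L₀_commute R la (G.neg_lt lb) n3 n4 h2 t u,
    L₀_commute R (G.neg_lt la) lb n2 ?_ h3 t u, L₀_commute R (G.neg_lt la) (G.neg_lt lb) n4 ?_ h4 t u⟩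
  · rw [G.neg_neg la]; exact n1
  · rw [G.neg_neg la]; exact n3

/-- The lifted preimage of the twisted group. -/
noncomputable def preG1 (h : T.Ok G) (C : CoxData G) (f : F →+* F) : Subgroup E₀ := R.gen ⊓ (T.tdata h C f).G1.comap π₀

variable (h : T.Ok G) (C : CoxData G)

theorem central_preG1 : (π₀.comp (preG1 R h C f).subtype).ker ≤ Subgroup.center ↥(preG1 R h C f) := by
  intro x hx
  exact Subgroup.mem_center_iff.2 fun y => Subtype.ext (R.commute_gen_of_map x.2.1 hx y.2.1).eq.symm

theorem exists_preG1 {g : GL D.Idx F} (hg : g ∈ (T.tdata h C f).G1) :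
    ∃ a : ↥(preG1 R h C f), π₀ (a : E₀) = g := by
  have hle : (T.tdata h C f).G1 ≤ D.group F := by
    rw [T.G1_eq_closure h C f]
    refine (Subgroup.closure_le _).2 ?_
    rintro g ⟨j, c, -, rfl | rfl⟩ <;> refine Subgroup.list_prod_mem _ fun x hx => ?_ <;>
      obtain ⟨k, -, rfl⟩ := List.mem_map.1 hx <;> exact G.xg_mem_group _ _
  have hgen : D.group F ≤ R.gen.map π₀ := G.group_le fun r hr t =>
    ⟨_, Subgroup.subset_closure ⟨r, t, hr, rfl⟩, R.map_L r hr t⟩
  obtain ⟨m, hm, e⟩ := hgen (hle hg)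
  exact ⟨⟨m, hm, show π₀ m ∈ _ by rw [e]; exact hg⟩, e⟩

variable {R h C}

/-- The lifts on a simple orbit are products of the ambient lifts. -/
theorem coe_L_simple (hm : Moves T G f) (K : Lifts T G d f (π₀.comp (preG1 R h C f).subtype)) {j : Fin T.m} (neg : Bool) {t : F}
    (ht : InO T d f (sR T G j) t) :
    ((L T G d f (π₀.comp (preG1 R h C f).subtype) (if neg then G.negF (sR T G j) else sR T G j) t :
      ↥(preG1 R h C f)) : E₀) =
      T.orbProd j fun k : Fin D.rank =>
        L₀ (if neg then D.neg (D.simple k) else D.simple k) (T.orbParam f j t k) := by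
  set r : Fin D.nroots := if neg then G.negF (sR T G j) else sR T G j with hr
  set root : Fin D.rank → ℕ := fun k => if neg then D.neg (D.simple k) else D.simple k with hroot
  have hlt : ∀ k, root k < D.nroots := fun k => by
    cases neg <;> simp [hroot, G.simple_lt k.2, G.neg_lt (G.simple_lt k.2)]
  have hcm : ∀ a ∈ T.orb j, ∀ b ∈ T.orb j, a ≠ b → ∀ v w, Commute (L₀ (root a) v) (L₀ (root b) w) := by
    intro a ha b hb hab v w
    cases neg
    · exact (simple_commute R h ha hb hab v w).1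
    · exact (simple_commute R h ha hb hab v w).2.2.2
  have hiff : ∀ v, InO T d f r v ↔ InO T d f (sR T G j) v := fun v => by
    cases neg
    · exact Iff.rfl
    · exact K.inO_negF_iff
  have hoX : ∀ v, InO T d f (sR T G j) v →
      oX T G d f r v = T.orbProd j fun k => G.xg (root k) (T.orbParam f j v k) := fun v hv => by
    cases neg
    · exact K.oX_sR hv
    · exact K.oX_negF_sR hv
  have hπ : ∀ c : Fin D.rank → F, π₀ (T.orbProd j fun k => L₀ (root k) (c k)) =
      T.orbProd j fun k => G.xg (root k) (c k) := fun c => by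
    rw [GraphData.orbProd, map_list_prod, List.map_map]
    exact congrArg List.prod (List.map_congr_left fun k _ => R.map_L _ (hlt k) _)
  obtain ⟨z, hz, hne'⟩ := hm r
  have hne : (G.torusVal z r.val : F) - 1 ≠ 0 := sub_ne_zero.2 hne'
  set c : F := (G.torusVal z r.val : F) with hc
  set v := (c - 1)⁻¹ * t with hv
  have hvin : InO T d f r v := by
    refine InO.mul f (InO.inv f ?_) ((hiff t).2 ht)
    rw [sub_eq_add_neg]
    exact InO.add f (torusVal_inO K.ok K.orb f hz r) (InO.sign f (Or.inr rfl))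
  have hvin' := (hiff v).1 hvin
  have hBmem : T.orbProd j (fun k => L₀ (root k) (T.orbParam f j v k)) ∈ preG1 R h C f := by
    refine ⟨Subgroup.list_prod_mem _ fun x hx => ?_, ?_⟩
    · obtain ⟨k, -, rfl⟩ := List.mem_map.1 hx
      exact Subgroup.subset_closure ⟨root k, _, hlt k, rfl⟩
    · show π₀ _ ∈ (T.tdata h C f).G1
      rw [hπ, ← hoX v hvin']
      exact oX_mem_G1 h K.orb C hvin
  have hHmem : R.torusHom z ∈ preG1 R h C f := by
    refine ⟨R.torusHom_mem_gen z, ?_⟩
    show π₀ _ ∈ (T.tdata h C f).G1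
    rw [R.map_torusHom, T.G1_eq_closure h C f]
    exact T.fixTorus_le_closure h f ⟨z, hz, rfl⟩
  have e := K.L_unique hvin hz (h := ⟨_, hHmem⟩) (a := ⟨_, hBmem⟩) (R.map_torusHom z)
    ((hπ _).trans (hoX v hvin').symm)
  rw [show (c - 1) * v = t by rw [hv]; field_simp] at e
  rw [← e]
  show ⁅R.torusHom z, T.orbProd j fun k => L₀ (root k) (T.orbParam f j v k)⁆ = _
  rw [commutatorElement_def, mul_inv_eq_iff_eq_mul]
  simp only [GraphData.orbProd]
  rw [← prod_map_mul_of_commute _ _ _ (h.nodup j) fun a ha b hb hab => hcm a ha b hb hab _ _,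
    ← MulAut.conj_apply, map_list_prod, List.map_map]
  refine congrArg List.prod (List.map_congr_left fun k hk => ?_)
  rw [Function.comp_apply, MulAut.conj_apply, torusHom_mul_L R z (hlt k), R.add _ (hlt k)]
  congr 1
  obtain ⟨s, hs, rfl⟩ := List.mem_map.1 hk
  have hs' := (List.mem_range.1 hs).le
  rw [T.orbParam_apply h f (K.inO_sR_iff.1 hvin') hs', T.orbParam_apply h f (K.inO_sR_iff.1 ht) hs']
  have hval : (G.torusVal z (root (T.ρF^[s] (T.rep j))) : F) = f^[s] c := by
    clear hk hs hs'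
    induction s with
    | zero => cases neg <;> rfl
    | succ s ih =>
      rw [Function.iterate_succ_apply', Function.iterate_succ_apply', ← ih]
      cases neg
      · exact congrArg Units.val (T.torusVal_rho h f z hz _)
      · simp only [hroot, if_true, G.torusVal_neg (G.simple_lt (Fin.is_lt _))]
        rw [T.torusVal_rho h f z hz, ← map_inv]
        rfl
  rw [hval, ← iterate_map_mul, ← iterate_map_add]
  congr 1
  rw [hv]
  field_simp
  ring

variable (R h C)

theorem coe_nE (hm : Moves T G f) (K : Lifts T G d f (π₀.comp (preG1 R h C f).subtype)) {j : Fin T.m} {t : F}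
    (ht : InO T d f (sR T G j) t) :
    ((nE T G d f (π₀.comp (preG1 R h C f).subtype) j t : ↥(preG1 R h C f)) : E₀) =
      T.orbProd j fun k : Fin D.rank => nn D L₀ (D.simple k) (T.orbParam f j t k) := by
  have hi : InO T d f (sR T G j) (-t⁻¹) := InO.neg f (InO.inv f ht)
  have hx := coe_L_simple hm K false ht
  have hy := coe_L_simple hm K true hi
  simp only [if_true, Bool.false_eq_true, if_false] at hx hy
  simp only [nE, Cfsg.Agent.H92.rn, xE, yE, Subgroup.coe_mul, hx, hy, GraphData.orbProd]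
  rw [← prod_map_mul_of_commute _ _ _ (h.nodup j)
      (fun a ha b hb hab => (simple_commute R h ha hb hab _ _).2.2.1),
    ← prod_map_mul_of_commute _ _ _ (h.nodup j)
      (fun a ha b hb hab => (simple_commute R h ha hb hab _ _).1.mul_right (simple_commute R h ha hb hab _ _).2.1)]
  refine congrArg List.prod (List.map_congr_left fun k hk => ?_)
  obtain ⟨s, hs, rfl⟩ := List.mem_map.1 hk
  have hs' := (List.mem_range.1 hs).le
  rw [T.orbParam_apply h f (K.inO_sR_iff.1 hi) hs', T.orbParam_apply h f (K.inO_sR_iff.1 ht) hs',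
    iterate_map_neg, nn]
  have hfi : ∀ m, f^[m] t⁻¹ = (f^[m] t)⁻¹ := fun m => by
    induction m with
    | zero => rfl
    | succ m ih => rw [Function.iterate_succ_apply', Function.iterate_succ_apply', ih, map_inv₀]
  rw [hfi]

theorem nn_commute (h : T.Ok G) {j : Fin T.m} {a b : Fin D.rank} (ha : a ∈ T.orb j) (hb : b ∈ T.orb j) (hab : a ≠ b)
    (t u : F) : Commute (nn D L₀ (D.simple a) t) (nn D L₀ (D.simple b) u) := by
  have h1 : ∀ v, Commute (nn D L₀ (D.simple a) t) (L₀ (D.simple b) v) := fun v =>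
    ((simple_commute R h ha hb hab _ _).1.mul_left (simple_commute R h ha hb hab _ _).2.2.1).mul_left
      (simple_commute R h ha hb hab _ _).1
  have h2 : ∀ v, Commute (nn D L₀ (D.simple a) t) (L₀ (D.neg (D.simple b)) v) := fun v =>
    ((simple_commute R h ha hb hab _ _).2.1.mul_left (simple_commute R h ha hb hab _ _).2.2.2).mul_left
      (simple_commute R h ha hb hab _ _).2.1
  exact ((h1 _).mul_right (h2 _)).mul_right (h1 _)

theorem coe_hE (hm : Moves T G f) (K : Lifts T G d f (π₀.comp (preG1 R h C f).subtype)) {j : Fin T.m} {t : F}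
    (ht : InO T d f (sR T G j) t) :
    ((hE T G d f (π₀.comp (preG1 R h C f).subtype) j t : ↥(preG1 R h C f)) : E₀) =
      T.orbProd j fun k : Fin D.rank => hh D L₀ (D.simple k) (T.orbParam f j t k) := by
  rw [hE, Cfsg.Agent.H92.rh, Subgroup.coe_mul, Subgroup.coe_inv]
  show ((nE T G d f (π₀.comp (preG1 R h C f).subtype) j t : ↥(preG1 R h C f)) : E₀) *
    ((nE T G d f (π₀.comp (preG1 R h C f).subtype) j 1 : ↥(preG1 R h C f)) : E₀)⁻¹ = _
  rw [coe_nE R h C hm K ht, coe_nE R h C hm K (InO.one f _), mul_inv_eq_iff_eq_mul]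
  simp only [GraphData.orbProd]
  rw [← prod_map_mul_of_commute (fun k : Fin D.rank => hh D L₀ (D.simple k) (T.orbParam f j t k))
    (fun k : Fin D.rank => nn D L₀ (D.simple k) (T.orbParam f j 1 k)) _ (h.nodup j) fun a ha b hb hab =>
    (nn_commute R h ha hb hab _ _).mul_right (nn_commute R h ha hb hab _ _)]
  refine congrArg List.prod (List.map_congr_left fun k _ => ?_)
  rw [show T.orbParam f j (1 : F) k = 1 from iterate_map_one f _, ← R.nn_eq_hh_mul (G.simple_lt k.2)]

/-- The multiplier of a twisted group from an ambient lift. -/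
theorem hasCyclicSchurMultiplier_of_rootLift [Finite E₀] (O : OrbOk T G d)
    (hmoves : ∀ r : Fin D.nroots, ∃ z, Fix T f z ∧ (G.torusVal z r.val : F) ≠ 1)
    (hself : ∀ {E : Type u} [Group E] (π : E →* GL D.Idx F), π.ker ≤ Subgroup.center E →
      (∀ r t, InO T d f r t → oX T G d f r t ∈ π.range) → ∀ j, SelfAt T G d f π (sR T G j))
    {n : ℕ} (hn : Nat.card {z : Fin D.rank → Fˣ //
      (∀ k, z (T.ρF k) = Units.map f.toMonoidHom (z k)) ∧ act (cartT D G.tab) z = 1} = n)
    (hcyc : IsCyclic (G.torus (F := F)).ker)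
    (hinj : ∀ z : Fin D.rank → Fˣ, G.torus z = 1 → R.torusHom z = 1 → z = 1)
    (hb : ∀ (Δ : Type u) [Group Δ] [Finite Δ] (τ : Δ →* ↥(T.tdata h C f).G1), Cfsg.IsStemExtension τ →
      Nat.card τ.ker ≤ n) :
    Cfsg.HasCyclicSchurMultiplier ↥(T.tdata h C f).G1 n := by
  classical
  set π := π₀.comp (preG1 R h C f).subtype with hπdef
  have hc := central_preG1 R h C (f := f)
  have hX : ∀ r t, InO T d f r t → oX T G d f r t ∈ π.range := fun r t ht =>
    exists_preG1 R h C (oX_mem_G1 h O C ht)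
  have K : Lifts T G d f π := ⟨h, O, hc, hX, Or.inr hmoves, fun r => selfAt_of_simple h O hX (hself π hc hX) r⟩
  set M := Subgroup.closure {x | ∃ r t, InO T d f r t ∧ x = L T G d f π r t} with hM
  have hsurj : ∀ g ∈ (T.tdata h C f).G1, ∃ m ∈ M, π m = g := by
    intro g hg
    rw [T.G1_eq_closure h C f] at hg
    have hle : Subgroup.closure (T.genSet G f) ≤ M.map π := by
      refine (Subgroup.closure_le _).2 ?_
      rintro g ⟨j, c, hj, rfl | rfl⟩
      · rw [pX_eq_oX h O hj]
        exact ⟨_, Subgroup.subset_closure ⟨_, _, sat_inO h O hj, rfl⟩, K.map_L (sat_inO h O hj)⟩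
      · rw [nX_eq_oX h O hj]
        have hi := K.inO_negF_iff.2 (sat_inO h O hj)
        exact ⟨_, Subgroup.subset_closure ⟨_, _, hi, rfl⟩, K.map_L hi⟩
    exact hle hg
  let σ : ↥M →* ↥(T.tdata h C f).G1 := (π.comp M.subtype).codRestrict _ fun x => x.1.2.2
  have hker : ∀ x : ↥M, x ∈ σ.ker ↔ π x.1 = 1 := fun x =>
    ⟨fun e => congrArg Subtype.val (MonoidHom.mem_ker.1 e), fun e => MonoidHom.mem_ker.2 (Subtype.ext e)⟩
  have hperf : ∀ x : ↥M, x ∈ commutator ↥M := by
    rintro ⟨x, hx⟩
    induction hx using Subgroup.closure_induction with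
    | mem x hx =>
      obtain ⟨r, t, ht, rfl⟩ := hx
      obtain ⟨z, hz, hne'⟩ := hmoves r
      have hne : (G.torusVal z r.val : F) - 1 ≠ 0 := sub_ne_zero.2 hne'
      obtain ⟨m, hm, em⟩ := hsurj (G.torus z) (by
        rw [T.G1_eq_closure h C f]; exact T.fixTorus_le_closure h f ⟨_, hz, rfl⟩)
      have hv : InO T d f r (((G.torusVal z r.val : F) - 1)⁻¹ * t) := by
        refine InO.mul f (InO.inv f ?_) ht
        rw [sub_eq_add_neg]
        exact InO.add f (torusVal_inO h O f hz r) (InO.sign f (Or.inr rfl))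
      have e := K.L_unique hv hz em (K.map_L hv)
      rw [← mul_assoc, mul_inv_cancel₀ hne, one_mul] at e
      rw [commutator_def]
      convert Subgroup.commutator_mem_commutator (Subgroup.mem_top (⟨m, hm⟩ : ↥M))
        (Subgroup.mem_top (⟨_, Subgroup.subset_closure ⟨r, _, hv, rfl⟩⟩ : ↥M)) using 1
      exact Subtype.ext e.symm
    | one => exact one_mem _
    | mul a b ha hb' iha ihb => exact mul_mem iha ihb
    | inv a ha iha => exact inv_mem iha
  have hσ : Cfsg.IsStemExtension σ := by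
    refine ⟨fun g => ?_, fun x hx => Subgroup.mem_center_iff.2 fun y => ?_, fun x _ => hperf x⟩
    · obtain ⟨m, hm, e⟩ := hsurj g g.2
      exact ⟨⟨m, hm⟩, Subtype.ext e⟩
    · exact Subtype.ext (Subgroup.mem_center_iff.1 (hc ((hker x).1 hx)) y.1)
  have hmemM : ∀ z, Fix T f z → ∃ m ∈ M, ((m : ↥(preG1 R h C f)) : E₀) = R.torusHom z := by
    intro z hz
    let S : Subgroup E₀ := M.map (preG1 R h C f).subtype
    suffices hS : R.torusHom z ∈ S from by
      obtain ⟨m, hm, e⟩ := hS
      exact ⟨m, hm, e⟩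
    set Lst : List (Fin D.rank) := (List.finRange T.m).flatMap T.orb
    have hL : Lst.Perm (Finset.univ : Finset (Fin D.rank)).toList := by
      refine (List.perm_ext_iff_of_nodup ?_ (Finset.nodup_toList _)).2 fun k => ?_
      · refine List.nodup_flatMap.2 ⟨fun j _ => h.nodup j, (List.nodup_finRange _).imp fun {a b} hab => ?_⟩
        exact fun k hka hkb => hab (h.disjoint a b k hka hkb)
      · simp only [Finset.mem_toList, Finset.mem_univ, iff_true, Lst, List.mem_flatMap]
        exact (h.cover k).imp fun j hj => ⟨List.mem_finRange j, hj⟩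
    rw [show z = (Lst.map fun k => Pi.mulSingle k (z k)).prod by
      rw [(hL.map _).prod_eq, Finset.prod_map_toList, Finset.univ_prod_mulSingle], map_list_prod, List.map_map,
      List.map_flatMap, List.flatMap, List.prod_flatten, List.map_map]
    refine Subgroup.list_prod_mem _ fun x hx => ?_
    obtain ⟨j, -, rfl⟩ := List.mem_map.1 hx
    set t : F := (z (T.rep j) : F)
    have hsat : T.Sat f j fun k => (z k : F) := fun k _ => congrArg Units.val (hz k)
    have ht : InO T d f (sR T G j) t := sat_inO h O hsat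
    have e : ((hE T G d f π j t : ↥(preG1 R h C f)) : E₀) =
        ((T.orb j).map (R.torusHom ∘ fun k => Pi.mulSingle k (z k))).prod := by
      rw [coe_hE R h C hmoves K ht]
      refine congrArg List.prod (List.map_congr_left fun k hk => ?_)
      rw [Function.comp_apply, R.torusHom_mulSingle]
      obtain ⟨s, hs, rfl⟩ := List.mem_map.1 hk
      rw [T.orbParam_apply h f (K.inO_sR_iff.1 ht) (List.mem_range.1 hs).le, (T.sat_iterate h f hsat s).2]
    rw [Function.comp_apply, ← e]
    have hin : ∀ {r t}, InO T d f r t → L T G d f π r t ∈ M := fun hh =>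
      Subgroup.subset_closure ⟨_, _, hh, rfl⟩
    have hnE : ∀ v, InO T d f (sR T G j) v → nE T G d f π j v ∈ M := fun v hv =>
      mul_mem (mul_mem (hin hv) (hin (K.inO_negF_iff.2 (InO.neg f (InO.inv f hv))))) (hin hv)
    exact ⟨_, mul_mem (hnE t ht) (inv_mem (hnE 1 (InO.one f _))), rfl⟩
  let Z : Subgroup (G.torus (F := F)).ker := (T.fixParam f).subgroupOf (G.torus (F := F)).ker
  have hZk : ∀ z : Z, π₀ (R.torusHom z.1.1) = 1 := fun z => by rw [R.map_torusHom]; exact z.1.2
  have hZP : ∀ z : Z, R.torusHom z.1.1 ∈ preG1 R h C f := fun z =>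
    ⟨R.torusHom_mem_gen _, show π₀ _ ∈ (T.tdata h C f).G1 by rw [hZk z]; exact one_mem _⟩
  have hZM : ∀ z : Z, (⟨_, hZP z⟩ : ↥(preG1 R h C f)) ∈ M := fun z => by
    obtain ⟨m, hm, e⟩ := hmemM z.1.1 z.2
    exact (show (⟨_, hZP z⟩ : ↥(preG1 R h C f)) = m from Subtype.ext e.symm) ▸ hm
  let φ : Z →* σ.ker :=
    ((((R.torusHom.comp ((G.torus (F := F)).ker.subtype.comp Z.subtype)).codRestrict _ hZP).codRestrict M
      hZM).codRestrict σ.ker fun z => (hker _).2 (hZk z))
  have hφ : Function.Injective φ := by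
    refine (injective_iff_map_eq_one φ).2 fun z hz => ?_
    have e : R.torusHom z.1.1 = 1 := congrArg (fun k : σ.ker => (k.1.1.1 : E₀)) hz
    exact Subtype.ext (Subtype.ext (hinj _ z.1.2 e))
  have hcard : Nat.card Z = n := by
    rw [← hn]
    exact Nat.card_congr
      { toFun := fun z => ⟨z.1.1, z.2, (G.mem_ker_torus _).1 z.1.2⟩
        invFun := fun z => ⟨⟨z.1, (G.mem_ker_torus _).2 z.2.2⟩, z.2.1⟩
        left_inv := fun _ => rfl
        right_inv := fun _ => rfl }
  have hle : Nat.card σ.ker ≤ n := hb _ σ hσ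
  have hbij : Function.Bijective φ := hφ.bijective_of_nat_card_le (hle.trans hcard.ge)
  haveI := hcyc
  haveI : IsCyclic Z := Subgroup.isCyclic _
  exact Cfsg.Agent.H82.hasCyclicSchurMultiplier_of_card hσ (isCyclic_of_surjective φ hbij.2)
    ((Nat.card_congr (Equiv.ofBijective φ hbij)).symm.trans hcard) hb

end Cfsg.Agent.H46.TwistCover
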