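import Cfsg.Agent.H46.TwistCover.Inst
import Cfsg.Agent.H46.TwistCover.Realise
import Cfsg.Agent.H82.Chev.DataEmbE6
import Cfsg.Agent.H82.Chev.DataE6
import Cfsg.Agent.H82.Chev.DataCover

/-!
# The Schur multiplier of ²E₆(q)
-/

set_option autoImplicit false
set_option maxRecDepth 100000

namespace Cfsg.Agent.H46.TwistCover

open Cfsg.Lie Cfsg.Agent.H47 Cfsg.Agent.H46
open Cfsg.Agent.H82.Chev (RootLift nn hh pairL rootLift_pair chkEmb embIdx)
open scoped Matrix MatrixGroups

universe u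

section fst

variable {D D' : ChevalleyDatum} {G : Good D} {G' : Good D'} {F : Type u} [Field F] [Fintype F] {N : ℕ}

/-- The first component of the lifted torus of an embedded datum. -/
theorem eq_one_of_torusHom_pair (h : chkEmb D G.tab D' G'.tab N = true)
    (hinj' : ∀ z : Fin D'.rank → Fˣ, G'.torus z = 1 → z = 1) (z : Fin D.rank → Fˣ)
    (hz : (rootLift_pair (F := F) h).torusHom z = 1) : z = 1 := by
  classical
  set R := rootLift_pair (F := F) h
  have h' := h
  simp only [chkEmb, Bool.and_eq_true, List.all_eq_true, List.mem_range, Bool.or_eq_true, Nat.beq_eq,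
    decide_eq_true_eq, Bool.not_eq_true', Nat.ble_eq, Nat.blt_eq] at h'
  obtain ⟨⟨⟨hrank, hsimple⟩, hroot⟩, -⟩ := h'
  let ext : (Fin D.rank → Fˣ) →* (Fin D'.rank → Fˣ) :=
    { toFun := fun z m => if hm : m.val < D.rank then z ⟨m, hm⟩ else 1
      map_one' := by funext m; by_cases hm : m.val < D.rank <;> simp [hm]
      map_mul' := fun a b => by funext m; by_cases hm : m.val < D.rank <;> simp [hm] }
  have he : (MonoidHom.fst _ _).comp R.torusHom = G'.torus.comp ext := by
    refine MonoidHom.pi_ext fun k c => ?_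
    have hext : ext (Pi.mulSingle k c) = Pi.mulSingle (Fin.castLE hrank k) c := by
      funext m
      show (if hm : m.val < D.rank then (Pi.mulSingle k c : Fin D.rank → Fˣ) ⟨m, hm⟩ else 1) = _
      by_cases hm : m.val < D.rank
      · by_cases hk : m.val = k.val
        · obtain rfl : m = Fin.castLE hrank k := Fin.ext hk
          simp
        · rw [dif_pos hm, Pi.mulSingle_eq_of_ne (fun e => hk (congrArg Fin.val e)),
            Pi.mulSingle_eq_of_ne (fun e => hk (by rw [e]; rfl))]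
      · rw [dif_neg hm, Pi.mulSingle_eq_of_ne (fun e => hm (by rw [e]; exact k.2))]
    rw [MonoidHom.comp_apply, MonoidHom.comp_apply, R.torusHom_mulSingle, hext, G'.torus_mulSingle]
    have hs := G.simple_lt k.2
    have hn' : embIdx N (D.neg (D.simple k)) = D'.neg (D'.simple k) := by
      have h1 := (hroot _ hs).1
      rw [hsimple k k.2] at h1
      rw [G.neg_eq hs, h1.2, G'.neg_eq h1.1]
    show (hh D (pairL G G' N) (D.simple k) (c : F)).1 = G'.hg (D'.simple (Fin.castLE hrank k)) (c : F)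
    simp only [hh, nn, pairL, Prod.mk_mul_mk, hn', hsimple k k.2, Fin.val_castLE]
    rfl
  have e1 : G'.torus (ext z) = 1 := by
    have := DFunLike.congr_fun he z
    rw [MonoidHom.comp_apply, MonoidHom.comp_apply, hz] at this
    exact this.symm
  have e2 := hinj' _ e1
  funext k
  have e3 := congrFun e2 (Fin.castLE hrank k)
  simpa [ext] using e3

end fst

theorem hasCyclicSchurMultiplier_twistE6 {K : Type u} [Field K] [Fintype K] {q : ℕ} (hK : Fintype.card K = q ^ 2)
    (hq : 3 ≤ q) (f : K →+* K) (hf : ∀ x, f x = x ^ q) :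
    Cfsg.HasCyclicSchurMultiplier ↥(tdE6 f).G1 (Nat.gcd 3 (q + 1)) := by
  classical
  have h := rootLift_pair (G := goodE6) (G' := goodE8) (F := K) Cfsg.Agent.H82.Chev.chkEmbE6
  obtain ⟨e⟩ := Cfsg.Agent.H82.Chev.nonempty_zmod_equiv (F := K) goodE6 Cfsg.Agent.H82.Chev.chkCoverE6 rfl
  refine hasCyclicSchurMultiplier_of_rootLift h okE6 coxE6 orbE6ok
    (moves_of_chk hf hK (Or.inl rfl) hq orbE6ok chkMovesE6)
    (fun π hc hX => selfE6 hf hK hq hc hX) (kerFix_E6 f hf hK) (isCyclic_of_surjective e e.surjective)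
    (fun z _ hz => eq_one_of_torusHom_pair (G := goodE6) (G' := goodE8) Cfsg.Agent.H82.Chev.chkEmbE6 (fun w hw => ?_) z hz)
    (fun Δ _ _ τ hτ => card_stem_ker_le_E6 hf hK hq τ hτ)
  obtain ⟨v, hv, rfl⟩ := Cfsg.Agent.H82.Chev.eq_kerHom goodE8 Cfsg.Agent.H82.Chev.chkCoverE8 hw
  have : v = 1 := by simpa [Cfsg.Agent.H82.Chev.coverE8] using hv
  rw [this, map_one]

theorem hasCyclicSchurMultiplier_twistD4 {K : Type u} [Field K] [Fintype K] {q : ℕ} (hK : Fintype.card K = q ^ 3)
    (hq : 3 ≤ q) (f : K →+* K) (hf : ∀ x, f x = x ^ q) :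
    Cfsg.HasCyclicSchurMultiplier ↥(tdD4 f).G1 1 := by
  refine Cfsg.Agent.H82.hasCyclicSchurMultiplier_one_iff.2 fun Δ _ _ τ hτ => ?_
  rw [← MonoidHom.ker_eq_bot_iff]
  exact Subgroup.eq_bot_of_card_le _ (card_stem_ker_le_D4 hf hK hq τ hτ)

end Cfsg.Agent.H46.TwistCover
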