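import Cfsg.Agent.H82.Chev.Comm

/-!
# Involutions commuting up to one central involution
-/

set_option autoImplicit false

namespace Cfsg.Agent.H46.TwistCover

open scoped commutatorElement

/-- A bound on the order of a subgroup generated by involutions commuting up to one central involution. -/
theorem card_closure_le_two_pow {Γ : Type*} [Group Γ] [Finite Γ] (z : Γ) (hz : z * z = 1) :
    ∀ S : Finset Γ, (∀ x ∈ S, x * x = 1 ∧ Commute x z) →
      (∀ x ∈ S, ∀ y ∈ S, ⁅x, y⁆ ∈ Subgroup.zpowers z) →
      Nat.card ↥(Subgroup.closure (insert z (S : Set Γ))) ≤ 2 ^ (S.card + 1) := by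
  classical
  intro S
  induction S using Finset.induction with
  | empty =>
    intro _ _
    rw [Finset.coe_empty, insert_empty_eq, ← Subgroup.zpowers_eq_closure, Nat.card_zpowers]
    exact Nat.le_of_dvd (by norm_num) (orderOf_dvd_of_pow_eq_one (by simpa [sq] using hz))
  | insert x S hx ih =>
    intro h1 h2
    obtain ⟨hxx, hxz⟩ := h1 x (Finset.mem_insert_self x S)
    set H := Subgroup.closure (insert z (S : Set Γ)) with hH
    have hconj : ∀ y ∈ insert z (S : Set Γ), x * y * x⁻¹ ∈ H := by
      rintro y (rfl | hy)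
      · rw [hxz.eq, mul_inv_cancel_right]
        exact Subgroup.subset_closure (Set.mem_insert _ _)
      · rw [show x * y * x⁻¹ = ⁅x, y⁆ * y by simp only [commutatorElement_def]; group]
        refine mul_mem ?_ (Subgroup.subset_closure (Or.inr hy))
        exact (Subgroup.zpowers_le.2 (Subgroup.subset_closure (Set.mem_insert z _)))
          (h2 x (Finset.mem_insert_self x S) y (Finset.mem_insert_of_mem hy))
    have hnorm : Subgroup.zpowers x ≤ Subgroup.normalizer (H : Set Γ) := by
      rw [Subgroup.zpowers_le, Subgroup.mem_normalizer_iff]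
      have key : ∀ y ∈ H, x * y * x⁻¹ ∈ H := fun y hy => by
        have : H ≤ H.comap (MulAut.conj x).toMonoidHom := (Subgroup.closure_le _).2 hconj
        exact this hy
      refine fun y => ⟨key y, fun hy => ?_⟩
      have := key _ hy
      rwa [show x * (x * y * x⁻¹) * x⁻¹ = x * x * y * (x * x)⁻¹ by group, hxx, one_mul, inv_one, mul_one] at this
    have hle : Subgroup.closure (insert z ((insert x S : Finset Γ) : Set Γ)) ≤ Subgroup.zpowers x ⊔ H := by
      refine (Subgroup.closure_le _).2 ?_
      rintro y (rfl | hy)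
      · exact Subgroup.mem_sup_right (Subgroup.subset_closure (Set.mem_insert _ _))
      · rcases Finset.mem_insert.1 hy with rfl | hy
        · exact Subgroup.mem_sup_left (Subgroup.mem_zpowers y)
        · exact Subgroup.mem_sup_right (Subgroup.subset_closure (Or.inr hy))
    have hih := ih (fun y hy => h1 y (Finset.mem_insert_of_mem hy))
      (fun y hy w hw => h2 y (Finset.mem_insert_of_mem hy) w (Finset.mem_insert_of_mem hw))
    have hsup : Nat.card ↥(Subgroup.zpowers x ⊔ H) ≤ 2 * Nat.card ↥H := by
      have h2le : Nat.card ↥(Subgroup.zpowers x) ≤ 2 := by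
        rw [Nat.card_zpowers]
        exact Nat.le_of_dvd two_pos (orderOf_dvd_of_pow_eq_one (by simpa [sq] using hxx))
      refine le_trans ?_ (Nat.mul_le_mul_right _ h2le)
      rw [← Nat.card_prod]
      refine Nat.card_le_card_of_surjective (fun p : ↥(Subgroup.zpowers x) × ↥H =>
        (⟨p.1.1 * p.2.1, Subgroup.mul_mem_sup p.1.2 p.2.2⟩ : ↥(Subgroup.zpowers x ⊔ H))) ?_
      rintro ⟨w, hw⟩
      have hw' : w ∈ (↑(Subgroup.zpowers x ⊔ H) : Set Γ) := hw
      rw [Subgroup.coe_mul_of_left_le_normalizer_right _ _ hnorm] at hw'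
      obtain ⟨a, ha, b, hb, e⟩ := hw'
      exact ⟨(⟨a, ha⟩, ⟨b, hb⟩), Subtype.ext e⟩
    rw [Finset.card_insert_of_notMem hx, pow_succ']
    exact (Nat.card_mono (Set.toFinite _) hle).trans (hsup.trans (by omega))

end Cfsg.Agent.H46.TwistCover
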