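import Cfsg.Agent.H46.TwistCover.Inst
import Cfsg.Agent.H46.TwistCover.TwoGroup
import Cfsg.Agent.H64.Twist.Sylow
import Cfsg.Agent.H64.StemBasic

/-!
# Stem extensions of ³D₄(2) have kernels of odd order
-/

set_option autoImplicit false
set_option maxRecDepth 100000

namespace Cfsg.Agent.H46.TwistCover

open Cfsg.Lie Cfsg.Agent.H47 Cfsg.Agent.H46
open Cfsg.Agent.H82.Chev (Dec commutator_xg commutator_congr commute_congr commute_commutator_of_map)
open scoped Matrix MatrixGroups commutatorElement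

/-- The index of a root of D₄. -/
def rD (i : ℕ) (hi : i < chevD4.nroots := by decide) : Fin chevD4.nroots := ⟨i, hi⟩

/-- A commuting pair of root elements. -/
def cB (p q : ℕ) : Bool := decide (q ≠ chevD4.neg p) && decide (chevD4.commTerms p q = [])

/-- A pair of root elements with one commutator term. -/
def dB (k p q : ℕ) : Bool :=
  decide (k < chevD4.nroots ∧ p < chevD4.nroots ∧ q < chevD4.nroots ∧ q ≠ p ∧ q ≠ chevD4.neg p) &&
    (decide (chevD4.commTerms p q = [(k, 1, 1, 1)]) || decide (chevD4.commTerms p q = [(k, -1, 1, 1)]))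

section GLfacts

variable {K : Type*} [Field K] [CharP K 2]

theorem sign_cast {e : ℤ} (he : e = 1 ∨ e = -1) : (e : K) = 1 := by
  rcases he with rfl | rfl
  · simp
  · simp [CharTwo.neg_eq]

/-- Conjugation by a root element. -/
noncomputable def cx (p : ℕ) (t : K) : GL chevD4.Idx K →* GL chevD4.Idx K :=
  (MulAut.conj (goodD4.xg p t)).toMonoidHom

theorem cx_comm {p q : ℕ} (hp : p < chevD4.nroots) (hq : q < chevD4.nroots) (h : cB p q = true) (t u : K) :
    cx p t (goodD4.xg q u) = goodD4.xg q u := by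
  simp only [cB, Bool.and_eq_true, decide_eq_true_eq] at h
  show goodD4.xg p t * goodD4.xg q u * (goodD4.xg p t)⁻¹ = _
  rw [(goodD4.xg_commute hp hq h.1 h.2 t u).eq, mul_inv_cancel_right]

theorem cx_dec {k p q : ℕ} (h : dB k p q = true) (t u : K) :
    cx p t (goodD4.xg q u) = goodD4.xg k (t * u) * goodD4.xg q u := by
  simp only [dB, Bool.and_eq_true, Bool.or_eq_true, decide_eq_true_eq] at h
  obtain ⟨⟨hk, hp, hq, hne, hneg⟩, hct⟩ := h
  obtain ⟨e, he, hct⟩ : ∃ e : ℤ, (e = 1 ∨ e = -1) ∧ chevD4.commTerms p q = [(k, e, 1, 1)] := by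
    rcases hct with h1 | h1
    · exact ⟨1, Or.inl rfl, h1⟩
    · exact ⟨-1, Or.inr rfl, h1⟩
  have hd : Dec chevD4 k p q e := ⟨hk, hp, hq, hne, hneg, he, hct⟩
  have := commutator_xg goodD4 hd t u
  rw [sign_cast he, one_mul] at this
  rw [← this]
  show goodD4.xg p t * goodD4.xg q u * (goodD4.xg p t)⁻¹ = _
  simp only [commutatorElement_def]
  group

theorem eS_cast (r : Fin chevD4.nroots) : ∀ s, (eS graphD4 r s : K) = 1
  | 0 => by simp [eS]
  | s + 1 => by
    have hε : ∀ x : Fin chevD4.nroots, graphD4.S.ε x.val = 1 ∨ graphD4.S.ε x.val = -1 := by decide +kernel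
    have h1 := eS_cast r s
    rw [eS, List.range_succ, List.map_append, List.prod_append, Int.cast_mul]
    rw [eS] at h1
    simp [h1, sign_cast (hε (graphD4.πF^[s] r))]

variable {f : K →+* K} (hf : ∀ x, f x = x ^ 2)

include hf

theorem oX_short {r r1 r2 : Fin chevD4.nroots}
    (h : olen graphD4 3 r = 3 ∧ graphD4.πF r = r1 ∧ graphD4.πF r1 = r2) (t : K) :
    oX graphD4 goodD4 3 f r t = goodD4.xg r.val t * goodD4.xg r1.val (t ^ 2) * goodD4.xg r2.val (t ^ 4) := by
  obtain ⟨h0, h1, h2⟩ := h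
  have e2 : f^[2] t = t ^ 4 := by
    rw [Function.iterate_succ_apply', Function.iterate_one, hf, hf, ← pow_mul]
  rw [oX, h0, show List.range 3 = [0, 1, 2] from rfl]
  simp only [List.map_cons, List.map_nil, List.prod_cons, List.prod_nil, mul_one, eS_cast, one_mul, e2]
  rw [Function.iterate_zero_apply, Function.iterate_one, Function.iterate_one, hf,
    show graphD4.πF^[2] r = r2 by rw [Function.iterate_succ_apply', Function.iterate_one, h1, h2], h1,
    Function.iterate_zero_apply, mul_assoc]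

omit hf in
theorem oX_long {r : Fin chevD4.nroots} (h : olen graphD4 3 r = 1) (t : K) :
    oX graphD4 goodD4 3 f r t = goodD4.xg r.val t := by
  rw [oX, h, show List.range 1 = [0] from rfl]
  simp [eS]

omit [CharP K 2] hf in
theorem mul_self_iff {t : K} : t * t = t ↔ t = 0 ∨ t = 1 := by
  constructor
  · intro e
    rcases eq_or_ne t 0 with h | h
    · exact Or.inl h
    · exact Or.inr (mul_left_cancel₀ h (e.trans (mul_one t).symm))
  · rintro (rfl | rfl) <;> simp

theorem inO_long_iff {r : Fin chevD4.nroots} (h : olen graphD4 3 r = 1) {t : K} :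
    InO graphD4 3 f r t ↔ t = 0 ∨ t = 1 := by
  rw [InO, h, Function.iterate_one, hf, sq, mul_self_iff]

omit hf in
theorem cz_commute {r : Fin chevD4.nroots} {p : ℕ} (hp : p < chevD4.nroots)
    (h : (List.range (olen graphD4 3 r)).all (fun s => cB p (graphD4.πF^[s] r).val) = true) (v x : K) :
    Commute (goodD4.xg p v) (oX graphD4 goodD4 3 f r x) := by
  refine Commute.list_prod_right _ _ fun y hy => ?_
  obtain ⟨s, hs, rfl⟩ := List.mem_map.1 hy
  simp only [List.all_eq_true] at h
  have := h s hs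
  simp only [cB, Bool.and_eq_true, decide_eq_true_eq] at this
  exact goodD4.xg_commute hp (Fin.is_lt _) this.1 this.2 _ _

/-- The conjugates of the long simple root element. -/
theorem conj_b (t : K) (ht : t ^ 8 = t) :
    oX graphD4 goodD4 3 f (rD 18) t * goodD4.xg 14 1 * (oX graphD4 goodD4 3 f (rD 18) t)⁻¹ =
      goodD4.xg 22 (t ^ 7) * goodD4.xg 23 (t ^ 7) * oX graphD4 goodD4 3 f (rD 21) (t ^ 3) *
        oX graphD4 goodD4 3 f (rD 19) t * goodD4.xg 14 1 := by
  rw [oX_short hf (r := rD 18) (r1 := rD 13) (r2 := rD 12) (by decide +kernel),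
    oX_short hf (r := rD 21) (r1 := rD 17) (r2 := rD 20) (by decide +kernel),
    oX_short hf (r := rD 19) (r1 := rD 16) (r2 := rD 15) (by decide +kernel)]
  show goodD4.xg 18 t * goodD4.xg 13 (t ^ 2) * goodD4.xg 12 (t ^ 4) * goodD4.xg 14 1 *
    (goodD4.xg 18 t * goodD4.xg 13 (t ^ 2) * goodD4.xg 12 (t ^ 4))⁻¹ =
    goodD4.xg 22 (t ^ 7) * goodD4.xg 23 (t ^ 7) *
      (goodD4.xg 21 (t ^ 3) * goodD4.xg 17 ((t ^ 3) ^ 2) * goodD4.xg 20 ((t ^ 3) ^ 4)) *
      (goodD4.xg 19 t * goodD4.xg 16 (t ^ 2) * goodD4.xg 15 (t ^ 4)) * goodD4.xg 14 1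
  have e : ∀ p q r w : GL chevD4.Idx K, p * q * r * w * (p * q * r)⁻¹ =
      p * (q * (r * w * r⁻¹) * q⁻¹) * p⁻¹ := fun _ _ _ _ => by group
  rw [e]
  show cx 18 t (cx 13 (t ^ 2) (cx 12 (t ^ 4) (goodD4.xg 14 1))) = _
  rw [cx_dec (k := 15) (by decide +kernel), mul_one, map_mul, cx_dec (k := 17) (by decide +kernel),
    cx_dec (k := 16) (by decide +kernel), mul_one, map_mul, map_mul, map_mul,
    cx_dec (k := 22) (p := 18) (q := 17) (by decide +kernel), cx_dec (k := 20) (p := 18) (q := 15) (by decide +kernel),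
    cx_dec (k := 21) (p := 18) (q := 16) (by decide +kernel), cx_dec (k := 19) (p := 18) (q := 14) (by decide +kernel),
    mul_one]
  -- collect the orbits
  have hz : ∀ (q : ℕ) (u v : K), q < chevD4.nroots → cB 23 q = true → goodD4.xg q u * goodD4.xg 23 v =
      goodD4.xg 23 v * goodD4.xg q u := fun q u v hq hb => by
    simp only [cB, Bool.and_eq_true, decide_eq_true_eq] at hb
    exact (goodD4.xg_commute (by decide) hq hb.1 hb.2 v u).eq.symm
  have hcom : ∀ (p q : ℕ) (u v : K), p < chevD4.nroots → q < chevD4.nroots → cB p q = true →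
      goodD4.xg p u * goodD4.xg q v = goodD4.xg q v * goodD4.xg p u := fun p q u v hp hq hb => by
    simp only [cB, Bool.and_eq_true, decide_eq_true_eq] at hb
    exact (goodD4.xg_commute hp hq hb.1 hb.2 u v).eq
  have hswap : goodD4.xg 15 (t ^ 4) * goodD4.xg 21 (t * t ^ 2) =
      goodD4.xg 23 (t ^ 7) * goodD4.xg 21 (t * t ^ 2) * goodD4.xg 15 (t ^ 4) := by
    have := cx_dec (K := K) (k := 23) (p := 15) (q := 21) (by decide +kernel) (t ^ 4) (t * t ^ 2)
    rw [show t ^ 4 * (t * t ^ 2) = t ^ 7 by ring] at this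
    exact mul_inv_eq_iff_eq_mul.1 this
  simp only [mul_assoc]
  rw [← mul_assoc (goodD4.xg 15 (t ^ 4)) (goodD4.xg 21 (t * t ^ 2)), hswap]
  simp only [mul_assoc]
  rw [show t * (t ^ 2 * t ^ 4) = t ^ 7 by ring, show t ^ 2 * t ^ 4 = (t ^ 3) ^ 2 by ring,
    show t * t ^ 2 = t ^ 3 by ring, show t * t ^ 4 = t ^ 5 by ring]
  rw [show (t ^ 3) ^ 4 = t ^ 5 by rw [show (t ^ 3) ^ 4 = t ^ 8 * t ^ 4 by ring, ht]; ring]
  have hl : ∀ (p q : ℕ) (u v : K) (X : GL chevD4.Idx K), p < chevD4.nroots → q < chevD4.nroots → cB p q = true →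
      goodD4.xg p u * (goodD4.xg q v * X) = goodD4.xg q v * (goodD4.xg p u * X) := fun p q u v X hp hq hb => by
    rw [← mul_assoc, hcom p q u v hp hq hb, mul_assoc]
  rw [hl 20 23 _ _ _ (by decide) (by decide) (by decide +kernel),
    hl 17 23 _ _ _ (by decide) (by decide) (by decide +kernel),
    hl 20 21 _ _ _ (by decide) (by decide) (by decide +kernel),
    hl 17 21 _ _ _ (by decide) (by decide) (by decide +kernel),
    hl 16 19 _ _ _ (by decide) (by decide) (by decide +kernel),
    hl 15 19 _ _ _ (by decide) (by decide) (by decide +kernel),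
    hl 15 16 _ _ _ (by decide) (by decide) (by decide +kernel)]

/-- The commutator of the orbit of the short simple root with that of its highest short root. -/
theorem conj_B :
    oX graphD4 goodD4 3 f (rD 18) (1 : K) * oX graphD4 goodD4 3 f (rD 21) 1 *
        (oX graphD4 goodD4 3 f (rD 18) (1 : K))⁻¹ =
      goodD4.xg 22 1 * oX graphD4 goodD4 3 f (rD 21) 1 := by
  rw [oX_short hf (r := rD 18) (r1 := rD 13) (r2 := rD 12) (by decide +kernel),
    oX_short hf (r := rD 21) (r1 := rD 17) (r2 := rD 20) (by decide +kernel)]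
  simp only [one_pow]
  show goodD4.xg 18 1 * goodD4.xg 13 1 * goodD4.xg 12 1 * (goodD4.xg 21 1 * goodD4.xg 17 1 * goodD4.xg 20 1) *
    (goodD4.xg 18 1 * goodD4.xg 13 1 * goodD4.xg 12 1)⁻¹ =
    goodD4.xg 22 1 * (goodD4.xg 21 1 * goodD4.xg 17 1 * goodD4.xg 20 (1 : K))
  have e : ∀ p q r w : GL chevD4.Idx K, p * q * r * w * (p * q * r)⁻¹ =
      p * (q * (r * w * r⁻¹) * q⁻¹) * p⁻¹ := fun _ _ _ _ => by group
  rw [e]
  show cx 18 1 (cx 13 1 (cx 12 1 (goodD4.xg 21 1 * goodD4.xg 17 1 * goodD4.xg 20 1))) = _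
  have h17 : ∀ u : K, Commute (goodD4.xg 22 u) (goodD4.xg 17 1) := fun u =>
    goodD4.xg_commute (by decide) (by decide) (by decide +kernel) (by decide +kernel) u 1
  have h21 : ∀ u : K, Commute (goodD4.xg 22 u) (goodD4.xg 21 1) := fun u =>
    goodD4.xg_commute (by decide) (by decide) (by decide +kernel) (by decide +kernel) u 1
  simp only [map_mul, cx_dec (k := 22) (p := 12) (q := 21) (show dB 22 12 21 = true by decide +kernel),
    cx_comm (p := 12) (q := 17) (by decide) (by decide) (by decide +kernel),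
    cx_comm (p := 12) (q := 20) (by decide) (by decide) (by decide +kernel),
    cx_comm (p := 13) (q := 22) (by decide) (by decide) (by decide +kernel),
    cx_comm (p := 13) (q := 21) (by decide) (by decide) (by decide +kernel),
    cx_comm (p := 13) (q := 17) (by decide) (by decide) (by decide +kernel),
    cx_dec (k := 22) (p := 13) (q := 20) (show dB 22 13 20 = true by decide +kernel),
    cx_comm (p := 18) (q := 22) (by decide) (by decide) (by decide +kernel),
    cx_comm (p := 18) (q := 21) (by decide) (by decide) (by decide +kernel),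
    cx_comm (p := 18) (q := 20) (by decide) (by decide) (by decide +kernel),
    cx_dec (k := 22) (p := 18) (q := 17) (show dB 22 18 17 = true by decide +kernel), mul_one]
  have hsq : ∀ w : GL chevD4.Idx K, goodD4.xg 22 (1 : K) * (goodD4.xg 22 1 * w) = w := fun w => by
    rw [← mul_assoc, goodD4.xg_add, CharTwo.add_self_eq_zero, goodD4.xg_zero, one_mul]
  simp only [mul_assoc]
  rw [← mul_assoc (goodD4.xg 21 1) (goodD4.xg 22 1), ← (h21 1).eq, mul_assoc,
    ← mul_assoc (goodD4.xg 17 1) (goodD4.xg 22 1), ← (h17 1).eq, mul_assoc,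
    ← mul_assoc (goodD4.xg 21 1) (goodD4.xg 22 1), ← (h21 1).eq, mul_assoc, hsq]

end GLfacts

end Cfsg.Agent.H46.TwistCover
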