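import Cfsg.Agent.H46.TwistCover.D4Two
import Cfsg.Agent.H46.TwistCover.TwoGroup

/-!
# The stem extensions of ³D₄(2)
-/

set_option autoImplicit false
set_option maxRecDepth 100000

namespace Cfsg.Agent.H46.TwistCover

open Cfsg.Lie Cfsg.Agent.H47 Cfsg.Agent.H46
open Cfsg.Agent.H82.Chev (Dec commutator_xg commutator_congr commute_congr commute_commutator_of_map)
open scoped Matrix MatrixGroups commutatorElement

local notation "𝕏" => oX graphD4 goodD4 3

variable {K : Type*} [Field K] [Fintype K] (hK : Fintype.card K = 2 ^ 3) {f : K →+* K}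
  (hf : ∀ x, f x = x ^ 2)

include hK hf

theorem charTwo_of_frob : CharP K 2 := by
  have h1 : ((1 : K) + 1) ^ 2 = 1 ^ 2 + 1 ^ 2 := by rw [← hf, ← hf, map_add]
  exact CharTwo.of_one_ne_zero_of_two_eq_zero one_ne_zero (by linear_combination h1)

omit hf in
theorem pow_eight (t : K) : t ^ 8 = t := by
  have := FiniteField.pow_card t
  rwa [hK] at this

/-- A root moved by a fixed torus element. -/
theorem moved_two {r : Fin chevD4.nroots}
    (h : ∃ x ∈ zsD4, ¬ ((7 : ℤ) ∣ expR graphD4 goodD4 3 2 x r.val)) :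
    ∃ z, Fix graphD4 f z ∧ (goodD4.torusVal z r.val : K) ≠ 1 := by
  obtain ⟨x, -, hx⟩ := h
  obtain ⟨c, hc⟩ := exists_gen hf hK
  refine ⟨_, fix_zc hf hK orbD4ok x c, fun e => hx ?_⟩
  have := hc _ ((torusVal_zc 3 2 x c r.val).symm.trans (Units.ext e))
  norm_num at this
  exact this

/-- The product of the orbit groups of the two short roots of middle height. -/
theorem comm_mid (t s : K) : ∃ k : ℤ, 𝕏 f (rD 19) t * 𝕏 f (rD 21) s =
    goodD4.xg 23 (1 : K) ^ k * (𝕏 f (rD 21) s * 𝕏 f (rD 19) t) := by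
  haveI := charTwo_of_frob hK hf
  have hmem : ∀ (r : Fin chevD4.nroots) (m : ℤ), ((List.range 3).all fun i => decide (graphD4.πF^[i] r ∈ lev goodD4 m)) = true →
      (orbSet graphD4 3 r ⊆ (List.range 3).toFinset.image fun i => graphD4.πF^[i] r) → ∀ x : K,
      𝕏 f r x ∈ goodD4.posSub (F := K) (sset (lev goodD4 m)) := by
    intro r m h h' x
    refine oX_mem_posSub okD4 orbD4ok f (fun y hy => (mem_lev.1 hy).1) (fun y hy => ?_) x
    obtain ⟨i, hi, rfl⟩ := Finset.mem_image.1 (h' hy)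
    simp only [List.all_eq_true, decide_eq_true_eq] at h
    exact h i (List.mem_toFinset.1 hi)
  have h5 := commutator_mem_lev okD4 orbD4ok (hmem (rD 19) 2 (by decide +kernel) (by decide +kernel) t)
    (hmem (rD 21) 3 (by decide +kernel) (by decide +kernel) s)
  have hfix : goodD4.twistHom okD4.check f ⁅𝕏 f (rD 19) t, 𝕏 f (rD 21) s⁆ = ⁅𝕏 f (rD 19) t, 𝕏 f (rD 21) s⁆ := by
    rw [map_commutatorElement, twist_oX okD4 orbD4ok f (inO_all hf hK orbD4ok (by decide +kernel) t),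
      twist_oX okD4 orbD4ok f (inO_all hf hK orbD4ok (by decide +kernel) s)]
  have h6 := fixed_mem_closure okD4 orbD4ok f _ (up_lev _) (lev_stable okD4 orbD4ok _) _ h5 hfix
  have hle : Subgroup.closure {x | ∃ r ∈ lev goodD4 (2 + 3), ∃ u, InO graphD4 3 f r u ∧ x = 𝕏 f r u} ≤
      Subgroup.zpowers (goodD4.xg 23 (1 : K)) := by
    refine (Subgroup.closure_le _).2 ?_
    rintro _ ⟨r, hr, u, hu, rfl⟩
    have hr' : r = rD 23 := (show ∀ r ∈ lev goodD4 (2 + 3), r = rD 23 by decide +kernel) r hr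
    subst hr'
    rcases (inO_long_iff hf (by decide +kernel)).1 hu with rfl | rfl
    · rw [oX_zero okD4 orbD4ok f]; exact one_mem _
    · rw [oX_long (by decide +kernel)]; exact Subgroup.mem_zpowers _
  obtain ⟨k, hk⟩ := Subgroup.mem_zpowers_iff.1 (hle h6)
  refine ⟨k, ?_⟩
  rw [hk, commutatorElement_def]
  group

/-- The conjugates of the long simple root element generate a subgroup containing the other positive roots. -/
theorem mem_conjClosure :
    ∀ P : Subgroup (GL chevD4.Idx K), goodD4.xg 23 (1 : K) ∈ P →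
      (∀ t, 𝕏 f (rD 18) t * goodD4.xg 14 1 * (𝕏 f (rD 18) t)⁻¹ ∈ P) →
      goodD4.xg 22 (1 : K) ∈ P ∧ (∀ t, 𝕏 f (rD 19) t ∈ P) ∧ ∀ t, 𝕏 f (rD 21) t ∈ P := by
  intro P hθ hy
  haveI := charTwo_of_frob hK hf
  set θ := goodD4.xg 23 (1 : K) with hθd
  set C := goodD4.xg 22 (1 : K) with hCd
  set b := goodD4.xg 14 (1 : K) with hbd
  have hsq : ∀ p, goodD4.xg p (1 : K) * goodD4.xg p 1 = 1 := fun p => by
    rw [goodD4.xg_add, CharTwo.add_self_eq_zero, goodD4.xg_zero]
  have hb : b ∈ P := by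
    have := hy 0
    rwa [oX_zero okD4 orbD4ok f, one_mul, inv_one, mul_one] at this
  have hCθ : Commute C θ := goodD4.xg_commute (by decide) (by decide) (by decide +kernel) (by decide +kernel) 1 1
  have hCB : ∀ s, Commute C (𝕏 f (rD 21) s) := cz_commute (by decide) (by decide +kernel) 1
  have hCA : ∀ s, Commute C (𝕏 f (rD 19) s) := cz_commute (by decide) (by decide +kernel) 1
  have hθB : ∀ s, Commute θ (𝕏 f (rD 21) s) := cz_commute (by decide) (by decide +kernel) 1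
  have hw : ∀ t : K, t ≠ 0 → C * 𝕏 f (rD 21) (t ^ 3) * 𝕏 f (rD 19) t ∈ P := by
    intro t ht
    have h7 : t ^ 7 = 1 := mul_left_cancel₀ ht (by rw [← pow_succ', pow_eight hK t, mul_one])
    have h := mul_mem hθ (mul_mem (hy t) (inv_mem hb))
    rw [conj_b hf t (pow_eight hK t), h7, mul_inv_cancel_right] at h
    have e : θ * C * θ = C := by rw [← hCθ.eq, mul_assoc, hsq, mul_one]
    have h' : θ * C * θ * 𝕏 f (rD 21) (t ^ 3) * 𝕏 f (rD 19) t ∈ P := by simpa [← mul_assoc] using h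
    rwa [e] at h'
  have hprod : ∀ t u : K, t ≠ 0 → u ≠ 0 → t + u ≠ 0 → C * 𝕏 f (rD 21) (t * u * (t + u)) ∈ P := by
    intro t u ht hu htu
    obtain ⟨k, hk⟩ := comm_mid hK hf t (u ^ 3)
    obtain ⟨l, hl⟩ := comm_mid hK hf (t + u) ((t + u) ^ 3)
    rw [← hθd] at hk hl
    have hmem := mul_mem (mul_mem (hw t ht) (hw u hu)) (hw _ htu)
    have e1 : C * 𝕏 f (rD 21) (t ^ 3) * 𝕏 f (rD 19) t * (C * 𝕏 f (rD 21) (u ^ 3) * 𝕏 f (rD 19) u) =
        θ ^ k * (𝕏 f (rD 21) (t ^ 3 + u ^ 3) * 𝕏 f (rD 19) (t + u)) := by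
      calc _ = C * (𝕏 f (rD 21) (t ^ 3) * 𝕏 f (rD 19) t * C) * 𝕏 f (rD 21) (u ^ 3) * 𝕏 f (rD 19) u := by group
        _ = C * (C * (𝕏 f (rD 21) (t ^ 3) * 𝕏 f (rD 19) t)) * 𝕏 f (rD 21) (u ^ 3) * 𝕏 f (rD 19) u := by
          rw [((hCB _).mul_right (hCA _)).eq]
        _ = 𝕏 f (rD 21) (t ^ 3) * (𝕏 f (rD 19) t * 𝕏 f (rD 21) (u ^ 3)) * 𝕏 f (rD 19) u := by
          rw [← mul_assoc C C, hsq, one_mul]; group
        _ = (𝕏 f (rD 21) (t ^ 3) * θ ^ k) * 𝕏 f (rD 21) (u ^ 3) * (𝕏 f (rD 19) t * 𝕏 f (rD 19) u) := by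
          rw [hk]; group
        _ = _ := by
          rw [((hθB _).zpow_left k).eq.symm, oX_add okD4 orbD4ok f, mul_assoc (θ ^ k), oX_add okD4 orbD4ok f,
            mul_assoc]
    rw [e1] at hmem
    have e2 : 𝕏 f (rD 21) (t ^ 3 + u ^ 3) * 𝕏 f (rD 19) (t + u) *
        (C * 𝕏 f (rD 21) ((t + u) ^ 3) * 𝕏 f (rD 19) (t + u)) =
        θ ^ l * (C * 𝕏 f (rD 21) (t * u * (t + u))) := by
      calc _ = (𝕏 f (rD 21) (t ^ 3 + u ^ 3) * 𝕏 f (rD 19) (t + u) * C) * 𝕏 f (rD 21) ((t + u) ^ 3) *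
            𝕏 f (rD 19) (t + u) := by group
        _ = C * 𝕏 f (rD 21) (t ^ 3 + u ^ 3) * (𝕏 f (rD 19) (t + u) * 𝕏 f (rD 21) ((t + u) ^ 3)) *
            𝕏 f (rD 19) (t + u) := by rw [← ((hCB _).mul_right (hCA _)).eq]; group
        _ = (C * 𝕏 f (rD 21) (t ^ 3 + u ^ 3) * θ ^ l) * 𝕏 f (rD 21) ((t + u) ^ 3) *
            (𝕏 f (rD 19) (t + u) * 𝕏 f (rD 19) (t + u)) := by rw [hl]; group
        _ = _ := by
          rw [((hCθ.mul_left (hθB _).symm).zpow_right l).eq, oX_add okD4 orbD4ok f,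
            CharTwo.add_self_eq_zero, oX_zero okD4 orbD4ok f, mul_one, mul_assoc, mul_assoc,
            oX_add okD4 orbD4ok f]
          congr 3
          linear_combination (t ^ 3 + u ^ 3 + t ^ 2 * u + t * u ^ 2) * (CharTwo.two_eq_zero (R := K))
    rw [mul_assoc, e2] at hmem
    exact (Subgroup.mul_mem_cancel_left P (zpow_mem hθ l)).1 ((Subgroup.mul_mem_cancel_left P (zpow_mem hθ k)).1 hmem)
  obtain ⟨c, hc0, hc1, -⟩ := exists_scalar (F := K) (by rw [hK]; norm_num)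
  have hCp : ∀ p : K, p ≠ 0 → C * 𝕏 f (rD 21) p ∈ P := by
    intro p hp
    set m := c * (1 + c) with hm
    have hm0 : m ≠ 0 := mul_ne_zero hc0 hc1
    have ht : (p / m) ^ 5 ≠ 0 := pow_ne_zero _ (div_ne_zero hp hm0)
    have := hprod _ ((p / m) ^ 5 * c) ht (mul_ne_zero ht hc0)
      (by rw [show (p / m) ^ 5 + (p / m) ^ 5 * c = (p / m) ^ 5 * (1 + c) by ring]; exact mul_ne_zero ht hc1)
    rwa [show (p / m) ^ 5 * ((p / m) ^ 5 * c) * ((p / m) ^ 5 + (p / m) ^ 5 * c) = p by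
      calc _ = (p / m) ^ 8 * (p / m) ^ 7 * m := by rw [hm]; ring
        _ = (p / m) ^ 8 * m := by rw [pow_eight hK (p / m), ← pow_succ', pow_eight hK]
        _ = p := by rw [pow_eight hK, div_mul_cancel₀ p hm0]] at this
  have hB : ∀ s, 𝕏 f (rD 21) s ∈ P := by
    intro s
    rcases eq_or_ne s 0 with rfl | hs
    · rw [oX_zero okD4 orbD4ok f]; exact one_mem _
    obtain ⟨p, hp, hps⟩ : ∃ p : K, p ≠ 0 ∧ p + s ≠ 0 := ⟨s * c, mul_ne_zero hs hc0, by
      rw [show s * c + s = s * (1 + c) by ring]; exact mul_ne_zero hs hc1⟩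
    have := mul_mem (hCp p hp) (hCp _ hps)
    rwa [show C * 𝕏 f (rD 21) p * (C * 𝕏 f (rD 21) (p + s)) = 𝕏 f (rD 21) s by
      rw [mul_assoc, ← mul_assoc (𝕏 f (rD 21) p), ← (hCB p).eq, mul_assoc, oX_add okD4 orbD4ok f, ← mul_assoc,
        hsq, one_mul, ← add_assoc, CharTwo.add_self_eq_zero, zero_add]] at this
  have hC : C ∈ P := (Subgroup.mul_mem_cancel_right P (hB 1)).1 (hCp 1 one_ne_zero)
  refine ⟨hC, fun t => ?_, hB⟩
  rcases eq_or_ne t 0 with rfl | ht
  · rw [oX_zero okD4 orbD4ok f]; exact one_mem _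
  · exact (Subgroup.mul_mem_cancel_left P (mul_mem hC (hB _))).1 (hw t ht)

variable {E : Type*} [Group E] {π : E →* GL chevD4.Idx K} (hc : π.ker ≤ Subgroup.center E)
  (hX : ∀ r t, InO graphD4 3 f r t → oX graphD4 goodD4 3 f r t ∈ π.range)

include hc hX

/-- A preimage of a root element fixed by the torus commutes with preimages of a commuting moved orbit. -/
theorem commute_of_moved {r i : Fin chevD4.nroots} (hr : olen graphD4 3 r = 3) (hi : olen graphD4 3 i = 1)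
    (hm : ∃ x ∈ zsD4, ¬ ((7 : ℤ) ∣ expR graphD4 goodD4 3 2 x r.val))
    (hcb : (List.range (olen graphD4 3 r)).all (fun s => cB i.val (graphD4.πF^[s] r).val) = true)
    {p a : E} {t : K} (hp : π p = goodD4.xg i.val 1) (ha : π a = 𝕏 f r t) : Commute p a := by
  haveI := charTwo_of_frob hK hf
  obtain ⟨z, hz, hne⟩ := moved_two hK hf hm
  obtain ⟨h, hh⟩ := genSet_le_range okD4 orbD4ok hX (graphD4.fixTorus_le_closure okD4 f ⟨z, hz, rfl⟩)
  set c : K := (goodD4.torusVal z r.val : K) with hcd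
  have hin : ∀ v : K, InO graphD4 3 f r v := inO_all hf hK orbD4ok hr
  obtain ⟨a', ha'⟩ := hX r ((c - 1)⁻¹ * t) (hin _)
  have hpt : Commute (π p) (π h) := by
    have h1 := (inO_long_iff hf hi).1 (torusVal_inO okD4 orbD4ok f hz i)
    have h2 := torus_conj_oX (G := goodD4) okD4 orbD4ok f hz i (1 : K)
    rw [h1.resolve_left (Units.ne_zero _), mul_one, oX_long hi] at h2
    rw [hp, hh]
    exact (mul_inv_eq_iff_eq_mul.1 h2).symm
  have hpa : Commute (π p) (π a') := by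
    rw [hp, ha']; exact cz_commute (Fin.is_lt _) hcb 1 _
  refine commute_congr hc rfl ?_ (commute_commutator_of_map hc hpt hpa)
  have hc1 : c - 1 ≠ 0 := sub_ne_zero.2 hne
  rw [map_commutatorElement, hh, ha', ha, commutatorElement_def, torus_conj_oX okD4 orbD4ok f hz, oX_neg okD4 orbD4ok f,
    oX_add okD4 orbD4ok f, ← hcd]
  congr 1
  field_simp
  ring

/-- A small subgroup of lifts containing the commutators of the unipotent group. -/
theorem exists_small [Finite E] : ∃ W : Subgroup E, (∀ x ∈ W, π x = 1 → x = 1) ∧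
    ∀ x y : E, π x ∈ chevD4.posUnipotent K ⊓ (tdD4 f).G1 → π y ∈ chevD4.posUnipotent K ⊓ (tdD4 f).G1 →
      ⁅x, y⁆ ∈ W := by
  classical
  haveI := charTwo_of_frob hK hf
  have hsh : ∀ r : Fin chevD4.nroots, olen graphD4 3 r = 3 → ∀ v, InO graphD4 3 f r v := fun r hr =>
    inO_all hf hK orbD4ok hr
  set g : K → E := fun t => sec π (𝕏 f (rD 18) t) with hgd
  have hg : ∀ t, π (g t) = 𝕏 f (rD 18) t := fun t => map_sec (hX _ _ (hsh _ (by decide +kernel) t))
  have hself : ∀ t u, Commute (g t) (g u) := fun t u =>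
    selfAt_of_simple okD4 orbD4ok hX (selfD4 hf hK le_rfl hc hX) _ t u (hsh _ (by decide +kernel) t)
      (hsh _ (by decide +kernel) u) _ _ (hg t) (hg u)
  obtain ⟨x, hx⟩ := hX (rD 21) 1 (InO.one f _)
  set c := ⁅g 1, x⁆ with hcd
  have hcπ : π c = goodD4.xg 22 1 := by
    rw [hcd, map_commutatorElement, hg, hx, commutatorElement_def, conj_B hf, mul_inv_cancel_right]
  have hcg : ∀ t, Commute c (g t) := fun t =>
    commute_of_moved hK hf hc hX (r := rD 18) (i := rD 22) (by decide +kernel) (by decide +kernel) (by decide +kernel)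
      (by decide +kernel) hcπ (hg t)
  have hc2 : c * c = 1 := by
    have hg1 : g 1 * g 1 ∈ Subgroup.center E := hc (by
      rw [MonoidHom.mem_ker, map_mul, hg, oX_add okD4 orbD4ok f, CharTwo.add_self_eq_zero, oX_zero okD4 orbD4ok f])
    have h1 : ⁅g 1 * g 1, x⁆ = 1 :=
      commutatorElement_eq_one_iff_mul_comm.2 (Subgroup.mem_center_iff.1 hg1 x).symm
    rw [show ⁅g 1 * g 1, x⁆ = g 1 * ⁅g 1, x⁆ * (g 1)⁻¹ * ⁅g 1, x⁆ by simp only [commutatorElement_def]; group,
      ← hcd, ← (hcg 1).eq, mul_inv_cancel_right] at h1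
    exact h1
  obtain ⟨j, hj⟩ : ∃ j, actW graphD4 goodD4 [j] (rD 22) = rD 14 := ⟨0, by decide +kernel⟩
  obtain ⟨n, hn⟩ := nW_mem_range (f := f) okD4 orbD4ok hX [j]
  set v := n * c * n⁻¹ with hvd
  have hvπ : π v = goodD4.xg 14 1 := by
    obtain ⟨e, he, hw⟩ := conj_actW f okD4 orbD4ok (rD 22) [j]
    have h := hw 1
    rw [hj, oX_long (by decide +kernel), oX_long (by decide +kernel), mul_one,
      show e = 1 by rcases he with rfl | rfl <;> simp [CharTwo.neg_eq]] at h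
    rw [hvd, map_mul, map_mul, map_inv, hn, hcπ]
    exact h
  have hv2 : v * v = 1 := by
    rw [hvd, show n * c * n⁻¹ * (n * c * n⁻¹) = n * (c * c) * n⁻¹ by group, hc2, mul_one, mul_inv_cancel]
  set z := ⁅v, c⁆ with hzd
  have hzπ : π z = goodD4.xg 23 1 := by
    have h := cx_dec (K := K) (k := 23) (p := 14) (q := 22) (by decide +kernel) 1 1
    rw [mul_one] at h
    rw [hzd, map_commutatorElement, hvπ, hcπ, commutatorElement_def, show goodD4.xg 14 (1 : K) * goodD4.xg 22 1 *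
      (goodD4.xg 14 1)⁻¹ = _ from h, mul_inv_cancel_right]
  have hzg : ∀ t, Commute z (g t) := fun t =>
    commute_of_moved hK hf hc hX (r := rD 18) (i := rD 23) (by decide +kernel) (by decide +kernel) (by decide +kernel)
      (by decide +kernel) hzπ (hg t)
  have hzx : Commute z x :=
    commute_of_moved hK hf hc hX (r := rD 21) (i := rD 23) (by decide +kernel) (by decide +kernel) (by decide +kernel)
      (by decide +kernel) hzπ hx
  have hzc : Commute z c := by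
    rw [hcd, commutatorElement_def]
    exact (((hzg 1).mul_right hzx).mul_right (hzg 1).inv_right).mul_right hzx.inv_right
  have hz2 : z * z = 1 := by
    have h1 : ⁅v, c * c⁆ = 1 := by rw [hc2, commutatorElement_one_right]
    rw [show ⁅v, c * c⁆ = ⁅v, c⁆ * (c * ⁅v, c⁆ * c⁻¹) by simp only [commutatorElement_def]; group, ← hzd,
      ← hzc.eq, mul_inv_cancel_right] at h1
    exact h1
  have hzv : Commute z v := by
    have key : ∀ p q : E, p * p = 1 → q * q = 1 → p * ⁅p, q⁆ * p⁻¹ = ⁅p, q⁆⁻¹ := fun p q hp hq => by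
      rw [commutatorElement_inv, commutatorElement_def, commutatorElement_def, inv_eq_of_mul_eq_one_left hp,
        inv_eq_of_mul_eq_one_left hq]
      simp only [← mul_assoc]
      rw [hp, one_mul]
    have e : v * z * v⁻¹ = z⁻¹ := key v c hv2 hc2
    rw [inv_eq_of_mul_eq_one_left hz2] at e
    exact (mul_inv_eq_iff_eq_mul.1 e).symm
  set w : K → E := fun t => g t * v * (g t)⁻¹ with hwd
  have hconj : ∀ (a b : E) (y : E), π a = π b → a * y * a⁻¹ = b * y * b⁻¹ := fun a b y e => by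
    have hk : b⁻¹ * a ∈ Subgroup.center E :=
      hc (MonoidHom.mem_ker.2 (by rw [map_mul, map_inv, e, inv_mul_cancel]))
    calc a * y * a⁻¹ = b * ((b⁻¹ * a) * y) * a⁻¹ := by group
      _ = b * (y * (b⁻¹ * a)) * a⁻¹ := by rw [Subgroup.mem_center_iff.1 hk y]
      _ = b * y * b⁻¹ := by group
  have hgw : ∀ s t, g s * w t * (g s)⁻¹ = w (s + t) := fun s t => by
    rw [hwd]
    show g s * (g t * v * (g t)⁻¹) * (g s)⁻¹ = g (s + t) * v * (g (s + t))⁻¹
    rw [← hconj (g s * g t) (g (s + t)) v (by rw [map_mul, hg, hg, hg, oX_add okD4 orbD4ok f])]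
    group
  have hwc : ∀ t, ⁅v, w t⁆ ∈ Subgroup.zpowers z := by
    intro t
    rcases eq_or_ne t 0 with rfl | ht
    · have : w 0 = v := by
        show g 0 * v * (g 0)⁻¹ = v
        rw [hconj (g 0) 1 v (by rw [map_one, hg, oX_zero okD4 orbD4ok f]), one_mul, inv_one, mul_one]
      rw [this, commutatorElement_self]
      exact one_mem _
    obtain ⟨A, hA⟩ := hX (rD 19) t (hsh _ (by decide +kernel) t)
    obtain ⟨B, hB⟩ := hX (rD 21) (t ^ 3) (hsh _ (by decide +kernel) _)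
    have h7 : t ^ 7 = 1 := mul_left_cancel₀ ht (by rw [← pow_succ', pow_eight hK t, mul_one])
    have hvA : Commute v A :=
      commute_of_moved hK hf hc hX (r := rD 19) (i := rD 14) (by decide +kernel) (by decide +kernel)
        (by decide +kernel) (by decide +kernel) hvπ hA
    have hvB : Commute v B :=
      commute_of_moved hK hf hc hX (r := rD 21) (i := rD 14) (by decide +kernel) (by decide +kernel)
        (by decide +kernel) (by decide +kernel) hvπ hB
    have hrest : Commute v (z * B * A * v) := ((hzv.symm.mul_right hvB).mul_right hvA).mul_right (Commute.refl v)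
    have e : ⁅v, w t⁆ = ⁅v, c * (z * B * A * v)⁆ := commutator_congr hc rfl (by
      show π (g t * v * (g t)⁻¹) = _
      rw [map_mul, map_mul, map_inv, hg, hvπ, conj_b hf t (pow_eight hK t), h7, map_mul, map_mul, map_mul, map_mul,
        hcπ, hzπ, hA, hB, hvπ]
      simp only [mul_assoc])
    rw [e, show ⁅v, c * (z * B * A * v)⁆ = ⁅v, c⁆ * (c * ⁅v, z * B * A * v⁆ * c⁻¹) by
      simp only [commutatorElement_def]; group, commutatorElement_eq_one_iff_mul_comm.2 hrest.eq, mul_one,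
      mul_inv_cancel, mul_one, ← hzd]
    exact Subgroup.mem_zpowers z
  have hzw : ∀ t, Commute z (w t) := fun t => ((hzg t).mul_right hzv).mul_right (hzg t).inv_right
  have hww : ∀ s t, ⁅w s, w t⁆ ∈ Subgroup.zpowers z := by
    intro s t
    obtain ⟨k, hk⟩ := Subgroup.mem_zpowers_iff.1 (hwc (s + t))
    have e : w t = g s * w (s + t) * (g s)⁻¹ := by
      rw [hgw, ← add_assoc, CharTwo.add_self_eq_zero, zero_add]
    refine Subgroup.mem_zpowers_iff.2 ⟨k, ?_⟩
    rw [e, show ⁅w s, g s * w (s + t) * (g s)⁻¹⁆ = g s * ⁅v, w (s + t)⁆ * (g s)⁻¹ by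
      show ⁅g s * v * (g s)⁻¹, _⁆ = _
      simp only [commutatorElement_def]; group, ← hk, ← ((hzg s).zpow_left k).eq, mul_inv_cancel_right]
  set S : Finset E := Finset.univ.image w
  set W := Subgroup.closure (insert z (S : Set E)) with hWd
  have hcard : Nat.card ↥W ≤ 2 ^ 9 := by
    refine (card_closure_le_two_pow z hz2 S ?_ ?_).trans (Nat.pow_le_pow_right two_pos ?_)
    · intro y hy
      obtain ⟨t, -, rfl⟩ := Finset.mem_image.1 hy
      refine ⟨?_, (hzw t).symm⟩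
      show g t * v * (g t)⁻¹ * (g t * v * (g t)⁻¹) = 1
      rw [show g t * v * (g t)⁻¹ * (g t * v * (g t)⁻¹) = g t * (v * v) * (g t)⁻¹ by group, hv2, mul_one,
        mul_inv_cancel]
    · intro a ha b hb
      obtain ⟨s, -, rfl⟩ := Finset.mem_image.1 ha
      obtain ⟨t, -, rfl⟩ := Finset.mem_image.1 hb
      exact hww s t
    · have h8 : S.card ≤ Fintype.card K := Finset.card_image_le
      rw [hK] at h8
      omega
  have hwW : ∀ t, w t ∈ W := fun t =>
    Subgroup.subset_closure (Or.inr (Finset.mem_image.2 ⟨t, Finset.mem_univ t, rfl⟩))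
  have hzW : z ∈ W := Subgroup.subset_closure (Set.mem_insert _ _)
  have hnorm : ∀ s, ∀ y ∈ W, g s * y * (g s)⁻¹ ∈ W := by
    intro s y hy
    refine conj_mem_closure ?_ hy
    rintro u (rfl | hu)
    · rw [← (hzg s).eq, mul_inv_cancel_right]; exact hzW
    · obtain ⟨t, -, rfl⟩ := Finset.mem_image.1 hu
      rw [hgw]; exact hwW _
  set P := W.map π with hPd
  obtain ⟨hPC, hPA, hPB⟩ := mem_conjClosure hK hf P ⟨z, hzW, hzπ⟩ fun t => ⟨w t, hwW t, by
    show π (g t * v * (g t)⁻¹) = _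
    rw [map_mul, map_mul, map_inv, hg, hvπ]⟩
  set U := chevD4.posUnipotent K ⊓ (tdD4 f).G1 with hUd
  -- the elements of the unipotent group
  let T : Subgroup (GL chevD4.Idx K) :=
    { carrier := {y | ∃ s, ∃ p ∈ W, y = π (g s * p)}
      one_mem' := ⟨0, 1, one_mem _, by rw [mul_one, hg, oX_zero okD4 orbD4ok f]⟩
      mul_mem' := by
        rintro _ _ ⟨s, p, hp, rfl⟩ ⟨t, q, hq, rfl⟩
        refine ⟨s + t, g t * p * (g t)⁻¹ * q, mul_mem (hnorm t p hp) hq, ?_⟩
        have h2 : π (g t) * π (g t) = 1 := by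
          rw [hg, oX_add okD4 orbD4ok f, CharTwo.add_self_eq_zero, oX_zero okD4 orbD4ok f]
        simp only [map_mul, map_inv]
        rw [show π (g (s + t)) = π (g s) * π (g t) by rw [hg, hg, hg, oX_add okD4 orbD4ok f],
          inv_eq_of_mul_eq_one_left h2]
        simp only [mul_assoc]
        rw [← mul_assoc (π (g t)) (π (g t)), h2, one_mul]
      inv_mem' := by
        rintro _ ⟨s, p, hp, rfl⟩
        refine ⟨s, g s * p⁻¹ * (g s)⁻¹, hnorm s _ (inv_mem hp), ?_⟩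
        have h2 : π (g s) * π (g s) = 1 := by
          rw [hg, oX_add okD4 orbD4ok f, CharTwo.add_self_eq_zero, oX_zero okD4 orbD4ok f]
        simp only [map_mul, map_inv, mul_inv_rev]
        rw [← mul_assoc (π (g s)), ← mul_assoc (π (g s)), h2, one_mul] }
  have hUT : U ≤ T := by
    intro y hy
    have hyfix : goodD4.twistHom okD4.check f y = y := (tdD4 f).G1_le_fixed hy.2
    have hy1 : y ∈ goodD4.posSub (F := K) (sset (lev goodD4 1)) := by
      have h1 := hy.1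
      rw [goodD4.posUnipotent_eq] at h1
      refine goodD4.posSub_mono ?_ h1
      intro r hr _
      obtain ⟨h1, h2⟩ := goodD4.isPosRoot_iff.1 hr
      exact ⟨⟨r, h2⟩, mem_lev.2 ⟨h1, htR_pos (G := goodD4) h1⟩, rfl⟩
    refine (Subgroup.closure_le _).2 ?_ (fixed_mem_closure okD4 orbD4ok f _ (up_lev _) (lev_stable okD4 orbD4ok _)
      _ hy1 hyfix)
    rintro _ ⟨r, hr, u, hu, rfl⟩
    have hmemP : ∀ q ∈ P, q ∈ T := by
      rintro _ ⟨p, hp, rfl⟩
      exact ⟨0, p, hp, by rw [map_mul, hg, oX_zero okD4 orbD4ok f, one_mul]⟩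
    obtain ⟨i, -, hi⟩ := (show ∀ r : Fin chevD4.nroots, chevD4.nroots / 2 ≤ r.val → ∃ i ∈ List.range 3,
      graphD4.πF^[i] r ∈ [rD 18, rD 14, rD 19, rD 21, rD 22, rD 23] by decide +kernel) r (mem_lev.1 hr).1
    obtain ⟨u', hu', eu⟩ := exists_shift okD4 orbD4ok hu i
    rw [← eu]
    simp only [List.mem_cons, List.not_mem_nil, or_false] at hi
    rcases hi with e | e | e | e | e | e <;> rw [e] at hu' ⊢
    · exact ⟨u', 1, one_mem _, by rw [mul_one, hg]⟩
    · rcases (inO_long_iff hf (by decide +kernel)).1 hu' with rfl | rfl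
      · rw [oX_zero okD4 orbD4ok f]; exact one_mem _
      · rw [oX_long (by decide +kernel)]
        refine hmemP _ ⟨w 0, hwW 0, ?_⟩
        show π (g 0 * v * (g 0)⁻¹) = _
        rw [map_mul, map_mul, map_inv, hg, oX_zero okD4 orbD4ok f, one_mul, inv_one, mul_one, hvπ]
        rfl
    · exact hmemP _ (hPA u')
    · exact hmemP _ (hPB u')
    · rcases (inO_long_iff hf (by decide +kernel)).1 hu' with rfl | rfl
      · rw [oX_zero okD4 orbD4ok f]; exact one_mem _
      · rw [oX_long (by decide +kernel)]; exact hmemP _ hPC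
    · rcases (inO_long_iff hf (by decide +kernel)).1 hu' with rfl | rfl
      · rw [oX_zero okD4 orbD4ok f]; exact one_mem _
      · rw [oX_long (by decide +kernel)]; exact hmemP _ ⟨z, hzW, hzπ⟩
  have hPcard : 2 ^ 12 ≤ 2 ^ 3 * Nat.card ↥P := by
    rw [← card_U1_D4 f hf hK, ← hK, ← Nat.card_eq_fintype_card (α := K), ← Nat.card_prod]
    refine (Nat.card_mono (Set.toFinite _) hUT).trans (Nat.card_le_card_of_surjective
      (fun q : K × ↥P => (⟨π (g q.1) * q.2.1, by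
        obtain ⟨p, hp, e⟩ := q.2.2
        exact ⟨q.1, p, hp, by rw [map_mul, e]⟩⟩ : ↥T)) ?_)
    rintro ⟨_, s, p, hp, rfl⟩
    exact ⟨(s, ⟨π p, p, hp, rfl⟩), Subtype.ext (map_mul π _ _).symm⟩
  refine ⟨W, ?_, ?_⟩
  · have hsur : Function.Surjective fun p : ↥W => (⟨π p, p, p.2, rfl⟩ : ↥P) := by
      rintro ⟨_, p, hp, rfl⟩; exact ⟨⟨p, hp⟩, rfl⟩
    have hle : Nat.card ↥W = Nat.card ↥P := le_antisymm (by omega) (Nat.card_le_card_of_surjective _ hsur)
    have hinj := ((Nat.bijective_iff_surjective_and_card _).2 ⟨hsur, hle⟩).1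
    intro y hy e
    have := @hinj ⟨y, hy⟩ ⟨1, one_mem _⟩ (Subtype.ext (show π y = π 1 by rw [e, map_one]))
    exact congrArg Subtype.val this
  · intro a b ha hb
    obtain ⟨s, p, hp, ea⟩ := hUT ha
    obtain ⟨t, q, hq, eb⟩ := hUT hb
    rw [commutator_congr hc ea eb]
    have h1 : ⁅p, g t * q⁆ ∈ W := by
      rw [show ⁅p, g t * q⁆ = p * (g t * (q * p⁻¹ * q⁻¹) * (g t)⁻¹) by simp only [commutatorElement_def]; group]
      exact mul_mem hp (hnorm t _ (mul_mem (mul_mem hq (inv_mem hp)) (inv_mem hq)))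
    have h2 : ⁅g s, q⁆ ∈ W := by
      rw [commutatorElement_def]; exact mul_mem (hnorm s q hq) (inv_mem hq)
    rw [show ⁅g s * p, g t * q⁆ = g s * ⁅p, g t * q⁆ * (g s)⁻¹ * (⁅g s, g t⁆ * (g t * ⁅g s, q⁆ * (g t)⁻¹)) by
      simp only [commutatorElement_def]; group, commutatorElement_eq_one_iff_mul_comm.2 (hself s t).eq, one_mul]
    exact mul_mem (hnorm s _ h1) (hnorm t _ h2)

omit hc hX

/-- The kernel of a stem extension has odd order. -/
theorem not_two_dvd_ker [Finite E] (τ : E →* ↥(tdD4 f).G1) (hτ : Cfsg.IsStemExtension τ) :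
    ¬ 2 ∣ Nat.card τ.ker := by
  classical
  haveI := charTwo_of_frob hK hf
  haveI : Fact (Nat.Prime 2) := ⟨Nat.prime_two⟩
  set π : E →* GL chevD4.Idx K := (tdD4 f).G1.subtype.comp τ with hπ
  have hker : π.ker = τ.ker := MonoidHom.ker_comp_of_injective _ _ Subtype.val_injective
  have hc : π.ker ≤ Subgroup.center E := hker.le.trans hτ.2.1
  have hX : ∀ r t, InO graphD4 3 f r t → oX graphD4 goodD4 3 f r t ∈ π.range := fun r t ht => by
    obtain ⟨a, ha⟩ := hτ.1 ⟨_, oX_mem_G1 okD4 orbD4ok coxD4 ht⟩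
    exact ⟨a, congrArg Subtype.val ha⟩
  obtain ⟨W, hW1, hW2⟩ := exists_small hK hf hc hX
  obtain ⟨P₀, hP₀⟩ := Cfsg.Agent.H64.Twist.sylow_U1 okD4 coxD4 f 2
  obtain ⟨Q₀⟩ : Nonempty (Sylow 2 E) := inferInstance
  obtain ⟨R, hR⟩ := (Q₀.isPGroup'.map τ).exists_le_sylow
  obtain ⟨γ, hγ⟩ := MulAction.exists_smul_eq ↥(tdD4 f).G1 R P₀
  obtain ⟨δ, hδ⟩ := hτ.1 γ
  refine Cfsg.Agent.H64.not_dvd_card_ker_of_sylow hτ (δ • Q₀) ?_
  have hQ : ∀ y ∈ ((δ • Q₀ : Sylow 2 E) : Subgroup E), π y ∈ chevD4.posUnipotent K ⊓ (tdD4 f).G1 := by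
    intro y hy
    rw [Sylow.coe_subgroup_smul, Subgroup.mem_pointwise_smul_iff_inv_smul_mem] at hy
    have h1 : τ y ∈ ((γ • R : Sylow 2 ↥(tdD4 f).G1) : Subgroup ↥(tdD4 f).G1) := by
      rw [Sylow.coe_subgroup_smul, Subgroup.mem_pointwise_smul_iff_inv_smul_mem]
      have := hR (Subgroup.mem_map_of_mem τ hy)
      simpa [MulAut.smul_def, hδ] using this
    rw [hγ, hP₀, Subgroup.mem_subgroupOf] at h1
    refine ⟨?_, (τ y).2⟩
    have h2 := (tdD4 f).U1_le_U h1
    rwa [graphD4.tdata_U okD4 coxD4 f] at h2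
  rw [Subgroup.eq_bot_iff_forall]
  rintro y ⟨hy1, hy2⟩
  refine hW1 y ?_ (show π y = 1 from hker.ge hy1)
  exact (Subgroup.commutator_le.2 fun a ha b hb => hW2 a b (hQ a ha) (hQ b hb)) hy2

/-- The lifts of the orbit elements are unique up to their square. -/
theorem uniq_two [Finite E] (τ : E →* ↥(tdD4 f).G1) (hτ : Cfsg.IsStemExtension τ) :
    Uniq graphD4 goodD4 3 f ((tdD4 f).G1.subtype.comp τ) := by
  classical
  haveI := charTwo_of_frob hK hf
  set π : E →* GL chevD4.Idx K := (tdD4 f).G1.subtype.comp τ with hπ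
  have hker : π.ker = τ.ker := MonoidHom.ker_comp_of_injective _ _ Subtype.val_injective
  have hodd := not_two_dvd_ker hK hf τ hτ
  rw [← hker] at hodd
  refine ⟨fun r t ht => ?_, fun k hk hk2 => ?_, ⟨chevD4.posUnipotent K ⊓ (tdD4 f).G1, 12,
    card_U1_D4 f hf hK, fun r hr t ht => ⟨?_, oX_mem_G1 okD4 orbD4ok coxD4 ht⟩⟩⟩
  · obtain ⟨a, ha⟩ := hτ.1 ⟨_, oX_mem_G1 okD4 orbD4ok coxD4 ht⟩
    have hπa : π a = 𝕏 f r t := congrArg Subtype.val ha
    set k : ↥π.ker := ⟨a * a, by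
      rw [MonoidHom.mem_ker, map_mul, hπa, oX_add okD4 orbD4ok f, CharTwo.add_self_eq_zero,
        oX_zero okD4 orbD4ok f]⟩ with hkd
    obtain ⟨m, hm⟩ : Odd (Nat.card ↥π.ker) := Nat.odd_iff.2 (Nat.two_dvd_ne_zero.1 hodd)
    have hk : k ^ (2 * m + 1) = 1 := hm ▸ pow_card_eq_one'
    refine ⟨a * ((k ^ m : ↥π.ker) : E), ?_, ?_⟩
    · rw [map_mul, show π ((k ^ m : ↥π.ker) : E) = 1 from (k ^ m).2, mul_one, hπa]
    · have hcen := Subgroup.mem_center_iff.1 ((hker.le.trans hτ.2.1) (k ^ m).2)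
      calc a * ((k ^ m : ↥π.ker) : E) * (a * ((k ^ m : ↥π.ker) : E))
          = a * (((k ^ m : ↥π.ker) : E) * a) * ((k ^ m : ↥π.ker) : E) := by group
        _ = (a * a) * (((k ^ m : ↥π.ker) : E) * ((k ^ m : ↥π.ker) : E)) := by rw [← hcen a]; group
        _ = ((k * (k ^ m * k ^ m) : ↥π.ker) : E) := rfl
        _ = 1 := by rw [← pow_add, ← pow_succ', ← two_mul, hk]; rfl
  · obtain ⟨m, hm⟩ : Odd (Nat.card ↥π.ker) := Nat.odd_iff.2 (Nat.two_dvd_ne_zero.1 hodd)
    have h := pow_card_eq_one' (x := (⟨k, hk⟩ : ↥π.ker))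
    rw [hm, pow_succ, pow_mul] at h
    simpa [sq, hk2, Subtype.ext_iff] using h
  · have hpos := oX_mem_posSub okD4 orbD4ok f (S := lev goodD4 1) (r := r) (fun y hy => (mem_lev.1 hy).1)
      (fun y hy => ?_) t
    · exact goodD4.posSub_le_posUnipotent _ hpos
    · obtain ⟨i, -, rfl⟩ := Finset.mem_image.1 hy
      exact iter_mem (lev_stable okD4 orbD4ok 1) (mem_lev.2 ⟨hr, htR_pos (G := goodD4) hr⟩) i

/-- The multiplier of ³D₄(2). -/
theorem card_stem_ker_le_two [Finite E] (τ : E →* ↥(tdD4 f).G1) (hτ : Cfsg.IsStemExtension τ) :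
    Nat.card τ.ker ≤ 1 := by
  refine (card_stem_ker_le' okD4 orbD4ok coxD4 τ hτ (fun π e => ?_)
    fun π hc hX => selfD4 hf hK le_rfl hc hX).trans_eq (kerFix_D4 f hf hK)
  subst e
  exact ⟨Or.inl (uniq_two hK hf τ hτ), Or.inr (uniq_two hK hf τ hτ)⟩

end Cfsg.Agent.H46.TwistCover
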