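import Cfsg.Agent.H46.TwistCover.SelfComm
import Cfsg.Prelude.Def_KGroupFacts

/-!
# The kernel of a stem extension of a twisted group
-/

set_option autoImplicit false

namespace Cfsg.Agent.H46.TwistCover

open Cfsg.Lie Cfsg.Agent.H47 Cfsg.Agent.H46
open scoped Matrix MatrixGroups commutatorElement

variable {D : ChevalleyDatum} {T : GraphData D} {G : Good D} {F : Type*} [Field F] {d : ℕ} {f : F →+* F}

/-- Orbit elements lie in the twisted group. -/
theorem oX_mem_G1 (h : T.Ok G) (O : OrbOk T G d) (C : CoxData G) {r : Fin D.nroots} {t : F}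
    (ht : InO T d f r t) : oX T G d f r t ∈ (T.tdata h C f).G1 := by
  have hpos : ∀ r : Fin D.nroots, D.nroots / 2 ≤ r.val → ∀ t, InO T d f r t →
      oX T G d f r t ∈ (T.tdata h C f).G1 := by
    intro r hr t ht
    refine (T.tdata h C f).U1_le_G1 ⟨?_, twist_oX h O f ht⟩
    rw [T.tdata_U h C f]
    refine G.posSub_le_posUnipotent _ (oX_mem_posSub h O f (fun y hy => (mem_lev.1 hy).1) (fun y hy => ?_) t
      (S := lev G 1))
    obtain ⟨i, -, rfl⟩ := Finset.mem_image.1 hy
    exact iter_mem (lev_stable h O 1) (mem_lev.2 ⟨hr, htR_pos (G := G) hr⟩) i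
  rcases le_or_gt (D.nroots / 2) r.val with hr | hr
  · exact hpos r hr t ht
  · obtain ⟨s, hs, e⟩ := O.top_surj r hr
    obtain ⟨c, hc, hw⟩ := conj_actW f h O s T.top
    have hin : InO T d f s (c * t) := by
      refine InO.mul f (InO.sign f hc) ?_
      rwa [← e, InO, olen_actW h] at ht
    have := hw (c * t)
    rw [e, ← mul_assoc, show c * c = 1 by rcases hc with rfl | rfl <;> simp, one_mul] at this
    rw [← this]
    have hn : nW T G F T.top ∈ (T.tdata h C f).G1 := by
      rw [T.G1_eq_closure h C f]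
      exact Subgroup.list_prod_mem _ fun x hx => by
        obtain ⟨j, -, rfl⟩ := List.mem_map.1 hx
        exact T.nPar_mem_closure h f j fun _ _ => (map_one f).symm
    exact mul_mem (mul_mem hn (hpos s hs _ hin)) (inv_mem hn)

/-- The bound on the kernels of the stem extensions, in either case. -/
theorem card_stem_ker_le' [Finite F] (h : T.Ok G) (O : OrbOk T G d) (C : CoxData G)
    {E : Type*} [Group E] (τ : E →* ↥(T.tdata h C f).G1) (hτ : Cfsg.IsStemExtension τ)
    (hor : ∀ π : E →* GL D.Idx F, π = (T.tdata h C f).G1.subtype.comp τ →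
      (Uniq T G d f π ∨ Moves T G f) ∧ (Sep T G d f ∨ Uniq T G d f π))
    (hself : ∀ π : E →* GL D.Idx F, π.ker ≤ Subgroup.center E →
      (∀ r t, InO T d f r t → oX T G d f r t ∈ π.range) → ∀ j, SelfAt T G d f π (sR T G j)) :
    Nat.card τ.ker ≤ Nat.card {z : Fin D.rank → Fˣ //
      (∀ k, z (T.ρF k) = Units.map f.toMonoidHom (z k)) ∧ act (cartT D G.tab) z = 1} := by
  set π : E →* GL D.Idx F := (T.tdata h C f).G1.subtype.comp τ with hπ
  have hker : π.ker = τ.ker := MonoidHom.ker_comp_of_injective _ _ Subtype.val_injective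
  have hc : π.ker ≤ Subgroup.center E := hker.le.trans hτ.2.1
  have hX : ∀ r t, InO T d f r t → oX T G d f r t ∈ π.range := fun r t ht => by
    obtain ⟨a, ha⟩ := hτ.1 ⟨_, oX_mem_G1 h O C ht⟩
    exact ⟨a, congrArg Subtype.val ha⟩
  have K : Lifts T G d f π := ⟨h, O, hc, hX, (hor π hπ).1, fun r => selfAt_of_simple h O hX (hself π hc hX) r⟩
  set M := Subgroup.closure {x | ∃ r t, InO T d f r t ∧ x = L T G d f π r t} with hM
  have hsurj : ∀ e : E, ∃ m ∈ M, π m = π e := by
    intro e
    have he : π e ∈ (T.tdata h C f).G1 := (τ e).2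
    rw [T.G1_eq_closure h C f] at he
    have hle : Subgroup.closure (T.genSet G f) ≤ M.map π := by
      refine (Subgroup.closure_le _).2 ?_
      rintro g ⟨j, c, hj, rfl | rfl⟩
      · rw [pX_eq_oX h O hj]
        exact ⟨_, Subgroup.subset_closure ⟨_, _, sat_inO h O hj, rfl⟩, K.map_L (sat_inO h O hj)⟩
      · rw [nX_eq_oX h O hj]
        have hi := K.inO_negF_iff.2 (sat_inO h O hj)
        exact ⟨_, Subgroup.subset_closure ⟨_, _, hi, rfl⟩, K.map_L hi⟩
    exact hle he
  have hcomm : commutator E ≤ M := by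
    rw [commutator_def, Subgroup.commutator_le]
    intro a _ b _
    obtain ⟨a', ha', ea⟩ := hsurj a
    obtain ⟨b', hb', eb⟩ := hsurj b
    rw [Cfsg.Agent.H82.Chev.commutator_congr hc ea.symm eb.symm, commutatorElement_def]
    exact mul_mem (mul_mem (mul_mem ha' hb') (inv_mem ha')) (inv_mem hb')
  have hgen : M = ⊤ := by
    refine eq_top_iff.2 fun e _ => ?_
    obtain ⟨m, hm, em⟩ := hsurj e
    have : m⁻¹ * e ∈ τ.ker := hker.le (MonoidHom.mem_ker.2 (by rw [map_mul, map_inv, em, inv_mul_cancel]))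
    have := mul_mem hm (hcomm (hτ.2.2 this))
    rwa [mul_inv_cancel_left] at this
  rw [← hker]
  exact K.card_ker_le (hor π hπ).2 hgen

/-- The bound on the kernels of the stem extensions. -/
theorem card_stem_ker_le [Finite F] (h : T.Ok G) (O : OrbOk T G d) (C : CoxData G)
    (hmoves : ∀ r : Fin D.nroots, ∃ z, Fix T f z ∧ (G.torusVal z r.val : F) ≠ 1) (hsep : Sep T G d f)
    {E : Type*} [Group E] (τ : E →* ↥(T.tdata h C f).G1) (hτ : Cfsg.IsStemExtension τ)
    (hself : ∀ π : E →* GL D.Idx F, π.ker ≤ Subgroup.center E →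
      (∀ r t, InO T d f r t → oX T G d f r t ∈ π.range) → ∀ j, SelfAt T G d f π (sR T G j)) :
    Nat.card τ.ker ≤ Nat.card {z : Fin D.rank → Fˣ //
      (∀ k, z (T.ρF k) = Units.map f.toMonoidHom (z k)) ∧ act (cartT D G.tab) z = 1} := by
  exact card_stem_ker_le' h O C τ hτ (fun _ _ => ⟨Or.inr hmoves, Or.inl hsep⟩) hself

end Cfsg.Agent.H46.TwistCover
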