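import Cfsg.Agent.H46.TwistCover.Cert
import Cfsg.Agent.H46.TwistCover.Stem

/-!
# The twisted groups of types E6 and D4
-/

set_option autoImplicit false
set_option maxRecDepth 100000

namespace Cfsg.Agent.H46.TwistCover

open Cfsg.Lie Cfsg.Agent.H47 Cfsg.Agent.H46
open scoped Matrix MatrixGroups

theorem orbE6ok : OrbOk graphE6 goodE6 2 where
  d_pos := two_pos
  pi_iter := by decide +kernel
  rho_iter := by decide +kernel
  eps_prod := by decide +kernel
  orth := by decide +kernel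
  ht_pi := by decide +kernel
  len_eq := by decide +kernel
  eta_neg := by decide +kernel
  wJ_neg := by decide +kernel
  top_surj := by decide +kernel

theorem orbD4ok : OrbOk graphD4 goodD4 3 where
  d_pos := three_pos
  pi_iter := by decide +kernel
  rho_iter := by decide +kernel
  eps_prod := by decide +kernel
  orth := by decide +kernel
  ht_pi := by decide +kernel
  len_eq := by decide +kernel
  eta_neg := by decide +kernel
  wJ_neg := by decide +kernel
  top_surj := by decide +kernel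

/-- Cocharacters separating the orbits of type E6. -/
def zsE6 : List (List ℤ) := [[-1, -1, -2, -2, -2, -1], [-1, -1, -1, -2, -1, -1], [-1, -1, -1, -1, -1, -1],
  [0, -1, -1, -1, -1, 0], [-1, -1, -1, -2, -1, 0], [-1, -1, -2, -2, -1, 0]]

/-- Cocharacters separating the orbits of type D4. -/
def zsD4 : List (List ℤ) := [[-1, -2, -1, -1], [-1, -1, -1, -1], [-1, -1, 0, 0], [-1, 0, 0, 0], [-1, -1, -1, 0]]

theorem chkMovesE6 : chkMoves graphE6 goodE6 2 zsE6 = true := by decide +kernel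

theorem chkMovesD4 : chkMoves graphD4 goodD4 3 zsD4 = true := by decide +kernel

theorem chkSepE6 : chkSepO graphE6 goodE6 2 zsE6 = true := by decide +kernel

theorem chkSepD4 : chkSepO graphD4 goodD4 3 zsD4 = true := by decide +kernel

/-- A decomposition of a fixed root into fixed roots. -/
def LongB {D : ChevalleyDatum} (T : GraphData D) (r a b : Fin D.nroots) (e : ℤ) : Prop :=
  T.πF r = r ∧ T.πF a = a ∧ T.πF b = b ∧ b.val ≠ a.val ∧ b.val ≠ D.neg a.val ∧ (e = 1 ∨ e = -1) ∧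
    D.commTerms a.val b.val = [(r.val, e, 1, 1)] ∧ D.commTerms r.val a.val = [] ∧ a.val ≠ D.neg r.val ∧
    D.commTerms r.val b.val = [] ∧ b.val ≠ D.neg r.val

instance {D : ChevalleyDatum} (T : GraphData D) (r a b : Fin D.nroots) (e : ℤ) : Decidable (LongB T r a b e) :=
  inferInstanceAs (Decidable (_ ∧ _))

theorem longE6₂ : ∃ e ∈ [(1 : ℤ), -1], LongB graphE6 (sR graphE6 goodE6 2) ⟨2, by decide⟩ ⟨70, by decide⟩ e := by
  decide +kernel

theorem longE6₃ : ∃ e ∈ [(1 : ℤ), -1], LongB graphE6 (sR graphE6 goodE6 3) ⟨1, by decide⟩ ⟨71, by decide⟩ e := by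
  decide +kernel

theorem longD4₁ : ∃ e ∈ [(1 : ℤ), -1], LongB graphD4 (sR graphD4 goodD4 1) ⟨1, by decide⟩ ⟨23, by decide⟩ e := by
  decide +kernel

theorem selfAt_of_longB {D : ChevalleyDatum} {T : GraphData D} {G : Good D} {F : Type*} [Field F] {d : ℕ}
    {f : F →+* F} {E : Type*} [Group E] {π : E →* GL D.Idx F} (h : T.Ok G) (O : OrbOk T G d)
    (hc : π.ker ≤ Subgroup.center E) (hX : ∀ r t, InO T d f r t → oX T G d f r t ∈ π.range)
    {r a b : Fin D.nroots} (hl : ∃ e ∈ [(1 : ℤ), -1], LongB T r a b e) : SelfAt T G d f π r := by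
  obtain ⟨e, -, h1, h2, h3, h4, h5, h6, h7, h8, h9, h10, h11⟩ := hl
  exact selfAt_long h O hc hX h1 h2 h3 h4 h5 h6 h7 h8 h9 h10 h11

theorem xvE6₀ : XV graphE6 goodE6 2 [0, 0, -1, 0, 0, 0] (sR graphE6 goodE6 0).val = [1, 0] ∧
    olen graphE6 2 (sR graphE6 goodE6 0) = 2 := by decide +kernel

theorem xvE6₁ : XV graphE6 goodE6 2 [-1, 0, 0, 0, 0, 0] (sR graphE6 goodE6 1).val = [1, 0] ∧
    olen graphE6 2 (sR graphE6 goodE6 1) = 2 := by decide +kernel

theorem xvD4₀ : XV graphD4 goodD4 3 [1, 0, 0, 0] (sR graphD4 goodD4 0).val = [2, 0, 0] ∧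
    XV graphD4 goodD4 3 [0, -1, 0, 0] (sR graphD4 goodD4 0).val = [1, 1, 1] ∧
    olen graphD4 3 (sR graphD4 goodD4 0) = 3 := by decide +kernel

variable {K : Type*} [Field K] [Fintype K] {q : ℕ} {f : K →+* K} (hf : ∀ x, f x = x ^ q)

include hf

theorem selfE6 (hK : Fintype.card K = q ^ 2) (hq : 3 ≤ q) {E : Type*} [Group E] {π : E →* GL chevE6.Idx K}
    (hc : π.ker ≤ Subgroup.center E) (hX : ∀ r t, InO graphE6 2 f r t → oX graphE6 goodE6 2 f r t ∈ π.range) :
    ∀ j, SelfAt graphE6 goodE6 2 f π (sR graphE6 goodE6 j) := by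
  have hd : 0 < 2 := two_pos
  obtain ⟨c, hc0, hc1, hc2⟩ := exists_scalar (F := K) (by rw [hK]; nlinarith)
  intro j
  fin_cases j
  · refine selfAt_short okE6 orbE6ok hc hX (fun a _ ha => surj_of_exp hf hK orbE6ok
      (x := [0, 0, -1, 0, 0, 0]) (y := []) (a := 1) (b := 0) ?_ a ha) ⟨c, inO_all hf hK orbE6ok xvE6₀.2 c, hc0, hc1, hc2⟩
    rw [expR, expR, Finset.sum_range_succ, Finset.sum_range_succ, Finset.sum_range_zero]
    simp [xvE6₀.1]
  · refine selfAt_short okE6 orbE6ok hc hX (fun a _ ha => surj_of_exp hf hK orbE6ok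
      (x := [-1, 0, 0, 0, 0, 0]) (y := []) (a := 1) (b := 0) ?_ a ha) ⟨c, inO_all hf hK orbE6ok xvE6₁.2 c, hc0, hc1, hc2⟩
    rw [expR, expR, Finset.sum_range_succ, Finset.sum_range_succ, Finset.sum_range_zero]
    simp [xvE6₁.1]
  · exact selfAt_of_longB okE6 orbE6ok hc hX longE6₂
  · exact selfAt_of_longB okE6 orbE6ok hc hX longE6₃

theorem selfD4 (hK : Fintype.card K = q ^ 3) (hq : 2 ≤ q) {E : Type*} [Group E] {π : E →* GL chevD4.Idx K}
    (hc : π.ker ≤ Subgroup.center E) (hX : ∀ r t, InO graphD4 3 f r t → oX graphD4 goodD4 3 f r t ∈ π.range) :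
    ∀ j, SelfAt graphD4 goodD4 3 f π (sR graphD4 goodD4 j) := by
  have h8 : 2 ^ 3 ≤ q ^ 3 := Nat.pow_le_pow_left hq 3
  obtain ⟨c, hc0, hc1, hc2⟩ := exists_scalar (F := K) (by rw [hK]; omega)
  intro j
  fin_cases j
  · obtain ⟨m, hm⟩ : Even ((q : ℤ) * (q + 1)) := Int.even_mul_succ_self _
    refine selfAt_short okD4 orbD4ok hc hX (fun a _ ha => surj_of_exp hf hK orbD4ok
      (x := [1, 0, 0, 0]) (y := [0, -1, 0, 0]) (a := -m) (b := 1) ?_ a ha) ⟨c, inO_all hf hK orbD4ok xvD4₀.2.2 c, hc0, hc1, hc2⟩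
    simp only [expR, Finset.sum_range_succ, Finset.sum_range_zero]
    simp [xvD4₀.1, xvD4₀.2.1]
    linear_combination hm
  · exact selfAt_of_longB okD4 orbD4ok hc hX longD4₁

theorem card_stem_ker_le_E6 (hK : Fintype.card K = q ^ 2) (hq : 3 ≤ q) {E : Type*} [Group E]
    (τ : E →* ↥(tdE6 f).G1) (hτ : Cfsg.IsStemExtension τ) : Nat.card τ.ker ≤ Nat.gcd 3 (q + 1) := by
  refine (card_stem_ker_le okE6 orbE6ok coxE6 (moves_of_chk hf hK (Or.inl rfl) hq orbE6ok chkMovesE6)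
    (sep_of_chk hf hK (Or.inl rfl) hq orbE6ok chkSepE6) τ hτ fun π hc hX => selfE6 hf hK hq hc hX).trans_eq ?_
  exact kerFix_E6 f hf hK

theorem card_stem_ker_le_D4 (hK : Fintype.card K = q ^ 3) (hq : 3 ≤ q) {E : Type*} [Group E]
    (τ : E →* ↥(tdD4 f).G1) (hτ : Cfsg.IsStemExtension τ) : Nat.card τ.ker ≤ 1 := by
  refine (card_stem_ker_le okD4 orbD4ok coxD4 (moves_of_chk hf hK (Or.inr rfl) hq orbD4ok chkMovesD4)
    (sep_of_chk hf hK (Or.inr rfl) hq orbD4ok chkSepD4) τ hτ fun π hc hX => selfD4 hf hK (by omega) hc hX).trans_eq ?_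
  exact kerFix_D4 f hf hK

end Cfsg.Agent.H46.TwistCover
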