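import Cfsg.Agent.H46.TwistCover.Pos
import Cfsg.Agent.H82.Chev.Comm
import Mathlib.GroupTheory.Transfer

/-!
# Lifts of the orbit elements into central extensions of a twisted group
-/

set_option autoImplicit false

namespace Cfsg.Agent.H46.TwistCover

open Cfsg.Lie Cfsg.Agent.H47 Cfsg.Agent.H46
open Cfsg.Agent.H82.Chev (commutator_congr commute_congr)
open scoped Matrix MatrixGroups commutatorElement

variable {D : ChevalleyDatum} {T : GraphData D} {G : Good D} {F : Type*} [Field F] {d : ℕ} {f : F →+* F}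
  {E : Type*} [Group E] {π : E →* GL D.Idx F}

/-- Conjugation preserving the generators of a closure preserves the closure. -/
theorem conj_mem_closure {Γ : Type*} [Group Γ] {s : Set Γ} {m : Γ}
    (H : ∀ x ∈ s, m * x * m⁻¹ ∈ Subgroup.closure s) {g : Γ} (hg : g ∈ Subgroup.closure s) :
    m * g * m⁻¹ ∈ Subgroup.closure s := by
  have : Subgroup.closure s ≤ (Subgroup.closure s).comap (MulAut.conj m).toMonoidHom := (Subgroup.closure_le _).2 H
  exact this hg

/-! ### Simple orbits -/

section simple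

variable (h : T.Ok G)

include h

theorem iter_simple (k : Fin D.rank) : ∀ s, T.πF^[s] (G.simpleF k) = G.simpleF (T.ρF^[s] k)
  | 0 => rfl
  | s + 1 => by rw [Function.iterate_succ_apply', Function.iterate_succ_apply', iter_simple k s, T.πF_simple h]

theorem iter_negF (r : Fin D.nroots) : ∀ s, T.πF^[s] (G.negF r) = G.negF (T.πF^[s] r)
  | 0 => rfl
  | s + 1 => by
    rw [Function.iterate_succ_apply', Function.iterate_succ_apply', iter_negF r s]
    refine Fin.ext ?_
    rw [T.πF_val h]
    show T.S.π (D.neg _) = D.neg _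
    rw [T.pi_neg h (Fin.is_lt _), T.πF_val h]

theorem eS_simple (k : Fin D.rank) (s : ℕ) : eS T (G.simpleF k) s = 1 := by
  refine List.prod_eq_one fun x hx => ?_
  obtain ⟨i, -, rfl⟩ := List.mem_map.1 hx
  rw [iter_simple h]
  exact h.eps_simple _

theorem eS_negF (r : Fin D.nroots) (s : ℕ) : eS T (G.negF r) s = eS T r s := by
  refine congrArg List.prod (List.map_congr_left fun i _ => ?_)
  rw [iter_negF h]
  exact T.eps_neg h (Fin.is_lt _)

theorem olen_negF (r : Fin D.nroots) : olen T d (G.negF r) = olen T d r := by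
  have e := iter_negF h r 1
  simp only [Function.iterate_one] at e
  unfold olen
  rw [e]
  by_cases hh : T.πF r = r
  · rw [if_pos hh, if_pos (by rw [hh])]
  · rw [if_neg hh, if_neg fun e' => hh (Fin.ext (by
      have := congrArg (fun x : Fin D.nroots => D.neg x.val) e'
      have e1 : ∀ x : Fin D.nroots, (G.negF x).val = D.neg x.val := fun _ => rfl
      simp only [e1, G.neg_neg (Fin.is_lt _)] at this
      exact this))]

variable (O : OrbOk T G d)

include O

theorem pX_eq_oX {j : Fin T.m} {c : Fin D.rank → F} (hc : T.Sat f j c) :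
    T.pX G j c = oX T G d f (G.simpleF (T.rep j)) (c (T.rep j)) := by
  rw [oX, O.len_eq, GraphData.pX, GraphData.orbProd, GraphData.orb, List.map_map]
  refine congrArg List.prod (List.map_congr_left fun s _ => ?_)
  rw [Function.comp_apply, iter_simple h, eS_simple h, Int.cast_one, one_mul, (T.sat_iterate h f hc s).2]
  rfl

theorem nX_eq_oX {j : Fin T.m} {c : Fin D.rank → F} (hc : T.Sat f j c) :
    T.nX G j c = oX T G d f (G.negF (G.simpleF (T.rep j))) (c (T.rep j)) := by
  rw [oX, olen_negF h, O.len_eq, GraphData.nX, GraphData.orbProd, GraphData.orb, List.map_map]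
  refine congrArg List.prod (List.map_congr_left fun s _ => ?_)
  rw [Function.comp_apply, iter_negF h, iter_simple h, eS_negF h, eS_simple h, Int.cast_one, one_mul,
    (T.sat_iterate h f hc s).2]
  rfl

theorem sat_inO {j : Fin T.m} {c : Fin D.rank → F} (hc : T.Sat f j c) :
    InO T d f (G.simpleF (T.rep j)) (c (T.rep j)) := by
  rw [InO, O.len_eq, ← (T.sat_iterate h f hc _).2, T.orb_period h]

end simple

/-! ### Conjugation by a word of twisted reflections -/

/-- The element of a word of twisted reflections. -/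
noncomputable def nW (T : GraphData D) (G : Good D) (F : Type*) [Field F] (w : List (Fin T.m)) : GL D.Idx F :=
  (w.map fun j => T.nPar G j (fun _ => (1 : F))).prod

section word

variable (h : T.Ok G) (O : OrbOk T G d) (f)

include h

theorem olen_wJ (j : Fin T.m) (r : Fin D.nroots) : olen T d (T.wJ G j r) = olen T d r := by
  unfold olen
  congr 1
  rw [← h.comm]
  exact propext ⟨fun e => by rw [← h.invol j (T.πF r), e, h.invol], fun e => by rw [e]⟩

theorem olen_actW (r : Fin D.nroots) : ∀ w, olen T d (actW T G w r) = olen T d r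
  | [] => rfl
  | j :: w => (olen_wJ h j _).trans (olen_actW r w)

include O

theorem conj_actW (r : Fin D.nroots) : ∀ w, ∃ e : F, (e = 1 ∨ e = -1) ∧
    ∀ u, nW T G F w * oX T G d f r u * (nW T G F w)⁻¹ = oX T G d f (actW T G w r) (e * u)
  | [] => ⟨1, Or.inl rfl, fun u => by simp [nW, actW]⟩
  | j :: w => by
    obtain ⟨e, he, hw⟩ := conj_actW r w
    obtain ⟨e', he', hj, -⟩ := nPar_conj_pair (F := F) h O j (actW T G w r)
    refine ⟨e' * e, by rcases he with rfl | rfl <;> rcases he' with rfl | rfl <;> simp, fun u => ?_⟩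
    have := nPar_conj_oX h O f (hj (e * u))
    rw [show nW T G F (j :: w) = T.nPar G j (fun _ => (1 : F)) * nW T G F w from List.prod_cons, mul_inv_rev,
      mul_assoc e', show actW T G (j :: w) r = T.wJ G j (actW T G w r) from rfl, ← this, ← hw u]
    simp only [mul_assoc]

/-- Orbit elements determine their parameter. -/
theorem oX_eq_one_iff {r : Fin D.nroots} {t : F} : oX T G d f r t = 1 ↔ t = 0 := by
  refine ⟨fun ht => ?_, fun e => e ▸ oX_zero h O f r⟩
  rcases le_or_gt (D.nroots / 2) r.val with hr | hr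
  · exact oX_eq_one h O f hr (ht ▸ one_mem _)
  · obtain ⟨s, hs, hsr⟩ := O.top_surj r hr
    obtain ⟨e, he, hw⟩ := conj_actW f h O s T.top
    have he2 : e * e = 1 := by rcases he with rfl | rfl <;> simp
    have := hw (e * t)
    rw [← mul_assoc, he2, one_mul, hsr, ht, mul_inv_eq_one, mul_eq_left] at this
    have h0 := oX_eq_one h O f hs (this ▸ one_mem _)
    exact (mul_eq_zero.1 h0).resolve_left fun e0 => by simp [e0] at he2

theorem oX_inj {r : Fin D.nroots} {t u : F} (e : oX T G d f r t = oX T G d f r u) : t = u := by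
  refine sub_eq_zero.1 ((oX_eq_one_iff f h O (r := r)).1 ?_)
  rw [sub_eq_add_neg, ← oX_add h O f, e, oX_add h O f, add_neg_cancel, oX_zero h O f]

end word

/-! ### The lifts -/

/-- The orbit elements lift uniquely to elements of square one. -/
structure Uniq (T : GraphData D) (G : Good D) (d : ℕ) (f : F →+* F) (π : E →* GL D.Idx F) : Prop where
  exists_inv : ∀ r t, InO T d f r t → ∃ a, π a = oX T G d f r t ∧ a * a = 1
  ker_inv : ∀ k : E, π k = 1 → k * k = 1 → k = 1
  two_group : ∃ (U : Subgroup (GL D.Idx F)) (N : ℕ), Nat.card U = 2 ^ N ∧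
    ∀ r : Fin D.nroots, D.nroots / 2 ≤ r.val → ∀ t, InO T d f r t → oX T G d f r t ∈ U

/-- Every root is moved by the fixed torus. -/
def Moves (T : GraphData D) (G : Good D) (f : F →+* F) : Prop :=
  ∀ r : Fin D.nroots, ∃ z, Fix T f z ∧ (G.torusVal z r.val : F) ≠ 1

/-- The hypotheses for lifting the orbit elements. -/
structure Lifts (T : GraphData D) (G : Good D) (d : ℕ) (f : F →+* F) (π : E →* GL D.Idx F) : Prop where
  ok : T.Ok G
  orb : OrbOk T G d
  central : π.ker ≤ Subgroup.center E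
  mem_range : ∀ r t, InO T d f r t → oX T G d f r t ∈ π.range
  moves : Uniq T G d f π ∨ Moves T G f
  self : ∀ r t u, InO T d f r t → InO T d f r u → ∀ a b : E, π a = oX T G d f r t → π b = oX T G d f r u →
    Commute a b

/-- Distinct positive orbits are separated by the torus. -/
def Sep (T : GraphData D) (G : Good D) (d : ℕ) (f : F →+* F) : Prop :=
  ∀ a b : Fin D.nroots, D.nroots / 2 ≤ a.val → D.nroots / 2 ≤ b.val → b ∉ orbSet T d a →
    ∃ z, Fix T f z ∧ (((G.torusVal z a.val : F) = 1 ∧ (G.torusVal z b.val : F) ≠ 1) ∨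
      ((G.torusVal z b.val : F) = 1 ∧ (G.torusVal z a.val : F) ≠ 1))

/-- A chosen preimage. -/
noncomputable def sec (π : E →* GL D.Idx F) (g : GL D.Idx F) : E := Function.invFun π g

theorem map_sec {g : GL D.Idx F} (hg : g ∈ π.range) : π (sec π g) = g := Function.invFun_eq hg

/-- A fixed torus parameter moving a root. -/
noncomputable def mz (T : GraphData D) (G : Good D) (f : F →+* F) (r : Fin D.nroots) : Fin D.rank → Fˣ :=
  Classical.epsilon fun z => Fix T f z ∧ (G.torusVal z r.val : F) ≠ 1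

/-- A preimage of square one. -/
noncomputable def sec2 (π : E →* GL D.Idx F) (g : GL D.Idx F) : E :=
  Classical.epsilon fun a => π a = g ∧ a * a = 1

open Classical in
/-- The lift of an orbit element. -/
noncomputable def L (T : GraphData D) (G : Good D) (d : ℕ) (f : F →+* F) (π : E →* GL D.Idx F)
    (r : Fin D.nroots) (t : F) : E :=
  if Uniq T G d f π then sec2 π (oX T G d f r t) else ⁅sec π (G.torus (mz T G f r)), sec π (oX T G d f r (((G.torusVal (mz T G f r) r.val : F) - 1)⁻¹ * t))⁆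

/-- The lifts of the orbit elements of a set of roots. -/
def W (T : GraphData D) (G : Good D) (d : ℕ) (f : F →+* F) (π : E →* GL D.Idx F) (S : Finset (Fin D.nroots)) :
    Subgroup E :=
  Subgroup.closure {x | ∃ r ∈ S, ∃ t, InO T d f r t ∧ x = L T G d f π r t}

theorem L_mem_W {S : Finset (Fin D.nroots)} {r : Fin D.nroots} (hr : r ∈ S) {t : F} (ht : InO T d f r t) :
    L T G d f π r t ∈ W T G d f π S := Subgroup.subset_closure ⟨r, hr, t, ht, rfl⟩

theorem W_mono {S S' : Finset (Fin D.nroots)} (hS : S ⊆ S') : W T G d f π S ≤ W T G d f π S' :=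
  Subgroup.closure_mono fun _ ⟨r, hr, t, ht, e⟩ => ⟨r, hS hr, t, ht, e⟩

namespace Lifts

variable (K : Lifts T G d f π)

include K

theorem torus_mem_range {z : Fin D.rank → Fˣ} (hz : Fix T f z) : G.torus z ∈ π.range := by
  have hle : Subgroup.closure (T.genSet G f) ≤ π.range := by
    refine (Subgroup.closure_le _).2 ?_
    rintro g ⟨j, c, hc, rfl | rfl⟩
    · rw [pX_eq_oX K.ok K.orb hc]
      exact K.mem_range _ _ (sat_inO K.ok K.orb hc)
    · rw [nX_eq_oX K.ok K.orb hc]
      refine K.mem_range _ _ ?_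
      rw [InO, olen_negF K.ok]
      exact sat_inO K.ok K.orb hc
  exact hle (T.fixTorus_le_closure K.ok f ⟨z, hz, rfl⟩)

theorem mz_spec (hU : ¬Uniq T G d f π) (r : Fin D.nroots) :
    Fix T f (mz T G f r) ∧ (G.torusVal (mz T G f r) r.val : F) - 1 ≠ 0 := by
  have := Classical.epsilon_spec ((K.moves.resolve_left hU) r)
  exact ⟨this.1, sub_ne_zero.2 this.2⟩

theorem inO_div (hU : ¬Uniq T G d f π) {r : Fin D.nroots} {t : F} (ht : InO T d f r t) :
    InO T d f r (((G.torusVal (mz T G f r) r.val : F) - 1)⁻¹ * t) := by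
  refine InO.mul f (InO.inv f ?_) ht
  rw [sub_eq_add_neg]
  exact InO.add f (torusVal_inO K.ok K.orb f (K.mz_spec hU r).1 r) (InO.sign f (Or.inr rfl))

theorem map_sec_torus (hU : ¬Uniq T G d f π) (r : Fin D.nroots) : π (sec π (G.torus (mz T G f r))) = G.torus (mz T G f r) :=
  map_sec (K.torus_mem_range (K.mz_spec hU r).1)

theorem map_L {r : Fin D.nroots} {t : F} (ht : InO T d f r t) : π (L T G d f π r t) = oX T G d f r t := by
  by_cases hU : Uniq T G d f π
  · rw [L, if_pos hU]
    exact (Classical.epsilon_spec (hU.exists_inv r t ht)).1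
  obtain ⟨hz, hne⟩ := K.mz_spec hU r
  rw [L, if_neg hU, map_commutatorElement, K.map_sec_torus hU, map_sec (K.mem_range _ _ (K.inO_div hU ht)), commutatorElement_def,
    torus_conj_oX K.ok K.orb f hz, oX_neg K.ok K.orb f, oX_add K.ok K.orb f]
  congr 1
  field_simp
  ring

theorem L_sq (hU : Uniq T G d f π) {r : Fin D.nroots} {t : F} (ht : InO T d f r t) :
    L T G d f π r t * L T G d f π r t = 1 := by
  rw [L, if_pos hU]
  exact (Classical.epsilon_spec (hU.exists_inv r t ht)).2

theorem eq_L (hU : Uniq T G d f π) {r : Fin D.nroots} {t : F} (ht : InO T d f r t) {a : E}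
    (ha : π a = oX T G d f r t) (ha2 : a * a = 1) : a = L T G d f π r t := by
  set b := L T G d f π r t with hb
  have hb2 : b * b = 1 := K.L_sq hU ht
  have hk : π (a * b) = 1 := by
    rw [← inv_eq_of_mul_eq_one_left hb2, map_mul, map_inv, ha, hb, K.map_L ht, mul_inv_cancel]
  have hkc := Subgroup.mem_center_iff.1 (K.central hk)
  have h2 : (a * b) * (a * b) = 1 := by
    calc (a * b) * (a * b) = a * (b * (a * b)) := by rw [mul_assoc]
      _ = a * (a * b * b) := by rw [hkc b]
      _ = 1 := by rw [mul_assoc a b b, hb2, mul_one, ha2]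
  have h1 := hU.ker_inv _ hk h2
  rw [← inv_eq_of_mul_eq_one_left hb2, mul_inv_eq_one] at h1
  exact h1

theorem L_add {r : Fin D.nroots} {t u : F} (ht : InO T d f r t) (hu : InO T d f r u) :
    L T G d f π r t * L T G d f π r u = L T G d f π r (t + u) := by
  by_cases hU : Uniq T G d f π
  · refine K.eq_L hU (InO.add f ht hu) (by rw [map_mul, K.map_L ht, K.map_L hu, oX_add K.ok K.orb f]) ?_
    rw [Commute.mul_mul_mul_comm (K.self r u t hu ht _ _ (K.map_L hu) (K.map_L ht)), K.L_sq hU ht, K.L_sq hU hu,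
      one_mul]
  have e0 : ∀ v, L T G d f π r v = ⁅sec π (G.torus (mz T G f r)),
      sec π (oX T G d f r (((G.torusVal (mz T G f r) r.val : F) - 1)⁻¹ * v))⁆ := fun v => if_neg hU
  set c : F := ((G.torusVal (mz T G f r) r.val : F) - 1)⁻¹ with hc
  set h := sec π (G.torus (mz T G f r))
  set a := sec π (oX T G d f r (c * t)) with ha
  set b := sec π (oX T G d f r (c * u)) with hb
  have ea : π a = oX T G d f r (c * t) := map_sec (K.mem_range _ _ (K.inO_div hU ht))
  have eb : π b = oX T G d f r (c * u) := map_sec (K.mem_range _ _ (K.inO_div hU hu))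
  have e : ⁅h, a * b⁆ = L T G d f π r (t + u) := (e0 (t + u)).symm ▸
    commutator_congr K.central rfl (by
      rw [map_mul, ea, eb, oX_add K.ok K.orb f, map_sec (K.mem_range _ _ (K.inO_div hU (InO.add f ht hu))), mul_add])
  have hcm : Commute a ⁅h, b⁆ := K.self r _ u (K.inO_div hU ht) hu a _ ea (by rw [← e0 u, K.map_L hu])
  rw [← e, show ⁅h, a * b⁆ = ⁅h, a⁆ * (a * ⁅h, b⁆ * a⁻¹) by simp only [commutatorElement_def]; group,
    hcm.eq, mul_inv_cancel_right, e0 t, e0 u]

theorem L_zero (r : Fin D.nroots) : L T G d f π r (0 : F) = 1 := by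
  have := K.L_add (InO.zero f r) (InO.zero f r)
  rwa [add_zero, mul_eq_left] at this

theorem L_neg {r : Fin D.nroots} {t : F} (ht : InO T d f r t) : (L T G d f π r t)⁻¹ = L T G d f π r (-t) :=
  inv_eq_of_mul_eq_one_right (by rw [K.L_add ht (InO.neg f ht), add_neg_cancel, K.L_zero])

theorem L_torus {r : Fin D.nroots} {t : F} (ht : InO T d f r t) {h : E} {z : Fin D.rank → Fˣ} (hz : Fix T f z)
    (hh : π h = G.torus z) :
    h * L T G d f π r t * h⁻¹ = L T G d f π r ((G.torusVal z r.val : F) * t) := by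
  by_cases hU : Uniq T G d f π
  · refine K.eq_L hU (InO.mul f (torusVal_inO K.ok K.orb f hz r) ht) ?_ ?_
    · rw [map_mul, map_mul, map_inv, hh, K.map_L ht, torus_conj_oX K.ok K.orb f hz]
    · rw [conj_mul, K.L_sq hU ht, mul_one, mul_inv_cancel]
  rw [L, L, if_neg hU, if_neg hU, show ∀ x y : E, h * ⁅x, y⁆ * h⁻¹ = ⁅h * x * h⁻¹, h * y * h⁻¹⁆ from
    fun x y => by simp only [commutatorElement_def]; group]
  refine commutator_congr K.central ?_ ?_
  · rw [map_mul, map_mul, map_inv, hh, K.map_sec_torus hU, ← map_mul, mul_comm, map_mul, mul_inv_cancel_right]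
  · rw [map_mul, map_mul, map_inv, hh, map_sec (K.mem_range _ _ (K.inO_div hU ht)),
      map_sec (K.mem_range _ _ (K.inO_div hU (InO.mul f (torusVal_inO K.ok K.orb f hz r) ht))),
      torus_conj_oX K.ok K.orb f hz]
    congr 1; ring

/-- A commutator of a torus lift with a lift of an orbit element is the lift of its image. -/
theorem L_unique {r : Fin D.nroots} {v : F} (hv : InO T d f r v) {h a : E} {z : Fin D.rank → Fˣ} (hz : Fix T f z)
    (hh : π h = G.torus z) (ha : π a = oX T G d f r v) :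
    ⁅h, a⁆ = L T G d f π r (((G.torusVal z r.val : F) - 1) * v) := by
  rw [commutator_congr K.central (a := h) (a' := h) (b := a) (b' := L T G d f π r v) rfl
    (by rw [ha, K.map_L hv]), commutatorElement_def, K.L_torus hv hz hh, K.L_neg hv,
    K.L_add (InO.mul f (torusVal_inO K.ok K.orb f hz r) hv) (InO.neg f hv)]
  congr 1; ring

/-- The lifts are permuted by lifts normalising the torus. -/
theorem L_conj {r r' : Fin D.nroots} {φ : F → F} (hφ : ∀ u, InO T d f r u → InO T d f r' (φ u)) {m : E}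
    (hN : ∀ z, Fix T f z → ∃ z', Fix T f z' ∧ π m * G.torus z * (π m)⁻¹ = G.torus z')
    (hm : ∀ u, InO T d f r u → π m * oX T G d f r u * (π m)⁻¹ = oX T G d f r' (φ u))
    {t : F} (ht : InO T d f r t) : m * L T G d f π r t * m⁻¹ = L T G d f π r' (φ t) := by
  by_cases hU : Uniq T G d f π
  · refine K.eq_L hU (hφ _ ht) ?_ ?_
    · rw [map_mul, map_mul, map_inv, K.map_L ht, hm _ ht]
    · rw [conj_mul, K.L_sq hU ht, mul_one, mul_inv_cancel]
  obtain ⟨hz, -⟩ := K.mz_spec hU r
  obtain ⟨z', hz', ez⟩ := hN _ hz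
  have hv := K.inO_div hU ht
  have e : m * L T G d f π r t * m⁻¹ = L T G d f π r' (((G.torusVal z' r'.val : F) - 1) *
      φ (((G.torusVal (mz T G f r) r.val : F) - 1)⁻¹ * t)) := by
    rw [L, if_neg hU, show ∀ x y : E, m * ⁅x, y⁆ * m⁻¹ = ⁅m * x * m⁻¹, m * y * m⁻¹⁆ from
      fun x y => by simp only [commutatorElement_def]; group]
    refine K.L_unique (hφ _ hv) hz' ?_ ?_
    · rw [map_mul, map_mul, map_inv, K.map_sec_torus hU, ez]
    · rw [map_mul, map_mul, map_inv, map_sec (K.mem_range _ _ hv), hm _ hv]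
  have hin : InO T d f r' (((G.torusVal z' r'.val : F) - 1) *
      φ (((G.torusVal (mz T G f r) r.val : F) - 1)⁻¹ * t)) := by
    refine InO.mul f ?_ (hφ _ hv)
    rw [sub_eq_add_neg]
    exact InO.add f (torusVal_inO K.ok K.orb f hz' r') (InO.sign f (Or.inr rfl))
  rw [e]
  congr 1
  refine oX_inj f K.ok K.orb (r := r') ?_
  rw [← K.map_L hin, ← e, map_mul, map_mul, map_inv, K.map_L ht, hm _ ht]

/-- Shifting along the orbit. -/
theorem L_pi {r : Fin D.nroots} {t : F} (ht : InO T d f r t) :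
    L T G d f π (T.πF r) ((T.S.ε r.val : F) * f t) = L T G d f π r t := by
  have := K.L_conj (r := r) (r' := T.πF r) (φ := fun u => (T.S.ε r.val : F) * f u)
    (fun u hu => inO_pi K.ok K.orb f hu) (m := 1) (fun z hz => ⟨z, hz, by simp⟩)
    (fun u hu => by rw [map_one, one_mul, inv_one, mul_one, oX_pi K.ok K.orb f hu]) ht
  rwa [one_mul, inv_one, mul_one, eq_comm] at this

theorem L_iter {r : Fin D.nroots} {t : F} (ht : InO T d f r t) :
    ∀ i, ∃ t', InO T d f (T.πF^[i] r) t' ∧ L T G d f π (T.πF^[i] r) t' = L T G d f π r t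
  | 0 => ⟨t, ht, rfl⟩
  | i + 1 => by
    obtain ⟨t', h1, h2⟩ := L_iter ht i
    rw [Function.iterate_succ_apply']
    exact ⟨_, inO_pi K.ok K.orb f h1, (K.L_pi h1).trans h2⟩

/-- Lifts along an orbit are lifts at any of its roots. -/
theorem L_orbit {a b : Fin D.nroots} (hb : b ∈ orbSet T d a) {t : F} (ht : InO T d f b t) :
    ∃ t', InO T d f a t' ∧ L T G d f π b t = L T G d f π a t' := by
  obtain ⟨i, -, rfl⟩ := Finset.mem_image.1 hb
  obtain ⟨t', h1, h2⟩ := K.L_iter ht ((d - 1) * i)
  have e : T.πF^[(d - 1) * i] (T.πF^[i] a) = a := by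
    obtain ⟨n, rfl⟩ : ∃ n, d = n + 1 := ⟨d - 1, by have := K.orb.d_pos; omega⟩
    rw [← Function.iterate_add_apply, Nat.add_sub_cancel, show n * i + i = (n + 1) * i by ring, Function.iterate_mul]
    exact Function.iterate_fixed (K.orb.pi_iter a) i
  rw [e] at h1 h2
  exact ⟨t', h1, h2.symm⟩

theorem map_W (S : Finset (Fin D.nroots)) : (W T G d f π S).map π =
    Subgroup.closure {x | ∃ r ∈ S, ∃ t, InO T d f r t ∧ x = oX T G d f r t} := by
  rw [W, MonoidHom.map_closure]
  congr 1
  ext x
  constructor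
  · rintro ⟨_, ⟨r, hr, t, ht, rfl⟩, rfl⟩
    exact ⟨r, hr, t, ht, K.map_L ht⟩
  · rintro ⟨r, hr, t, ht, rfl⟩
    exact ⟨_, ⟨r, hr, t, ht, rfl⟩, K.map_L ht⟩

theorem torus_normalizes {S : Finset (Fin D.nroots)} {h : E} {z : Fin D.rank → Fˣ} (hz : Fix T f z)
    (hh : π h = G.torus z) {g : E} (hg : g ∈ W T G d f π S) : h * g * h⁻¹ ∈ W T G d f π S := by
  refine conj_mem_closure ?_ hg
  rintro _ ⟨r, hr, t, ht, rfl⟩
  rw [K.L_torus ht hz hh]
  exact L_mem_W hr (InO.mul f (torusVal_inO K.ok K.orb f hz r) ht)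

omit K in
theorem L_normalizes {S : Finset (Fin D.nroots)} {b : Fin D.nroots} {u : F}
    (hb : ∀ c ∈ S, ∀ w, InO T d f c w → ⁅L T G d f π b u, L T G d f π c w⁆ ∈ W T G d f π S) {g : E}
    (hg : g ∈ W T G d f π S) :
    L T G d f π b u * g * (L T G d f π b u)⁻¹ ∈ W T G d f π S := by
  refine conj_mem_closure ?_ hg
  rintro _ ⟨c, hc, w, hw, rfl⟩
  rw [show ∀ x y : E, x * y * x⁻¹ = ⁅x, y⁆ * y from fun x y => by simp only [commutatorElement_def]; group]
  exact mul_mem (hb c hc w hw) (L_mem_W hc hw)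

/-- The image of a commutator of two lifts. -/
theorem map_comm_mem {a b : Fin D.nroots} (ha : D.nroots / 2 ≤ a.val) (hb : D.nroots / 2 ≤ b.val) {t u : F}
    (ht : InO T d f a t) (hu : InO T d f b u) :
    π ⁅L T G d f π a t, L T G d f π b u⁆ ∈ (W T G d f π (lev G (htR G a + htR G b))).map π := by
  have hmem : ∀ r, D.nroots / 2 ≤ r.val → ∀ x, oX T G d f r x ∈ G.posSub (F := F) (sset (lev G (htR G r))) := by
    intro r hr x
    refine oX_mem_posSub K.ok K.orb f (fun y hy => (mem_lev.1 hy).1) (fun y hy => ?_) x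
    obtain ⟨i, -, rfl⟩ := Finset.mem_image.1 hy
    exact mem_lev.2 ⟨(pos_iter K.orb r K.ok i).2 hr, by rw [htR_iter K.orb]⟩
  rw [K.map_W, map_commutatorElement, K.map_L ht, K.map_L hu]
  refine fixed_mem_closure K.ok K.orb f _ (up_lev _) (lev_stable K.ok K.orb _) _
    (commutator_mem_lev K.ok K.orb (hmem a ha t) (hmem b hb u)) ?_
  rw [map_commutatorElement, twist_oX K.ok K.orb f ht, twist_oX K.ok K.orb f hu]

/-- With unique involution lifts the covering map is injective on the positive lifts. -/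
theorem eq_one_of_uniq (hU : Uniq T G d f π) {g : E} (hg : g ∈ W T G d f π (lev G 1)) (hπ : π g = 1) : g = 1 := by
  obtain ⟨U, N, hcard, hmem⟩ := hU.two_group
  set H := W T G d f π (lev G 1) with hH
  set φ : ↥H →* GL D.Idx F := π.comp H.subtype with hφ
  have hrange : φ.range ≤ U := by
    rintro _ ⟨⟨x, hx⟩, rfl⟩
    have : H.map π ≤ U := by
      rw [hH, K.map_W]
      refine (Subgroup.closure_le _).2 ?_
      rintro _ ⟨r, hr, t, ht, rfl⟩
      exact hmem r (mem_lev.1 hr).1 t ht
    exact this ⟨x, hx, rfl⟩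
  have hker : φ.ker ≤ Subgroup.center ↥H := fun x hx =>
    Subgroup.mem_center_iff.2 fun y => Subtype.ext (Subgroup.mem_center_iff.1 (K.central hx) y.1)
  have hdvd : (Subgroup.center ↥H).index ∣ 2 ^ N := by
    refine (Subgroup.index_dvd_of_le hker).trans ?_
    rw [Subgroup.index_ker, ← hcard]
    exact Subgroup.card_dvd_of_le hrange
  haveI : (Subgroup.center ↥H).FiniteIndex := ⟨fun h0 => by rw [h0, zero_dvd_iff] at hdvd; simp at hdvd⟩
  obtain ⟨m, -, hm⟩ := (Nat.dvd_prime_pow Nat.prime_two).1 hdvd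
  set ψ := MonoidHom.transferCenterPow ↥H with hψ
  have hgen : ∀ x : ↥H, ψ x * ψ x = 1 := by
    rintro ⟨x, hx⟩
    induction hx using Subgroup.closure_induction with
    | mem x hx =>
      obtain ⟨r, -, t, ht, rfl⟩ := hx
      rw [← map_mul]
      exact (congrArg ψ (Subtype.ext (K.L_sq hU ht))).trans (map_one ψ)
    | one => exact (congrArg (fun x => x * x) (map_one ψ)).trans (mul_one _)
    | mul a b ha hb iha ihb =>
      rw [show (⟨a * b, mul_mem ha hb⟩ : ↥H) = ⟨a, ha⟩ * ⟨b, hb⟩ from rfl, map_mul,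
        Commute.mul_mul_mul_comm (show Commute (ψ ⟨b, hb⟩) (ψ ⟨a, ha⟩) from
          Subtype.ext (Subgroup.mem_center_iff.1 (ψ ⟨a, ha⟩).2 _)), iha, ihb,
        one_mul]
    | inv a ha iha =>
      rw [show (⟨a⁻¹, inv_mem ha⟩ : ↥H) = ⟨a, ha⟩⁻¹ from rfl, map_inv, ← mul_inv_rev, iha, inv_one]
  have h2 : g ^ (2 ^ (m + 1)) = 1 := by
    have := congrArg (fun x : ↥(Subgroup.center ↥H) => ((x : ↥H) : E)) (hgen ⟨g, hg⟩)
    simp only [Subgroup.coe_mul, OneMemClass.coe_one, MonoidHom.transferCenterPow_apply,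
      SubmonoidClass.coe_pow, hψ, hm] at this
    rw [pow_succ, pow_mul, sq]
    exact this
  have key : ∀ n, g ^ (2 ^ n) = 1 → g = 1 := fun n => by
    induction n with
    | zero => intro h; simpa using h
    | succ n ih =>
      intro h
      rw [pow_succ, pow_mul, sq] at h
      exact ih (hU.ker_inv _ (by rw [map_pow, hπ, one_pow]) h)
  exact key _ h2

/-- The inductive step for commutators of separated orbits. -/
theorem comm_step {a b : Fin D.nroots} (ha : D.nroots / 2 ≤ a.val) (hb : D.nroots / 2 ≤ b.val)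
    {z : Fin D.rank → Fˣ} (hz : Fix T f z) (za : (G.torusVal z a.val : F) = 1)
    (zb : (G.torusVal z b.val : F) ≠ 1)
    (IH : ∀ c ∈ lev G (htR G a + htR G b), ∀ x w, InO T d f b x → InO T d f c w →
      ⁅L T G d f π b x, L T G d f π c w⁆ ∈ W T G d f π (lev G (htR G a + htR G b)))
    {t u : F} (ht : InO T d f a t) (hu : InO T d f b u) :
    ⁅L T G d f π a t, L T G d f π b u⁆ ∈ W T G d f π (lev G (htR G a + htR G b)) := by
  set c : F := (G.torusVal z b.val : F)
  have hc : InO T d f b c := torusVal_inO K.ok K.orb f hz b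
  have hc1 : c - 1 ≠ 0 := sub_ne_zero.2 zb
  set u' : F := (c - 1)⁻¹ * u
  have hu' : InO T d f b u' := by
    refine InO.mul f (InO.inv f ?_) hu
    rw [sub_eq_add_neg]
    exact InO.add f hc (InO.sign f (Or.inr rfl))
  obtain ⟨h, hh⟩ := K.torus_mem_range hz
  have hmem : ∀ r, D.nroots / 2 ≤ r.val → ∀ x, oX T G d f r x ∈ G.posSub (F := F) (sset (lev G (htR G r))) := by
    intro r hr x
    refine oX_mem_posSub K.ok K.orb f (fun y hy => (mem_lev.1 hy).1) (fun y hy => ?_) x
    obtain ⟨i, -, rfl⟩ := Finset.mem_image.1 hy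
    exact mem_lev.2 ⟨(pos_iter K.orb r K.ok i).2 hr, by rw [htR_iter K.orb]⟩
  set σ := G.twistHom K.ok.check f
  have him : π ⁅L T G d f π a t, L T G d f π b u'⁆ ∈ (W T G d f π (lev G (htR G a + htR G b))).map π := by
    rw [K.map_W, map_commutatorElement, K.map_L ht, K.map_L hu']
    refine fixed_mem_closure K.ok K.orb f _ (up_lev _) (lev_stable K.ok K.orb _) _
      (commutator_mem_lev K.ok K.orb (hmem a ha t) (hmem b hb u')) ?_
    rw [map_commutatorElement, twist_oX K.ok K.orb f ht, twist_oX K.ok K.orb f hu']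
  obtain ⟨v, hv, ev⟩ := him
  have hk : ⁅L T G d f π a t, L T G d f π b u'⁆ * v⁻¹ ∈ Subgroup.center E :=
    K.central (by rw [MonoidHom.mem_ker, map_mul, map_inv, ev, mul_inv_cancel])
  set k := ⁅L T G d f π a t, L T G d f π b u'⁆ * v⁻¹ with hk'
  set A := L T G d f π a t
  set X := L T G d f π b u
  set Y := L T G d f π b u'
  have hP : ⁅A, Y⁆ = k * v := (inv_mul_cancel_right _ _).symm
  have eA : h * A * h⁻¹ = A := by rw [K.L_torus ht hz hh, za, one_mul]
  have eY : h * Y * h⁻¹ = X * Y := by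
    rw [K.L_torus hu' hz hh, K.L_add hu hu']
    congr 1
    show c * u' = u + u'
    have : (c - 1) * u' = u := by simp only [u']; field_simp
    linear_combination this
  have key : ⁅A, X⁆ = (h * v * h⁻¹) * (X * v * X⁻¹)⁻¹ := by
    have h1 : h * ⁅A, Y⁆ * h⁻¹ = ⁅A, X⁆ * (X * ⁅A, Y⁆ * X⁻¹) := by
      rw [show h * ⁅A, Y⁆ * h⁻¹ = ⁅h * A * h⁻¹, h * Y * h⁻¹⁆ by simp only [commutatorElement_def]; group,
        eA, eY]
      simp only [commutatorElement_def]; group
    have hck : ∀ x : E, x * (k * v) * x⁻¹ = k * (x * v * x⁻¹) := fun x => by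
      rw [← mul_assoc, Subgroup.mem_center_iff.1 hk x, mul_assoc k, mul_assoc k]
    have hk2 : ∀ x y : E, x * (k * y) = k * (x * y) := fun x y => by
      rw [← mul_assoc, Subgroup.mem_center_iff.1 hk, mul_assoc]
    rw [hP, hck, hck, hk2] at h1
    exact eq_mul_inv_of_mul_eq (mul_left_cancel h1).symm
  rw [key]
  exact mul_mem (K.torus_normalizes hz hh hv)
    (inv_mem (L_normalizes (fun c hc w hw => IH c hc u w hu hw) hv))

/-- Commutators of lifts of positive orbit elements raise the height. -/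
theorem comm_mem (hsep : Sep T G d f ∨ Uniq T G d f π) {a b : Fin D.nroots} (ha : D.nroots / 2 ≤ a.val)
    (hb : D.nroots / 2 ≤ b.val) {t u : F} (ht : InO T d f a t) (hu : InO T d f b u) :
    ⁅L T G d f π a t, L T G d f π b u⁆ ∈ W T G d f π (lev G (htR G a + htR G b)) := by
  by_cases hU : Uniq T G d f π
  · obtain ⟨v, hv, ev⟩ := K.map_comm_mem ha hb ht hu
    have hp : ∀ {r x}, D.nroots / 2 ≤ r.val → InO T d f r x → L T G d f π r x ∈ W T G d f π (lev G 1) :=
      fun hr hx => L_mem_W (mem_lev.2 ⟨hr, htR_pos (G := G) hr⟩) hx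
    have hv1 : v ∈ W T G d f π (lev G 1) := W_mono (fun r hr => by
      obtain ⟨h1, -⟩ := mem_lev.1 hr
      exact mem_lev.2 ⟨h1, htR_pos (G := G) h1⟩) hv
    have hA := hp ha ht
    have hB := hp hb hu
    have := K.eq_one_of_uniq hU (g := ⁅L T G d f π a t, L T G d f π b u⁆ * v⁻¹)
      (mul_mem (mul_mem (mul_mem (mul_mem hA hB) (inv_mem hA)) (inv_mem hB)) (inv_mem hv1))
      (by rw [map_mul, map_inv, ev, mul_inv_cancel])
    rw [mul_inv_eq_one] at this
    exact this ▸ hv
  replace hsep : Sep T G d f := hsep.resolve_right hU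
  set B : ℤ := ∑ r : Fin D.nroots, |htR G r|
  have hB : ∀ r, htR G r ≤ B := fun r =>
    (le_abs_self _).trans (Finset.single_le_sum (f := fun r => |htR G r|) (fun i _ => abs_nonneg _) (Finset.mem_univ r))
  suffices H : ∀ (n : ℕ) (a b : Fin D.nroots), D.nroots / 2 ≤ a.val → D.nroots / 2 ≤ b.val →
      2 * B < htR G a + htR G b + n → ∀ t u, InO T d f a t → InO T d f b u →
      ⁅L T G d f π a t, L T G d f π b u⁆ ∈ W T G d f π (lev G (htR G a + htR G b)) from
    H (2 * B + 1).toNat a b ha hb (by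
      have := htR_pos (G := G) ha; have := htR_pos (G := G) hb; have := hB a; omega) t u ht hu
  intro n
  induction n with
  | zero => intro a b _ _ h; have := hB a; have := hB b; omega
  | succ n ih =>
    intro a b ha hb hn t u ht hu
    by_cases hab : b ∈ orbSet T d a
    · obtain ⟨u', hu', e⟩ := K.L_orbit hab hu
      rw [e, commutatorElement_eq_one_iff_commute.2 (K.self a t u' ht hu' _ _ (K.map_L ht) (K.map_L hu'))]
      exact one_mem _
    · have IH : ∀ y : Fin D.nroots, D.nroots / 2 ≤ y.val → ∀ c ∈ lev G (htR G a + htR G b), ∀ x w,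
          InO T d f y x → InO T d f c w →
          ⁅L T G d f π y x, L T G d f π c w⁆ ∈ W T G d f π (lev G (htR G a + htR G b)) := by
        intro y hy c hc x w hx hw
        obtain ⟨hc1, hc2⟩ := mem_lev.1 hc
        have := htR_pos (G := G) hy
        refine W_mono (fun r hr => mem_lev.2 ?_) (ih y c hy hc1 (by push_cast at hn; omega) x w hx hw)
        obtain ⟨hr1, hr2⟩ := mem_lev.1 hr
        exact ⟨hr1, by omega⟩
      obtain ⟨z, hz, (⟨za, zb⟩ | ⟨zb, za⟩)⟩ := hsep a b ha hb hab
      · exact K.comm_step ha hb hz za zb (IH b hb) ht hu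
      · have := K.comm_step hb ha hz zb za (by rw [add_comm]; exact IH a ha) hu ht
        rw [← commutatorElement_inv, add_comm]
        exact inv_mem this

/-- The lifts of one root form a subgroup. -/
noncomputable def rootGroup (r : Fin D.nroots) : Subgroup E where
  carrier := {x | ∃ t, InO T d f r t ∧ x = L T G d f π r t}
  one_mem' := ⟨0, InO.zero f r, (K.L_zero r).symm⟩
  mul_mem' := by
    rintro _ _ ⟨t, ht, rfl⟩ ⟨u, hu, rfl⟩
    exact ⟨t + u, InO.add f ht hu, K.L_add ht hu⟩
  inv_mem' := by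
    rintro _ ⟨t, ht, rfl⟩
    exact ⟨-t, InO.neg f ht, K.L_neg ht⟩

/-- The lifts of an upward closed set split off a lowest orbit. -/
theorem W_split (hsep : Sep T G d f ∨ Uniq T G d f π) {S : Finset (Fin D.nroots)} (hS : Up G S) {r : Fin D.nroots} (hr : r ∈ S)
    (hmin : ∀ s ∈ S, htR G r ≤ htR G s) {g : E} (hg : g ∈ W T G d f π S) :
    ∃ t, InO T d f r t ∧ ∃ y ∈ W T G d f π (S \ orbSet T d r), g = L T G d f π r t * y := by
  set S' := S \ orbSet T d r with hS'
  have hrp := hS.pos r hr
  have hS'up : Up G S' := Up.sdiff K.orb hS hmin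
  have hnorm : ∀ x ∈ K.rootGroup r, ∀ y ∈ W T G d f π S', x * y * x⁻¹ ∈ W T G d f π S' := by
    rintro _ ⟨t, ht, rfl⟩ y hy
    refine L_normalizes (fun c hc w hw => W_mono (fun x hx => ?_) (K.comm_mem hsep hrp (hS'up.pos c hc) ht hw)) hy
    obtain ⟨hx1, hx2⟩ := mem_lev.1 hx
    exact hS'up.up c hc x hx1 (by have := htR_pos (G := G) hrp; omega)
  have hnorm' : K.rootGroup r ≤ Subgroup.normalizer (W T G d f π S' : Set E) := fun x hx =>
    Subgroup.mem_normalizer_iff.2 fun y => ⟨hnorm x hx y, fun hy => by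
      have := hnorm _ (inv_mem hx) _ hy
      simpa [mul_assoc] using this⟩
  have hle : W T G d f π S ≤ K.rootGroup r ⊔ W T G d f π S' := by
    refine (Subgroup.closure_le _).2 ?_
    rintro _ ⟨u, hu, t, ht, rfl⟩
    by_cases e : u ∈ orbSet T d r
    · obtain ⟨t', ht', e'⟩ := K.L_orbit e ht
      exact Subgroup.mem_sup_left ⟨t', ht', e'⟩
    · exact Subgroup.mem_sup_right (L_mem_W (Finset.mem_sdiff.2 ⟨hu, e⟩) ht)
  have hdec := hle hg
  rw [← SetLike.mem_coe, Subgroup.coe_mul_of_left_le_normalizer_right _ _ hnorm'] at hdec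
  obtain ⟨_, ⟨t, ht, rfl⟩, y, hy, exy⟩ := hdec
  exact ⟨t, ht, y, hy, exy.symm⟩

/-- The covering map is injective on the lifts of an upward closed set. -/
theorem eq_one_of_mem_W (hsep : Sep T G d f ∨ Uniq T G d f π) : ∀ S : Finset (Fin D.nroots), Up G S → (∀ r ∈ S, T.πF r ∈ S) →
    ∀ g ∈ W T G d f π S, π g = 1 → g = 1 := by
  intro S
  induction S using Finset.strongInduction with
  | H S ih =>
    intro hS hst g hg hπ
    rcases S.eq_empty_or_nonempty with rfl | hne
    · simpa [W] using hg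
    obtain ⟨r, hr, hmin⟩ := S.exists_min_image (fun s => htR G s) hne
    set S' := S \ orbSet T d r with hS'
    have hrp := hS.pos r hr
    have hS'up : Up G S' := Up.sdiff K.orb hS hmin
    obtain ⟨t, ht, y, hy, exy⟩ := K.W_split hsep hS hr hmin hg
    symm at exy
    have hy' : π y ∈ G.posSub (F := F) (sset ((lev G (htR G r)).erase r)) := by
      have h1 : (W T G d f π S').map π ≤ G.posSub (F := F) (sset ((lev G (htR G r)).erase r)) := by
        rw [K.map_W]
        refine (Subgroup.closure_le _).2 ?_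
        rintro _ ⟨c, hc, w, -, rfl⟩
        obtain ⟨hc1, hc2⟩ := Finset.mem_sdiff.1 hc
        refine oX_mem_posSub K.ok K.orb f (fun x hx => (mem_lev.1 (Finset.mem_of_mem_erase hx)).1)
          (fun x hx => ?_) w
        obtain ⟨i, -, rfl⟩ := Finset.mem_image.1 hx
        refine Finset.mem_erase.2 ⟨fun e => ?_, mem_lev.2 ⟨hS.pos _ (iter_mem hst hc1 i),
          hmin _ (iter_mem hst hc1 i)⟩⟩
        exact hc2 (by
          have : ∀ j, T.πF^[j] c ∈ orbSet T d r → c ∈ orbSet T d r := by
            intro j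
            induction j with
            | zero => exact id
            | succ j ihj =>
              intro hj
              rw [Function.iterate_succ_apply'] at hj
              exact ihj (orbSet_stable K.orb hj)
          exact this i (e ▸ self_mem_orbSet K.orb r))
      exact h1 ⟨y, hy, rfl⟩
    have ht0 : t = 0 := by
      refine oX_eq_one K.ok K.orb f hrp ?_
      rw [← exy, map_mul, K.map_L ht, mul_eq_one_iff_eq_inv] at hπ
      rw [hπ]
      exact inv_mem hy'
    rw [← exy, ht0, K.L_zero, one_mul] at hπ ⊢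
    exact ih _ (Finset.sdiff_ssubset (fun u hu => by
        obtain ⟨i, -, rfl⟩ := Finset.mem_image.1 hu
        exact iter_mem hst hr i) ⟨r, self_mem_orbSet K.orb r⟩) hS'up (fun u hu => Finset.mem_sdiff.2
      ⟨hst u (Finset.mem_sdiff.1 hu).1, fun hm => (Finset.mem_sdiff.1 hu).2 (orbSet_stable K.orb hm)⟩) y hy hπ

/-- Fixed positive unipotent elements lift to `W`. -/
theorem fixed_mem_map_W {g : GL D.Idx F} (hg : g ∈ D.posUnipotent F)
    (hfix : G.twistHom K.ok.check f g = g) : g ∈ (W T G d f π (lev G 1)).map π := by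
  rw [K.map_W]
  refine fixed_mem_closure K.ok K.orb f _ (up_lev _) (lev_stable K.ok K.orb _) _ ?_ hfix
  rw [G.posUnipotent_eq] at hg
  refine G.posSub_mono ?_ hg
  intro r hr _
  obtain ⟨h1, h2⟩ := G.isPosRoot_iff.1 hr
  exact ⟨⟨r, h2⟩, mem_lev.2 ⟨h1, htR_pos (G := G) h1⟩, rfl⟩

end Lifts

end Cfsg.Agent.H46.TwistCover
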