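import Cfsg.Agent.H46.TwistGroup
import Cfsg.Agent.H46.Parabolic

/-!
# Root elements of a twisted group indexed by the roots

The orbit element of a root is the product of the images of its root element under the twisting map.
-/

set_option autoImplicit false

namespace Cfsg.Agent.H46.TwistCover

open Cfsg.Lie Cfsg.Agent.H47 Cfsg.Agent.H46
open scoped Matrix MatrixGroups commutatorElement

variable {D : ChevalleyDatum}

/-- The length of the orbit of a root. -/
def olen (T : GraphData D) (d : ℕ) (r : Fin D.nroots) : ℕ := if T.πF r = r then 1 else d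

/-- The sign accumulated along an orbit. -/
def eS (T : GraphData D) (r : Fin D.nroots) (s : ℕ) : ℤ :=
  ((List.range s).map fun i => T.S.ε (T.πF^[i] r)).prod

/-- The height of a root. -/
def htR (G : Good D) (r : Fin D.nroots) : ℤ := ∑ k, G.rc r k

/-- A word in the twisted reflections acting on the roots. -/
def actW (T : GraphData D) (G : Good D) (w : List (Fin T.m)) (r : Fin D.nroots) : Fin D.nroots :=
  w.foldr (fun j x => T.wJ G j x) r

/-- The decidable facts about the orbits. -/
structure OrbOk (T : GraphData D) (G : Good D) (d : ℕ) : Prop where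
  d_pos : 0 < d
  pi_iter : ∀ r, T.πF^[d] r = r
  rho_iter : ∀ k, T.ρF^[d] k = k
  eps_prod : ∀ r, eS T r (olen T d r) = 1
  orth : ∀ r, ∀ i < olen T d r, ∀ j < olen T d r, i ≠ j → T.πF^[j] r ≠ T.πF^[i] r ∧
    (T.πF^[j] r).val ≠ D.neg (T.πF^[i] r).val ∧ D.commTerms (T.πF^[i] r).val (T.πF^[j] r).val = []
  ht_pi : ∀ r, htR G (T.πF r) = htR G r
  len_eq : ∀ j, olen T d (G.simpleF (T.rep j)) = T.len j
  eta_neg : ∀ (i : Fin D.rank) (r : Fin D.nroots), G.tab.eta i (G.negF r).val = G.tab.eta i r.val
  wJ_neg : ∀ j r, T.wJ G j (G.negF r) = G.negF (T.wJ G j r)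
  top_surj : ∀ r : Fin D.nroots, r.val < D.nroots / 2 → ∃ s : Fin D.nroots, D.nroots / 2 ≤ s.val ∧
    actW T G T.top s = r

variable {T : GraphData D} {G : Good D} {F : Type*} [Field F] {d : ℕ}

/-- Parameters of an orbit element. -/
def InO (T : GraphData D) (d : ℕ) (f : F →+* F) (r : Fin D.nroots) (t : F) : Prop :=
  f^[olen T d r] t = t

/-- The orbit element of a root. -/
noncomputable def oX (T : GraphData D) (G : Good D) (d : ℕ) (f : F →+* F) (r : Fin D.nroots) (t : F) :
    GL D.Idx F :=
  ((List.range (olen T d r)).map fun s => G.xg (T.πF^[s] r).val ((eS T r s : F) * f^[s] t)).prod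

/-- Parameters of a twisted torus element. -/
def Fix (T : GraphData D) (f : F →+* F) (z : Fin D.rank → Fˣ) : Prop :=
  ∀ k, z (T.ρF k) = Units.map f.toMonoidHom (z k)

variable (h : T.Ok G) (O : OrbOk T G d) (f : F →+* F)

include O

theorem olen_pos (r : Fin D.nroots) : 0 < olen T d r := by
  unfold olen
  split
  · exact one_pos
  · exact O.d_pos

theorem pi_olen (r : Fin D.nroots) : T.πF^[olen T d r] r = r := by
  unfold olen
  split
  · rename_i e; exact e
  · exact O.pi_iter r

theorem pi_injective : Function.Injective T.πF := by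
  intro a b e
  obtain ⟨n, hn⟩ : ∃ n, d = n + 1 := ⟨d - 1, by have := O.d_pos; omega⟩
  have ha := O.pi_iter a
  have hb := O.pi_iter b
  rw [hn, Function.iterate_succ_apply] at ha hb
  rw [← ha, e, hb]

theorem olen_pi (r : Fin D.nroots) : olen T d (T.πF r) = olen T d r := by
  simp only [olen, (pi_injective O).eq_iff]

theorem htR_iter (r : Fin D.nroots) : ∀ s, htR G (T.πF^[s] r) = htR G r
  | 0 => rfl
  | s + 1 => by rw [Function.iterate_succ_apply', O.ht_pi, htR_iter r s]

theorem pos_iter (r : Fin D.nroots) (hh : T.Ok G) :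
    ∀ s, (D.nroots / 2 ≤ (T.πF^[s] r).val ↔ D.nroots / 2 ≤ r.val)
  | 0 => Iff.rfl
  | s + 1 => by rw [Function.iterate_succ_apply', T.πF_val hh, hh.pos_iff, pos_iter r hh s]

include h

omit O in
theorem twist_xg (r : Fin D.nroots) (t : F) :
    G.twistHom h.check f (G.xg r.val t) = G.xg (T.πF r).val ((T.S.ε r.val : F) * f t) := by
  rw [G.twistHom_xg h.check f r.2, T.πF_val h]

omit O in
theorem iter_twist_xg (r : Fin D.nroots) (t : F) : ∀ s,
    (G.twistHom h.check f)^[s] (G.xg r.val t) = G.xg (T.πF^[s] r).val ((eS T r s : F) * f^[s] t)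
  | 0 => by simp [eS]
  | s + 1 => by
    rw [Function.iterate_succ_apply', iter_twist_xg r t s, twist_xg h f, map_mul, map_intCast,
      ← Function.iterate_succ_apply' T.πF, ← Function.iterate_succ_apply' (f : F → F), ← mul_assoc]
    congr 2
    rw [eS, eS, List.range_succ, List.map_append, List.prod_append]
    simp [mul_comm]

theorem oX_eq (r : Fin D.nroots) (t : F) :
    oX T G d f r t = ((List.range (olen T d r)).map fun s => (G.twistHom h.check f)^[s] (G.xg r.val t)).prod := by
  rw [oX]
  exact congrArg List.prod (List.map_congr_left fun s _ => (iter_twist_xg h f r t s).symm)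

theorem iter_olen {r : Fin D.nroots} {t : F} (ht : InO T d f r t) :
    (G.twistHom h.check f)^[olen T d r] (G.xg r.val t) = G.xg r.val t := by
  rw [iter_twist_xg h f, pi_olen O, O.eps_prod, Int.cast_one, one_mul, ht]

theorem factor_commute (r : Fin D.nroots) {i j : ℕ} (hi : i < olen T d r) (hj : j < olen T d r)
    (t u : F) : Commute (G.xg (T.πF^[i] r).val t) (G.xg (T.πF^[j] r).val u) := by
  by_cases e : i = j
  · subst e
    exact (G.xg_add _ t u).trans (by rw [add_comm, ← G.xg_add])
  · obtain ⟨-, h1, h2⟩ := O.orth r i hi j hj e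
    exact G.xg_commute (Fin.is_lt _) (Fin.is_lt _) h1 h2 t u

theorem oX_add (r : Fin D.nroots) (t u : F) :
    oX T G d f r t * oX T G d f r u = oX T G d f r (t + u) := by
  simp only [oX]
  rw [← prod_map_mul_of_commute _ _ _ List.nodup_range fun a ha b hb _ =>
    factor_commute h O r (List.mem_range.1 ha) (List.mem_range.1 hb) _ _]
  refine congrArg List.prod (List.map_congr_left fun s _ => ?_)
  rw [G.xg_add, iterate_map_add, mul_add]

theorem oX_zero (r : Fin D.nroots) : oX T G d f r (0 : F) = 1 := by
  have := oX_add h O f r 0 0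
  rwa [add_zero, mul_eq_left] at this

theorem oX_neg (r : Fin D.nroots) (t : F) : (oX T G d f r t)⁻¹ = oX T G d f r (-t) :=
  inv_eq_of_mul_eq_one_right (by rw [oX_add h O f, add_neg_cancel, oX_zero h O f])

theorem oX_commute (r : Fin D.nroots) (t u : F) : Commute (oX T G d f r t) (oX T G d f r u) := by
  show _ = _
  rw [oX_add h O f, oX_add h O f, add_comm]

theorem twist_oX {r : Fin D.nroots} {t : F} (ht : InO T d f r t) :
    G.twistHom h.check f (oX T G d f r t) = oX T G d f r t := by
  obtain ⟨n, hn⟩ : ∃ n, olen T d r = n + 1 := ⟨_, (Nat.succ_pred_eq_of_pos (olen_pos O r)).symm⟩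
  set σ := G.twistHom h.check f
  set A : ℕ → GL D.Idx F := fun s => σ^[s] (G.xg r.val t)
  have hA : A (n + 1) = A 0 := by
    show σ^[n + 1] _ = _
    rw [← hn, iter_olen h O f ht]; rfl
  have hc : Commute (A 0) ((List.range n).map fun s => A (s + 1)).prod := Commute.list_prod_right _ _ fun x hx => by
    obtain ⟨s, hs, rfl⟩ := List.mem_map.1 hx
    rw [List.mem_range] at hs
    simp only [A, σ, iter_twist_xg h f]
    exact factor_commute h O r (by omega) (by omega) _ _
  rw [oX_eq h O f, map_list_prod, List.map_map, hn]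
  have hs : ((List.range (n + 1)).map (σ ∘ fun s => σ^[s] (G.xg r.val t))).prod =
      ((List.range (n + 1)).map fun s => A (s + 1)).prod :=
    congrArg List.prod (List.map_congr_left fun s _ => (Function.iterate_succ_apply' σ s _).symm)
  rw [hs]
  conv_rhs => rw [List.range_succ_eq_map, List.map_cons, List.prod_cons, List.map_map]
  rw [List.range_succ, List.map_append, List.prod_append]
  simp only [List.map_cons, List.map_nil, List.prod_cons, List.prod_nil, mul_one, hA]
  exact hc.eq.symm

/-- Shifting along the orbit. -/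
theorem oX_pi {r : Fin D.nroots} {t : F} (ht : InO T d f r t) :
    oX T G d f (T.πF r) ((T.S.ε r.val : F) * f t) = oX T G d f r t := by
  conv_rhs => rw [← twist_oX h O f ht, oX_eq h O f r, map_list_prod, List.map_map]
  rw [oX_eq h O f, olen_pi O]
  refine congrArg List.prod (List.map_congr_left fun s _ => ?_)
  rw [Function.comp_apply, ← twist_xg h f, ← Function.iterate_succ_apply, Function.iterate_succ_apply']

theorem inO_pi {r : Fin D.nroots} {t : F} (ht : InO T d f r t) :
    InO T d f (T.πF r) ((T.S.ε r.val : F) * f t) := by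
  rw [InO, olen_pi O, iterate_map_mul, ← Function.iterate_succ_apply, Function.iterate_succ_apply', ht]
  congr 1
  exact Function.iterate_fixed (map_intCast f _) _

/-! ### The torus -/

omit O in
theorem twist_torus_fix {z : Fin D.rank → Fˣ} (hz : Fix T f z) :
    G.twistHom h.check f (G.torus z) = G.torus z := T.twist_torus h f z z hz

theorem torus_conj_oX {z : Fin D.rank → Fˣ} (hz : Fix T f z) (r : Fin D.nroots) (t : F) :
    G.torus z * oX T G d f r t * (G.torus z)⁻¹ = oX T G d f r ((G.torusVal z r.val : F) * t) := by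
  rw [oX_eq h O f, oX_eq h O f, ← MulAut.conj_apply, map_list_prod, List.map_map]
  refine congrArg List.prod (List.map_congr_left fun s hs => ?_)
  clear hs
  rw [Function.comp_apply, MulAut.conj_apply, ← G.torus_conj_xg z r.2]
  induction s with
  | zero => rfl
  | succ s ih => simp only [Function.iterate_succ_apply', ← ih, map_mul, map_inv, twist_torus_fix h f hz]

theorem torusVal_inO {z : Fin D.rank → Fˣ} (hz : Fix T f z) (r : Fin D.nroots) :
    InO T d f r (G.torusVal z r.val : F) := by
  have h1 : InO T d f r (1 : F) := iterate_map_one f _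
  have e : ∀ s, (G.twistHom h.check f)^[s] (G.torus z * G.xg r.val (1 : F) * (G.torus z)⁻¹) =
      G.torus z * (G.twistHom h.check f)^[s] (G.xg r.val (1 : F)) * (G.torus z)⁻¹ := by
    intro s
    induction s with
    | zero => rfl
    | succ s ih => simp only [Function.iterate_succ_apply', ih, map_mul, map_inv, twist_torus_fix h f hz]
  have e1 := e (olen T d r)
  rw [iter_olen h O f h1, G.torus_conj_xg z r.2, mul_one, iter_twist_xg h f, pi_olen O, O.eps_prod,
    Int.cast_one, one_mul] at e1
  exact G.xg_injective r.2 e1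

omit h O in
theorem InO.mul {r : Fin D.nroots} {a b : F} (ha : InO T d f r a) (hb : InO T d f r b) :
    InO T d f r (a * b) := by
  rw [InO, iterate_map_mul, ha, hb]

omit h O in
theorem InO.add {r : Fin D.nroots} {a b : F} (ha : InO T d f r a) (hb : InO T d f r b) :
    InO T d f r (a + b) := by
  rw [InO, iterate_map_add, ha, hb]

omit h O in
theorem InO.neg {r : Fin D.nroots} {a : F} (ha : InO T d f r a) : InO T d f r (-a) := by
  rw [InO, iterate_map_neg, ha]

omit h O in
theorem InO.inv {r : Fin D.nroots} {a : F} (ha : InO T d f r a) : InO T d f r a⁻¹ := by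
  have : ∀ n, f^[n] a⁻¹ = (f^[n] a)⁻¹ := fun n => by
    induction n with
    | zero => rfl
    | succ n ih => rw [Function.iterate_succ_apply', Function.iterate_succ_apply', ih, map_inv₀]
  rw [InO, this, ha]

omit h O in
theorem InO.zero (r : Fin D.nroots) : InO T d f r (0 : F) := iterate_map_zero f _

omit h O in
theorem InO.one (r : Fin D.nroots) : InO T d f r (1 : F) := iterate_map_one f _

omit h O in
theorem InO.sign {r : Fin D.nroots} {e : F} (he : e = 1 ∨ e = -1) : InO T d f r e := by
  rcases he with rfl | rfl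
  · exact InO.one f r
  · exact InO.neg f (InO.one f r)

/-! ### Conjugation by the twisted reflections -/

theorem nPar_conj_pair (j : Fin T.m) (r : Fin D.nroots) : ∃ e : F, (e = 1 ∨ e = -1) ∧
    (∀ u, T.nPar G j (fun _ => (1 : F)) * G.xg r.val u * (T.nPar G j (fun _ => (1 : F)))⁻¹ =
      G.xg (T.wJ G j r).val (e * u)) ∧
    ∀ u, T.nPar G j (fun _ => (1 : F)) * G.xg (G.negF r).val u * (T.nPar G j (fun _ => (1 : F)))⁻¹ =
      G.xg (G.negF (T.wJ G j r)).val (e * u) := by
  have key : ∀ o : List (Fin D.rank), ∃ e : F, (e = 1 ∨ e = -1) ∧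
      (∀ u, (o.map fun k : Fin D.rank => G.ng (D.simple k) (1 : F)).prod * G.xg r.val u *
        (o.map fun k : Fin D.rank => G.ng (D.simple k) (1 : F)).prod⁻¹ =
        G.xg (o.foldr (fun i x => G.sPerm i x) r).val (e * u)) ∧
      ∀ u, (o.map fun k : Fin D.rank => G.ng (D.simple k) (1 : F)).prod * G.xg (G.negF r).val u *
        (o.map fun k : Fin D.rank => G.ng (D.simple k) (1 : F)).prod⁻¹ =
        G.xg (G.negF (o.foldr (fun i x => G.sPerm i x) r)).val (e * u) := by
    intro o
    induction o with
    | nil => exact ⟨1, Or.inl rfl, by simp, by simp⟩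
    | cons a o ih =>
      obtain ⟨e, he, h1, h2⟩ := ih
      set r' : Fin D.nroots := o.foldr (fun i x => G.sPerm i x) r with hr'
      have hsneg : G.sPerm a (G.negF r') = G.negF (G.sPerm a r') := Fin.ext (by
        rw [G.sPerm_apply]
        show D.reflectRoot a (D.neg r'.val) = D.neg (G.sPerm a r').val
        rw [G.sPerm_apply, G.reflectRoot_neg a.2 r'.2])
      refine ⟨(G.tab.eta a r'.val : F) * e, ?_, fun u => ?_, fun u => ?_⟩
      · rcases he with rfl | rfl <;> rcases G.eta_eq a r'.val with hh | hh <;> simp [hh]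
      · rw [List.map_cons, List.prod_cons, List.foldr_cons, ← hr', mul_inv_rev, mul_assoc (G.ng _ _),
          mul_assoc (G.ng _ _), ← mul_assoc _ _ (G.ng _ _)⁻¹, h1 u, ← mul_assoc,
          G.ng_simple_mul_xg a.2 r'.2, mul_inv_cancel_right, G.sPerm_apply, mul_assoc]
      · rw [List.map_cons, List.prod_cons, List.foldr_cons, ← hr', mul_inv_rev, mul_assoc (G.ng _ _),
          mul_assoc (G.ng _ _), ← mul_assoc _ _ (G.ng _ _)⁻¹, h2 u, ← mul_assoc,
          G.ng_simple_mul_xg a.2 (G.negF r').2, mul_inv_cancel_right, ← hsneg, G.sPerm_apply, O.eta_neg,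
          mul_assoc]
  exact key _

theorem nPar_conj_oX {j : Fin T.m} {r : Fin D.nroots} {e u : F}
    (he : T.nPar G j (fun _ => (1 : F)) * G.xg r.val u * (T.nPar G j (fun _ => (1 : F)))⁻¹ =
      G.xg (T.wJ G j r).val (e * u)) :
    T.nPar G j (fun _ => (1 : F)) * oX T G d f r u * (T.nPar G j (fun _ => (1 : F)))⁻¹ =
      oX T G d f (T.wJ G j r) (e * u) := by
  have hol : olen T d (T.wJ G j r) = olen T d r := by
    unfold olen
    congr 1
    rw [← h.comm]
    exact propext ⟨fun e => by rw [← h.invol j (T.πF r), e, h.invol], fun e => by rw [e]⟩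
  rw [oX_eq h O f, oX_eq h O f, hol, ← MulAut.conj_apply, map_list_prod, List.map_map]
  refine congrArg List.prod (List.map_congr_left fun s hs => ?_)
  clear hs
  rw [Function.comp_apply, MulAut.conj_apply, ← he]
  induction s with
  | zero => rfl
  | succ s ih =>
    simp only [Function.iterate_succ_apply', ← ih, map_mul, map_inv, T.twist_nPar_one h f]

end Cfsg.Agent.H46.TwistCover
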