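import Cfsg.Agent.H46.TwistCover.Orbit

/-!
# Fixed elements of upward closed unipotent subgroups
-/

set_option autoImplicit false

namespace Cfsg.Agent.H46.TwistCover

open Cfsg.Lie Cfsg.Agent.H47 Cfsg.Agent.H46
open scoped Matrix MatrixGroups commutatorElement

variable {D : ChevalleyDatum} {T : GraphData D} {G : Good D} {F : Type*} [Field F] {d : ℕ}

/-- A set of roots as a set of indices. -/
def sset (S : Finset (Fin D.nroots)) : Set ℕ := {n | ∃ r ∈ S, r.val = n}

/-- A set of positive roots containing every higher root. -/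
structure Up (G : Good D) (S : Finset (Fin D.nroots)) : Prop where
  pos : ∀ r ∈ S, D.nroots / 2 ≤ r.val
  up : ∀ r ∈ S, ∀ s : Fin D.nroots, D.nroots / 2 ≤ s.val → htR G r < htR G s → s ∈ S

/-- The positive roots from a height on. -/
def lev (G : Good D) (m : ℤ) : Finset (Fin D.nroots) :=
  Finset.univ.filter fun r => D.nroots / 2 ≤ r.val ∧ m ≤ htR G r

theorem mem_lev {m : ℤ} {r : Fin D.nroots} : r ∈ lev G m ↔ D.nroots / 2 ≤ r.val ∧ m ≤ htR G r := by
  simp [lev]

theorem mem_sset {S : Finset (Fin D.nroots)} {r : Fin D.nroots} : r.val ∈ sset S ↔ r ∈ S :=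
  ⟨fun ⟨s, hs, e⟩ => Fin.ext e ▸ hs, fun hr => ⟨r, hr, rfl⟩⟩

theorem isPos_iff (G : Good D) {r : Fin D.nroots} : D.IsPosRoot r.val ↔ D.nroots / 2 ≤ r.val := by
  rw [G.isPosRoot_iff]; exact ⟨And.left, fun hr => ⟨hr, r.2⟩⟩

theorem htR_pos {r : Fin D.nroots} (hr : D.nroots / 2 ≤ r.val) : 0 < htR G r := by
  have hp : D.IsPosRoot r.val := (isPos_iff G).2 hr
  have h0 : ∀ k ∈ (Finset.univ : Finset (Fin D.rank)), 0 ≤ G.rc r k := fun k _ => G.rc_nonneg hp k
  rcases (Finset.sum_nonneg h0).eq_or_lt with e | e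
  · exfalso
    have hz := (Finset.sum_eq_zero_iff_of_nonneg h0).1 e.symm
    have : 0 < G.key r.val := G.key_pos hp
    have hk := G.key_of_rc (u := r.val) (r := r.val) (s := r.val) 0 0 (funext fun k => by
      simp [hz k (Finset.mem_univ _)])
    omega
  · exact e

theorem htR_term {a b : Fin D.nroots} {c : ℕ × ℤ × ℕ × ℕ} (hc : c ∈ D.commTerms a.val b.val)
    (ha : D.nroots / 2 ≤ a.val) (hb : D.nroots / 2 ≤ b.val) :
    ∃ hlt : c.1 < D.nroots, D.nroots / 2 ≤ c.1 ∧ htR G a + htR G b ≤ htR G ⟨c.1, hlt⟩ := by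
  obtain ⟨h1, h2, h3, h4⟩ := G.commTerms_spec a.2 b.2 hc
  refine ⟨h1, ((G.isPosRoot_iff.1 (G.commTerms_pos ((isPos_iff G).2 ha) ((isPos_iff G).2 hb) hc).1)).1, ?_⟩
  have e : htR G ⟨c.1, h1⟩ = (c.2.2.1 : ℤ) * htR G a + (c.2.2.2 : ℤ) * htR G b := by
    simp only [htR, h4, Pi.add_apply, Pi.smul_apply, smul_eq_mul, Finset.sum_add_distrib, ← Finset.mul_sum]
  rw [e]
  have p1 := htR_pos (G := G) ha
  have p2 := htR_pos (G := G) hb
  exact add_le_add (le_mul_of_one_le_left p1.le (by omega)) (le_mul_of_one_le_left p2.le (by omega))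

theorem Up.closed {S : Finset (Fin D.nroots)} (hS : Up G S) : G.PosClosed (sset S) := by
  rintro r s hr hs ⟨a, ha, rfl⟩ ⟨b, hb, rfl⟩ - c hc
  obtain ⟨hlt, hp, hht⟩ := htR_term (G := G) hc (hS.pos a ha) (hS.pos b hb)
  exact ⟨⟨c.1, hlt⟩, hS.up a ha _ hp (by have := htR_pos (G := G) (hS.pos b hb); omega), rfl⟩

theorem up_lev (m : ℤ) : Up G (lev G m) where
  pos r hr := (mem_lev.1 hr).1
  up r hr s hs hlt := mem_lev.2 ⟨hs, by have := (mem_lev.1 hr).2; omega⟩

theorem Up.erase {S : Finset (Fin D.nroots)} (hS : Up G S) {r : Fin D.nroots} (_hr : r ∈ S)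
    (hmin : ∀ s ∈ S, htR G r ≤ htR G s) : Up G (S.erase r) where
  pos s hs := hS.pos s (Finset.mem_of_mem_erase hs)
  up s hs u hu hlt := Finset.mem_erase.2 ⟨fun e => by
    subst e
    have := hmin s (Finset.mem_of_mem_erase hs); omega, hS.up s (Finset.mem_of_mem_erase hs) u hu hlt⟩

/-- The orbit of a root. -/
def orbSet (T : GraphData D) (d : ℕ) (r : Fin D.nroots) : Finset (Fin D.nroots) :=
  (Finset.range (olen T d r)).image fun s => T.πF^[s] r

variable (h : T.Ok G) (O : OrbOk T G d) (f : F →+* F)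

include O

theorem self_mem_orbSet (r : Fin D.nroots) : r ∈ orbSet T d r :=
  Finset.mem_image.2 ⟨0, Finset.mem_range.2 (olen_pos O r), rfl⟩

theorem iter_mem_orbSet (r : Fin D.nroots) : ∀ s, T.πF^[s] r ∈ orbSet T d r
  | 0 => self_mem_orbSet O r
  | s + 1 => by
    obtain ⟨i, hi, e⟩ := Finset.mem_image.1 (iter_mem_orbSet r s)
    rw [Finset.mem_range] at hi
    rw [Function.iterate_succ_apply', ← e, ← Function.iterate_succ_apply' T.πF]
    rcases (Nat.succ_le_of_lt hi).eq_or_lt with hh | hh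
    · change T.πF^[i + 1] r ∈ _
      rw [show i + 1 = olen T d r from hh, pi_olen O]
      exact self_mem_orbSet O r
    · exact Finset.mem_image.2 ⟨i + 1, Finset.mem_range.2 hh, rfl⟩

theorem orbSet_stable {r u : Fin D.nroots} (hu : T.πF u ∈ orbSet T d r) : u ∈ orbSet T d r := by
  obtain ⟨i, -, e⟩ := Finset.mem_image.1 hu
  obtain ⟨n, hn⟩ : ∃ n, d = n + 1 := ⟨d - 1, by have := O.d_pos; omega⟩
  have : u = T.πF^[n + i] r := by
    rw [Function.iterate_add_apply, e, ← Function.iterate_succ_apply, Nat.succ_eq_add_one, ← hn, O.pi_iter]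
  exact this ▸ iter_mem_orbSet O r _

theorem Up.sdiff {S : Finset (Fin D.nroots)} (hS : Up G S) {r : Fin D.nroots}
    (hmin : ∀ s ∈ S, htR G r ≤ htR G s) : Up G (S \ orbSet T d r) where
  pos s hs := hS.pos s (Finset.mem_sdiff.1 hs).1
  up s hs u hu hlt := Finset.mem_sdiff.2 ⟨hS.up s (Finset.mem_sdiff.1 hs).1 u hu hlt, fun hm => by
    obtain ⟨i, -, rfl⟩ := Finset.mem_image.1 hm
    rw [htR_iter O] at hlt
    have := hmin s (Finset.mem_sdiff.1 hs).1; omega⟩

omit O in
theorem iter_mem {S : Finset (Fin D.nroots)} (hst : ∀ r ∈ S, T.πF r ∈ S) {r : Fin D.nroots} (hr : r ∈ S) :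
    ∀ s, T.πF^[s] r ∈ S
  | 0 => hr
  | s + 1 => by rw [Function.iterate_succ_apply']; exact hst _ (iter_mem hst hr s)

include h

omit O in
theorem lev_stable (O : OrbOk T G d) (m : ℤ) : ∀ r ∈ lev G m, T.πF r ∈ lev G m := by
  intro r hr
  rw [mem_lev] at hr ⊢
  exact ⟨by rw [T.πF_val h]; exact (h.pos_iff r).2 hr.1, by rw [O.ht_pi]; exact hr.2⟩

omit O in
theorem twist_mem_posSub {S S' : Finset (Fin D.nroots)} (hS : ∀ r ∈ S, D.nroots / 2 ≤ r.val)
    (hmap : ∀ r ∈ S, T.πF r ∈ S') {g : GL D.Idx F} (hg : g ∈ G.posSub (sset S)) :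
    G.twistHom h.check f g ∈ G.posSub (sset S') := by
  have : G.posSub (F := F) (sset S) ≤ (G.posSub (sset S')).comap (G.twistHom h.check f) := by
    refine (Subgroup.closure_le _).2 ?_
    rintro _ ⟨n, t, ⟨-, r, hr, rfl⟩, rfl⟩
    rw [SetLike.mem_coe, Subgroup.mem_comap, twist_xg h f]
    refine G.xg_mem_posSub ?_ (mem_sset.2 (hmap r hr)) _
    rw [isPos_iff G, T.πF_val h]
    exact (h.pos_iff r).2 (hS r hr)
  exact this hg

theorem oX_mem_posSub {S : Finset (Fin D.nroots)} (hpos : ∀ r ∈ S, D.nroots / 2 ≤ r.val) {r : Fin D.nroots}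
    (hr : orbSet T d r ⊆ S) (t : F) : oX T G d f r t ∈ G.posSub (sset S) := by
  refine Subgroup.list_prod_mem _ fun x hx => ?_
  obtain ⟨s, hs, rfl⟩ := List.mem_map.1 hx
  have hm : T.πF^[s] r ∈ S := hr (Finset.mem_image.2 ⟨s, Finset.mem_range.2 (List.mem_range.1 hs), rfl⟩)
  exact G.xg_mem_posSub ((isPos_iff G).2 (hpos _ hm)) (mem_sset.2 hm) _

theorem oX_fst {S : Finset (Fin D.nroots)} (hS : Up G S) {r : Fin D.nroots} (hr : orbSet T d r ⊆ S) (t : F) :
    ∃ w ∈ G.posSub (F := F) (sset (S.erase r)), oX T G d f r t = G.xg r.val t * w := by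
  obtain ⟨n, hn⟩ : ∃ n, olen T d r = n + 1 := ⟨_, (Nat.succ_pred_eq_of_pos (olen_pos O r)).symm⟩
  refine ⟨((List.range n).map fun s => G.xg (T.πF^[s + 1] r).val ((eS T r (s + 1) : F) * f^[s + 1] t)).prod,
    Subgroup.list_prod_mem _ fun x hx => ?_, ?_⟩
  · obtain ⟨s, hs, rfl⟩ := List.mem_map.1 hx
    rw [List.mem_range] at hs
    have hm : T.πF^[s + 1] r ∈ S := hr (iter_mem_orbSet O r _)
    refine G.xg_mem_posSub ((isPos_iff G).2 (hS.pos _ hm)) (mem_sset.2 (Finset.mem_erase.2 ⟨?_, hm⟩)) _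
    exact (O.orth r 0 (by omega) (s + 1) (by omega) (by omega)).1
  · rw [oX, hn, List.range_succ_eq_map, List.map_cons, List.prod_cons, List.map_map]
    congr 1
    simp [eS]

omit h O in
theorem eq_zero_of_xg_mem {S : Finset (Fin D.nroots)} (hS : Up G S) {r : Fin D.nroots} (hr : r ∉ S) {t : F}
    (ht : G.xg r.val t ∈ G.posSub (F := F) (sset S)) : t = 0 := by
  by_contra hne
  exact hr (mem_sset.1 (G.mem_of_xg_mem_posSub hS.closed r.2 hne ht).2)

theorem oX_eq_one {r : Fin D.nroots} (hr : D.nroots / 2 ≤ r.val) {t : F}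
    (ht : oX T G d f r t ∈ G.posSub (F := F) (sset ((lev G (htR G r)).erase r))) : t = 0 := by
  have hS : Up G (lev G (htR G r)) := up_lev _
  have hsub : orbSet T d r ⊆ lev G (htR G r) := fun u hu => by
    obtain ⟨i, -, rfl⟩ := Finset.mem_image.1 hu
    exact mem_lev.2 ⟨(pos_iter O r h i).2 hr, by rw [htR_iter O]⟩
  obtain ⟨w, hw, e⟩ := oX_fst h O f hS hsub t
  rw [e] at ht
  refine eq_zero_of_xg_mem (hS.erase (hsub (self_mem_orbSet O r)) fun s hs => (mem_lev.1 hs).2)
    (Finset.notMem_erase r _) ?_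
  have := mul_mem ht (inv_mem hw)
  rwa [mul_inv_cancel_right] at this

/-- A fixed element of an upward closed invariant set is a product of orbit elements. -/
theorem fixed_mem_closure : ∀ S : Finset (Fin D.nroots), Up G S → (∀ r ∈ S, T.πF r ∈ S) → ∀ g : GL D.Idx F,
    g ∈ G.posSub (sset S) → G.twistHom h.check f g = g →
    g ∈ Subgroup.closure {x | ∃ r ∈ S, ∃ t, InO T d f r t ∧ x = oX T G d f r t} := by
  intro S
  induction S using Finset.strongInduction with
  | H S ih =>
    intro hS hst g hg hfix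
    rcases S.eq_empty_or_nonempty with rfl | hne
    · have hbot : G.posSub (F := F) (sset (∅ : Finset (Fin D.nroots))) ≤ ⊥ := by
        refine (Subgroup.closure_le _).2 ?_
        rintro _ ⟨n, t, ⟨-, r, hr, -⟩, -⟩
        exact absurd hr (Finset.notMem_empty r)
      rw [(Subgroup.mem_bot).1 (hbot hg)]
      exact one_mem _
    obtain ⟨r, hr, hmin⟩ := S.exists_min_image (fun s => htR G s) hne
    set σ := G.twistHom h.check f with hσ
    have hsub : orbSet T d r ⊆ S := fun u hu => by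
      obtain ⟨i, -, rfl⟩ := Finset.mem_image.1 hu
      exact iter_mem hst hr i
    have hS' := hS.erase hr hmin
    have hnorm : D.rootSubgroup F r.val ≤
        Subgroup.normalizer (G.posSub (F := F) (sset (S.erase r)) : Set (GL D.Idx F)) := by
      intro x hx
      obtain ⟨v, rfl⟩ := G.mem_rootSubgroup.1 hx
      refine G.xg_mem_normalizer_posSub ((isPos_iff G).2 (hS.pos r hr)) (fun s hs hsS hne c hc => ?_) v
      obtain ⟨u, hu, rfl⟩ := hsS
      obtain ⟨hlt, hp, hht⟩ := htR_term (G := G) hc (hS.pos r hr) (hS'.pos u hu)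
      exact ⟨⟨c.1, hlt⟩, hS'.up u hu _ hp (by have := htR_pos (G := G) (hS.pos r hr); omega), rfl⟩
    have hle : G.posSub (F := F) (sset S) ≤ D.rootSubgroup F r.val ⊔ G.posSub (sset (S.erase r)) := by
      refine (Subgroup.closure_le _).2 ?_
      rintro _ ⟨n, v, ⟨hn, u, hu, rfl⟩, rfl⟩
      by_cases e : u = r
      · subst e; exact Subgroup.mem_sup_left (G.xg_mem_rootSubgroup _ _)
      · exact Subgroup.mem_sup_right (G.xg_mem_posSub hn (mem_sset.2 (Finset.mem_erase.2 ⟨e, hu⟩)) v)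
    have hdec := hle hg
    rw [← SetLike.mem_coe, Subgroup.coe_mul_of_left_le_normalizer_right _ _ hnorm] at hdec
    obtain ⟨x, hx, y, hy, exy⟩ := hdec
    obtain ⟨t, rfl⟩ := G.mem_rootSubgroup.1 hx
    have hiter : ∀ (i : ℕ) (S1 : Finset (Fin D.nroots)), S1 ⊆ S → ∀ z, z ∈ G.posSub (F := F) (sset S1) →
        σ^[i] z ∈ G.posSub (F := F) (sset (S1.image T.πF^[i])) := by
      intro i
      induction i with
      | zero => intro S1 _ z hz; simpa using hz
      | succ i ihi =>
        intro S1 hS1 z hz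
        rw [Function.iterate_succ_apply', Function.iterate_succ', ← Finset.image_image]
        refine twist_mem_posSub h f (fun u hu => ?_) (fun u hu => Finset.mem_image_of_mem _ hu) (ihi S1 hS1 z hz)
        obtain ⟨a, ha, rfl⟩ := Finset.mem_image.1 hu
        exact hS.pos _ (iter_mem hst (hS1 ha) i)
    have hfixi : ∀ i, σ^[i] g = g := fun i => Function.iterate_fixed hfix i
    have ht : InO T d f r t := by
      have e1 := hfixi (olen T d r)
      have hy' := hiter (olen T d r) (S.erase r) (Finset.erase_subset _ _) y hy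
      have himg : (S.erase r).image (T.πF^[olen T d r]) ⊆ S.erase r := fun u hu => by
        obtain ⟨a, ha, rfl⟩ := Finset.mem_image.1 hu
        obtain ⟨ha1, ha2⟩ := Finset.mem_erase.1 ha
        refine Finset.mem_erase.2 ⟨fun e => ha1 ?_, iter_mem hst ha2 _⟩
        exact (pi_injective O).iterate _ (e.trans (pi_olen O r).symm)
      have hy2 : σ^[olen T d r] y ∈ G.posSub (F := F) (sset (S.erase r)) := by
        refine G.posSub_mono ?_ hy'
        rintro n - ⟨u, hu, e⟩
        exact ⟨u, himg hu, e⟩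
      simp only at exy
      rw [← exy, iterate_map_mul, iter_twist_xg h f, pi_olen O, O.eps_prod, Int.cast_one, one_mul] at e1
      have hmem : G.xg r.val (-t + f^[olen T d r] t) ∈ G.posSub (F := F) (sset (S.erase r)) := by
        rw [← G.xg_add, ← G.xg_inv, show (G.xg r.val t)⁻¹ * G.xg r.val (f^[olen T d r] t) =
          y * (σ^[olen T d r] y)⁻¹ by rw [inv_mul_eq_iff_eq_mul, ← mul_assoc, ← e1, mul_inv_cancel_right]]
        exact mul_mem hy (inv_mem hy2)
      have := eq_zero_of_xg_mem hS' (Finset.notMem_erase r _) hmem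
      rwa [neg_add_eq_zero, eq_comm] at this
    set g' := (oX T G d f r t)⁻¹ * g with hg'
    have hg'fix : σ g' = g' := by rw [hg', map_mul, map_inv, hσ, twist_oX h O f ht, hfix]
    have hg'1 : g' ∈ G.posSub (F := F) (sset (S.erase r)) := by
      obtain ⟨w, hw, ew⟩ := oX_fst h O f hS hsub t
      rw [hg', ew, ← exy, mul_inv_rev, mul_assoc, inv_mul_cancel_left]
      exact mul_mem (inv_mem hw) hy
    have hg'2 : g' ∈ G.posSub (F := F) (sset (S \ orbSet T d r)) := by
      have key : ∀ i ≤ olen T d r, g' ∈ G.posSub (F := F) (sset (S \ (Finset.range i).image fun s => T.πF^[s] r)) := by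
        intro i
        induction i with
        | zero =>
          intro _
          rw [Finset.range_zero, Finset.image_empty, Finset.sdiff_empty]
          refine G.posSub_mono ?_ hg'1
          rintro n - ⟨u, hu, e⟩
          exact ⟨u, Finset.mem_of_mem_erase hu, e⟩
        | succ i ihi =>
          intro hi
          have h1 := ihi (by omega)
          have h2 := hiter i (S.erase r) (Finset.erase_subset _ _) g' hg'1
          rw [Function.iterate_fixed hg'fix] at h2
          have himg : (S.erase r).image (T.πF^[i]) ⊆ S.erase (T.πF^[i] r) := fun u hu => by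
            obtain ⟨a, ha, rfl⟩ := Finset.mem_image.1 hu
            obtain ⟨ha1, ha2⟩ := Finset.mem_erase.1 ha
            exact Finset.mem_erase.2 ⟨fun e => ha1 ((pi_injective O).iterate _ e), iter_mem hst ha2 _⟩
          have h3 : g' ∈ G.posSub (F := F) (sset (S.erase (T.πF^[i] r))) := by
            refine G.posSub_mono ?_ h2
            rintro n - ⟨u, hu, e⟩
            exact ⟨u, himg hu, e⟩
          have hU1 : Up G (S \ (Finset.range i).image fun s => T.πF^[s] r) := by
            refine ⟨fun u hu => hS.pos u (Finset.mem_sdiff.1 hu).1, fun u hu v hv hlt =>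
              Finset.mem_sdiff.2 ⟨hS.up u (Finset.mem_sdiff.1 hu).1 v hv hlt, fun hm => ?_⟩⟩
            obtain ⟨a, -, rfl⟩ := Finset.mem_image.1 hm
            rw [htR_iter O] at hlt
            have := hmin u (Finset.mem_sdiff.1 hu).1; omega
          have hU2 : Up G (S.erase (T.πF^[i] r)) :=
            hS.erase (iter_mem hst hr i) fun s hs => by rw [htR_iter O]; exact hmin s hs
          have h4 : g' ∈ G.posSub (F := F) (sset (S \ (Finset.range i).image fun s => T.πF^[s] r)) ⊓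
              G.posSub (F := F) (sset (S.erase (T.πF^[i] r))) := ⟨h1, h3⟩
          rw [G.posSub_inf hU1.closed hU2.closed] at h4
          refine G.posSub_mono (fun n _ hn => ?_) h4
          obtain ⟨⟨u, hu, rfl⟩, v, hv, e⟩ := hn
          rw [Fin.ext e] at hv
          refine ⟨u, ?_, rfl⟩
          rw [Finset.range_add_one, Finset.image_insert, Finset.sdiff_insert]
          exact Finset.mem_erase.2 ⟨(Finset.mem_erase.1 hv).1, hu⟩
      exact key _ le_rfl
    have hlt : S \ orbSet T d r ⊂ S :=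
      Finset.sdiff_ssubset hsub ⟨r, self_mem_orbSet O r⟩
    have hgen := ih _ hlt (Up.sdiff O hS hmin) (fun u hu => Finset.mem_sdiff.2
      ⟨hst u (Finset.mem_sdiff.1 hu).1, fun hm => (Finset.mem_sdiff.1 hu).2 (orbSet_stable O hm)⟩) g' hg'2 hg'fix
    have hmono : Subgroup.closure {x | ∃ u ∈ S \ orbSet T d r, ∃ t, InO T d f u t ∧ x = oX T G d f u t} ≤
        Subgroup.closure {x | ∃ u ∈ S, ∃ t, InO T d f u t ∧ x = oX T G d f u t} :=
      Subgroup.closure_mono fun x ⟨u, hu, t, ht, e⟩ => ⟨u, (Finset.mem_sdiff.1 hu).1, t, ht, e⟩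
    have : g = oX T G d f r t * g' := by rw [hg', mul_inv_cancel_left]
    rw [this]
    exact mul_mem (Subgroup.subset_closure ⟨r, hr, t, ht, rfl⟩) (hmono hgen)

/-- Commutators raise the height. -/
theorem commutator_mem_lev {i j : ℤ} {x y : GL D.Idx F}
    (hx : x ∈ G.posSub (F := F) (sset (lev G i))) (hy : y ∈ G.posSub (F := F) (sset (lev G j))) :
    ⁅x, y⁆ ∈ G.posSub (F := F) (sset (lev G (i + j))) := by
  set P := G.posSub (F := F) (sset (lev G (i + j)))
  have hn : ∀ u : Fin D.nroots, D.nroots / 2 ≤ u.val → ∀ v : F,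
      G.xg u.val v ∈ Subgroup.normalizer (P : Set (GL D.Idx F)) := by
    intro u hu v
    refine G.xg_mem_normalizer_posSub ((isPos_iff G).2 hu) (fun s hs hsS _ c hc => ?_) v
    obtain ⟨w, hw, rfl⟩ := hsS
    obtain ⟨hlt, hp, hht⟩ := htR_term (G := G) hc hu (mem_lev.1 hw).1
    exact ⟨⟨c.1, hlt⟩, mem_lev.2 ⟨hp, by have := htR_pos (G := G) hu; have := (mem_lev.1 hw).2; omega⟩, rfl⟩
  have hnorm : ∀ m, ∀ g ∈ G.posSub (F := F) (sset (lev G m)), g ∈ Subgroup.normalizer (P : Set (GL D.Idx F)) :=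
    fun m g hg => (Subgroup.closure_le _).2 (by
      rintro _ ⟨n, v, ⟨-, u, hu, rfl⟩, rfl⟩; exact hn u (mem_lev.1 hu).1 v) hg
  have hconj : ∀ m, ∀ g ∈ G.posSub (F := F) (sset (lev G m)), ∀ p ∈ P, g * p * g⁻¹ ∈ P :=
    fun m g hg p hp => (Subgroup.mem_normalizer_iff.1 (hnorm m g hg) p).1 hp
  have key : ∀ a : Fin D.nroots, a ∈ lev G i → ∀ t : F, ∀ z ∈ G.posSub (F := F) (sset (lev G j)),
      ⁅G.xg a.val t, z⁆ ∈ P := by
    intro a ha t z hz
    induction hz using Subgroup.closure_induction with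
    | mem w hw =>
      obtain ⟨n, u, ⟨hn', b, hb, rfl⟩, rfl⟩ := hw
      by_cases hab : b.val = a.val
      · rw [hab, commutatorElement_eq_one_iff_mul_comm.2 (by rw [G.xg_add, G.xg_add, add_comm])]
        exact one_mem _
      · obtain ⟨ha1, ha2⟩ := mem_lev.1 ha
        obtain ⟨hb1, hb2⟩ := mem_lev.1 hb
        obtain ⟨c, hc, e⟩ := G.exists_comm a.2 b.2 hab
          (G.ne_neg_of_pos ((isPos_iff G).2 ha1) hn') (-t) (-u)
        have hcP : c ∈ P := (Subgroup.closure_le _).2 (by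
          rintro _ ⟨q, hq, v, rfl⟩
          obtain ⟨hlt, hp, hht⟩ := htR_term (G := G) hq ha1 hb1
          exact G.xg_mem_posSub (S := sset (lev G (i + j))) (G.isPosRoot_iff.2 ⟨hp, hlt⟩)
            ⟨⟨q.1, hlt⟩, mem_lev.2 ⟨hp, by omega⟩, rfl⟩ v) hc
        have : c = ⁅G.xg b.val u, G.xg a.val t⁆ := by
          rw [eq_comm, ← inv_mul_eq_iff_eq_mul.2 e]
          simp only [commutatorElement_def, mul_inv_rev, G.xg_inv, neg_neg, mul_assoc]
        rw [← commutatorElement_inv, ← this]; exact inv_mem hcP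
    | one => rw [commutatorElement_one_right]; exact one_mem _
    | mul u v hu _ ihu ihv =>
      rw [show ⁅G.xg a.val t, u * v⁆ = ⁅G.xg a.val t, u⁆ * (u * ⁅G.xg a.val t, v⁆ * u⁻¹) by
        simp only [commutatorElement_def]; group]
      exact mul_mem ihu (hconj j u hu _ ihv)
    | inv u hu ihu =>
      rw [show ⁅G.xg a.val t, u⁻¹⁆ = u⁻¹ * ⁅G.xg a.val t, u⁆⁻¹ * u⁻¹⁻¹ by
        simp only [commutatorElement_def]; group]
      exact hconj j u⁻¹ (inv_mem hu) _ (inv_mem ihu)
  induction hx using Subgroup.closure_induction with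
  | mem w hw =>
    obtain ⟨n, t, ⟨-, a, ha, rfl⟩, rfl⟩ := hw
    exact key a ha t y hy
  | one => rw [commutatorElement_one_left]; exact one_mem _
  | mul u v hu _ ihu ihv =>
    rw [show ⁅u * v, y⁆ = (u * ⁅v, y⁆ * u⁻¹) * ⁅u, y⁆ by simp only [commutatorElement_def]; group]
    exact mul_mem (hconj i u hu _ ihv) ihu
  | inv u hu ihu =>
    rw [show ⁅u⁻¹, y⁆ = u⁻¹ * ⁅u, y⁆⁻¹ * u⁻¹⁻¹ by simp only [commutatorElement_def]; group]
    exact hconj i u⁻¹ (inv_mem hu) _ (inv_mem ihu)

end Cfsg.Agent.H46.TwistCover
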