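import Cfsg.Agent.H46.TwistCover.Lift
import Cfsg.Agent.H92.SL2Hom

/-!
# The rank one subgroups of a central extension of a twisted group
-/

set_option autoImplicit false

namespace Cfsg.Agent.H46.TwistCover

open Cfsg.Lie Cfsg.Agent.H47 Cfsg.Agent.H46
open Cfsg.Agent.H92 (rn rh SL2Rels sx sy sw)
open scoped Matrix MatrixGroups

variable {D : ChevalleyDatum} {T : GraphData D} {G : Good D} {F : Type*} [Field F] {d : ℕ} {f : F →+* F}
  {E : Type*} [Group E] {π : E →* GL D.Idx F}

/-- The diagonal matrix of determinant one. -/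
def dgv {K : Type*} [Field K] (a : Kˣ) : SL(2, K) :=
  ⟨!![(a : K), 0; 0, ((a⁻¹ : Kˣ) : K)], by simp [Matrix.det_fin_two_of]⟩

@[simp] theorem dgv_00 {K : Type*} [Field K] (a : Kˣ) : dgv a 0 0 = (a : K) := rfl
@[simp] theorem dgv_01 {K : Type*} [Field K] (a : Kˣ) : dgv a 0 1 = 0 := rfl
@[simp] theorem dgv_10 {K : Type*} [Field K] (a : Kˣ) : dgv a 1 0 = 0 := rfl
@[simp] theorem dgv_11 {K : Type*} [Field K] (a : Kˣ) : dgv a 1 1 = ((a⁻¹ : Kˣ) : K) := rfl

/-- The diagonal matrices as a homomorphism. -/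
def dg {K : Type*} [Field K] : Kˣ →* SL(2, K) :=
  MonoidHom.mk' dgv fun a b => by
    apply Cfsg.Agent.H92.sl2_ext <;> simp [Cfsg.Agent.H92.sl2_mul_apply, mul_comm]

@[simp] theorem dg_eq {K : Type*} [Field K] (a : Kˣ) : dg a = dgv a := rfl

theorem rh_eq_dg {K : Type*} [Field K] [Finite K] {Γ : Type*} [Group Γ] {x y : K → Γ} (R : SL2Rels x y) (a : Kˣ) :
    rh x y (a : K) = R.hom (dg a) := by
  have e : ∀ t : Kˣ, rn x y (t : K) = R.hom (dg t * sw) := fun t => by
    rw [show dg t * sw = sx (t : K) * sy (t : K)⁻¹ * sx (t : K) by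
      apply Cfsg.Agent.H92.sl2_ext <;> simp [dg, Cfsg.Agent.H92.sl2_mul_apply]]
    simp only [map_mul, R.hom_sx, R.hom_sy]
    rfl
  have h1 : rn x y 1 = R.hom sw := by
    have := e 1
    rwa [Units.val_one, map_one, one_mul] at this
  rw [rh, e, h1, map_mul, mul_inv_cancel_right]

/-- The fixed field of a power of an endomorphism. -/
def fld (f : F →+* F) (n : ℕ) : Subfield F where
  carrier := {t | f^[n] t = t}
  mul_mem' {a b} ha hb := by
    show f^[n] (a * b) = a * b
    rw [iterate_map_mul, ha, hb]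
  one_mem' := iterate_map_one f n
  add_mem' {a b} ha hb := by
    show f^[n] (a + b) = a + b
    rw [iterate_map_add, ha, hb]
  zero_mem' := iterate_map_zero f n
  neg_mem' {a} ha := by
    show f^[n] (-a) = -a
    rw [iterate_map_neg, ha]
  inv_mem' a ha := by
    have e : ∀ m, f^[m] a⁻¹ = (f^[m] a)⁻¹ := fun m => by
      induction m with
      | zero => rfl
      | succ m ih => rw [Function.iterate_succ_apply', Function.iterate_succ_apply', ih, map_inv₀]
    show f^[n] a⁻¹ = a⁻¹
    rw [e, ha]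

/-- The simple root of an orbit. -/
def sR (T : GraphData D) (G : Good D) (j : Fin T.m) : Fin D.nroots := G.simpleF (T.rep j)

/-- Positive rank one lift. -/
noncomputable def xE (T : GraphData D) (G : Good D) (d : ℕ) (f : F →+* F) (π : E →* GL D.Idx F) (j : Fin T.m)
    (t : F) : E := L T G d f π (sR T G j) t

/-- Negative rank one lift. -/
noncomputable def yE (T : GraphData D) (G : Good D) (d : ℕ) (f : F →+* F) (π : E →* GL D.Idx F) (j : Fin T.m)
    (t : F) : E := L T G d f π (G.negF (sR T G j)) (-t)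

/-- The monomial lift. -/
noncomputable def nE (T : GraphData D) (G : Good D) (d : ℕ) (f : F →+* F) (π : E →* GL D.Idx F) (j : Fin T.m)
    (t : F) : E := rn (xE T G d f π j) (yE T G d f π j) t

/-- The torus lift. -/
noncomputable def hE (T : GraphData D) (G : Good D) (d : ℕ) (f : F →+* F) (π : E →* GL D.Idx F) (j : Fin T.m)
    (t : F) : E := rh (xE T G d f π j) (yE T G d f π j) t

/-- The lifted torus. -/
noncomputable def TE (T : GraphData D) (G : Good D) (d : ℕ) (f : F →+* F) (π : E →* GL D.Idx F) : Subgroup E :=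
  Subgroup.closure {x | ∃ j t, InO T d f (sR T G j) t ∧ t ≠ 0 ∧ x = hE T G d f π j t}

namespace Lifts

variable (K : Lifts T G d f π)

include K

theorem inO_sR_iff {j : Fin T.m} {t : F} : InO T d f (sR T G j) t ↔ f^[T.len j] t = t := by
  rw [InO, sR, K.orb.len_eq]

theorem inO_negF_iff {r : Fin D.nroots} {t : F} : InO T d f (G.negF r) t ↔ InO T d f r t := by
  rw [InO, InO, olen_negF K.ok]

theorem orbParam_rep {j : Fin T.m} {t : F} (ht : InO T d f (sR T G j) t) : T.orbParam f j t (T.rep j) = t :=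
  T.orbParam_apply K.ok f ((K.inO_sR_iff).1 ht) (Nat.zero_le _)

theorem sat_param {j : Fin T.m} {t : F} (ht : InO T d f (sR T G j) t) : T.Sat f j (T.orbParam f j t) :=
  T.sat_orbParam K.ok f ((K.inO_sR_iff).1 ht)

theorem oX_sR {j : Fin T.m} {t : F} (ht : InO T d f (sR T G j) t) :
    oX T G d f (sR T G j) t = T.pX G j (T.orbParam f j t) := by
  rw [pX_eq_oX K.ok K.orb (K.sat_param ht), K.orbParam_rep ht]; rfl

theorem oX_negF_sR {j : Fin T.m} {t : F} (ht : InO T d f (sR T G j) t) :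
    oX T G d f (G.negF (sR T G j)) t = T.nX G j (T.orbParam f j t) := by
  rw [nX_eq_oX K.ok K.orb (K.sat_param ht), K.orbParam_rep ht]; rfl

theorem map_nE {j : Fin T.m} {t : F} (ht : InO T d f (sR T G j) t) :
    π (nE T G d f π j t) = T.nPar G j (T.orbParam f j t) := by
  have hi : InO T d f (sR T G j) (-t⁻¹) := InO.neg f (InO.inv f ht)
  rw [T.nPar_eq_gen K.ok, nE, rn, map_mul, map_mul, xE, yE, K.map_L ht, K.map_L (K.inO_negF_iff.2 hi), K.oX_sR ht]
  congr 2
  rw [K.oX_negF_sR hi]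
  refine congrArg List.prod (List.map_congr_left fun k hk => ?_)
  obtain ⟨s, hs, rfl⟩ := List.mem_map.1 hk
  have hs' := (List.mem_range.1 hs).le
  simp only []
  rw [T.orbParam_apply K.ok f (K.inO_sR_iff.1 hi) hs', T.orbParam_apply K.ok f (K.inO_sR_iff.1 ht) hs',
    iterate_map_neg]
  congr 2
  clear hs hk hs'
  induction s with
  | zero => rfl
  | succ s ih => rw [Function.iterate_succ_apply', Function.iterate_succ_apply', ih, map_inv₀]

theorem map_nE_one (j : Fin T.m) : π (nE T G d f π j 1) = T.nPar G j (fun _ => (1 : F)) := by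
  rw [K.map_nE (InO.one f _)]
  refine congrArg List.prod (List.map_congr_left fun k hk => ?_)
  rw [GraphData.orbParam, iterate_map_one]

theorem map_hE {j : Fin T.m} {t : F} (ht : InO T d f (sR T G j) t) :
    π (hE T G d f π j t) = T.orbProd j fun k : Fin D.rank => G.hg (D.simple k) (T.orbParam f j t k) := by
  rw [hE, rh, map_mul, map_inv, T.orbHg_eq K.ok]
  rw [show π (rn (xE T G d f π j) (yE T G d f π j) t) = T.nPar G j (T.orbParam f j t) from K.map_nE ht,
    show π (rn (xE T G d f π j) (yE T G d f π j) 1) = T.nPar G j (fun _ => (1 : F)) from K.map_nE_one j]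

theorem param_ne {j : Fin T.m} {t : F} (h0 : t ≠ 0) : ∀ k ∈ T.orb j, T.orbParam f j t k ≠ 0 := fun _ _ h1 =>
  h0 (f.injective.iterate _ (h1.trans (iterate_map_zero f _).symm))

theorem map_hE_mem {j : Fin T.m} {t : F} (ht : InO T d f (sR T G j) t) (h0 : t ≠ 0) :
    ∃ z, Fix T f z ∧ π (hE T G d f π j t) = G.torus z := by
  rw [K.map_hE ht]
  exact T.orb_hg_mem_fixTorus K.ok f j (K.sat_param ht) (K.param_ne h0)

theorem TE_map {x : E} (hx : x ∈ TE T G d f π) : ∃ z, Fix T f z ∧ π x = G.torus z := by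
  have : TE T G d f π ≤ (T.fixTorus G f).comap π := by
    refine (Subgroup.closure_le _).2 ?_
    rintro _ ⟨j, t, ht, h0, rfl⟩
    exact K.map_hE_mem ht h0
  exact this hx

theorem nE_normalises {j : Fin T.m} {t : F} (ht : InO T d f (sR T G j) t) (h0 : t ≠ 0) {z : Fin D.rank → Fˣ}
    (hz : Fix T f z) :
    ∃ z', Fix T f z' ∧ π (nE T G d f π j t) * G.torus z * (π (nE T G d f π j t))⁻¹ = G.torus z' := by
  obtain ⟨w, hw, ew⟩ := T.orb_hg_mem_fixTorus K.ok f j (K.sat_param ht) (K.param_ne h0)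
  obtain ⟨z', hz', e⟩ := T.fixTorus_conj K.ok f j (g := G.torus z) ⟨z, hz, rfl⟩
  refine ⟨z', hz', ?_⟩
  rw [K.map_nE ht, T.nPar_split K.ok, ew, mul_inv_rev]
  calc G.torus w * T.nPar G j (fun _ => (1 : F)) * G.torus z * ((T.nPar G j fun _ => (1 : F))⁻¹ * (G.torus w)⁻¹)
      = G.torus w * (T.nPar G j (fun _ => (1 : F)) * G.torus z * (T.nPar G j fun _ => (1 : F))⁻¹) * (G.torus w)⁻¹ := by
        simp only [mul_assoc]
    _ = G.torus z' := by rw [e, ← map_mul, mul_comm, map_mul, mul_inv_cancel_right]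

/-- Conjugation of a rank one lift by the monomial lift. -/
theorem conj_xE {j : Fin T.m} {t u : F} (ht : InO T d f (sR T G j) t) (h0 : t ≠ 0) (hu : InO T d f (sR T G j) u) :
    nE T G d f π j t * xE T G d f π j u * (nE T G d f π j t)⁻¹ = yE T G d f π j (u / t ^ 2) := by
  refine K.L_conj (r' := G.negF (sR T G j)) (φ := fun v => -(v / t ^ 2)) ?_ (fun z hz => K.nE_normalises ht h0 hz)
    ?_ hu
  · intro v hv
    rw [K.inO_negF_iff, div_eq_mul_inv, sq]
    exact InO.neg f (InO.mul f hv (InO.inv f (InO.mul f ht ht)))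
  · intro v hv
    have hw : InO T d f (sR T G j) (-(v / t ^ 2)) := by
      rw [div_eq_mul_inv, sq]
      exact InO.neg f (InO.mul f hv (InO.inv f (InO.mul f ht ht)))
    rw [K.map_nE ht, K.oX_sR hv, K.oX_negF_sR hw, GraphData.pX, GraphData.nX, GraphData.orbProd,
      ← MulAut.conj_apply, map_list_prod, List.map_map]
    refine congrArg List.prod (List.map_congr_left fun k hk => ?_)
    rw [Function.comp_apply, MulAut.conj_apply]
    set c := T.orbParam f j t
    have hp : T.nPar G j c = G.ng (D.simple k) (c k) *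
        (((T.orb j).erase k).map fun a : Fin D.rank => G.ng (D.simple a) (c a)).prod := by
      rw [GraphData.nPar, GraphData.orbProd, ((List.perm_cons_erase hk).map _).prod_eq' (List.pairwise_map.2
        ((K.ok.nodup j).pairwise_of_forall_ne fun a ha b hb hab => (T.commute_ng K.ok ha hb hab _ _).2.2))]
      simp
    have hcm : Commute (((T.orb j).erase k).map fun a : Fin D.rank => G.ng (D.simple a) (c a)).prod
        (G.xg (D.simple k) (T.orbParam f j v k)) := Commute.list_prod_left _ _ fun x hx => by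
      obtain ⟨a, ha, rfl⟩ := List.mem_map.1 hx
      exact (T.commute_ng K.ok (List.mem_of_mem_erase ha) hk (fun e => (K.ok.nodup j).not_mem_erase (e ▸ ha)) _ 0).1 _
    rw [hp, mul_inv_rev, mul_assoc (G.ng _ _), hcm.eq, ← mul_assoc, ← mul_assoc, mul_inv_cancel_right,
      G.ng_mul_xg (G.simple_lt k.2) (K.param_ne h0 k hk), mul_inv_cancel_right]
    obtain ⟨s, hs, rfl⟩ := List.mem_map.1 hk
    have hs' := (List.mem_range.1 hs).le
    rw [T.orbParam_apply K.ok f (K.inO_sR_iff.1 hv) hs', T.orbParam_apply K.ok f (K.inO_sR_iff.1 ht) hs',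
      T.orbParam_apply K.ok f (K.inO_sR_iff.1 hw) hs', iterate_map_neg]
    congr 2
    clear hk hcm hp hs hs'
    induction s with
    | zero => simp only [Function.iterate_zero_apply]; field_simp
    | succ s ih => simp only [Function.iterate_succ_apply', ← ih, map_mul, map_inv₀]

/-- The rank one Steinberg relations. -/
theorem sl2Rels (j : Fin T.m) :
    SL2Rels (fun t : fld f (T.len j) => xE T G d f π j t) (fun t : fld f (T.len j) => yE T G d f π j t) := by
  have hi : ∀ t : fld f (T.len j), InO T d f (sR T G j) (t : F) := fun t => K.inO_sR_iff.2 t.2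
  set x := fun t : fld f (T.len j) => xE T G d f π j t with hx
  set y := fun t : fld f (T.len j) => yE T G d f π j t with hy
  have hn : ∀ t : fld f (T.len j), rn x y t = nE T G d f π j t := fun t => by
    simp only [rn, nE, hx, hy, Subfield.coe_inv]
  have xadd : ∀ s t, x (s + t) = x s * x t := fun s t => (K.L_add (hi s) (hi t)).symm
  have yadd : ∀ s t, y (s + t) = y s * y t := fun s t => by
    simp only [hy, yE, Subfield.coe_add, neg_add]
    exact (K.L_add (K.inO_negF_iff.2 (InO.neg f (hi s))) (K.inO_negF_iff.2 (InO.neg f (hi t)))).symm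
  have hneg : ∀ t, rn x y (-t) = (rn x y t)⁻¹ := fun t => by
    have e : ∀ z : fld f (T.len j) → E, (∀ s t, z (s + t) = z s * z t) → ∀ t, z (-t) = (z t)⁻¹ := fun z hz t => by
      have h0 : z 0 = 1 := by have := hz 0 0; rwa [add_zero, left_eq_mul] at this
      rw [eq_inv_iff_mul_eq_one, ← hz, neg_add_cancel, h0]
    simp [rn, e x xadd, e y yadd, inv_neg, mul_assoc]
  have cx : ∀ t, t ≠ 0 → ∀ u, rn x y t * x u * (rn x y t)⁻¹ = y (u / t ^ 2) := fun t ht u => by
    rw [hn]
    simp only [hy, hx, Subfield.coe_div, SubmonoidClass.coe_pow]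
    exact K.conj_xE (hi t) (fun e => ht (Subtype.ext e)) (hi u)
  refine ⟨xadd, yadd, fun t ht => ?_, cx, fun t ht u => ?_⟩
  · have h1 := cx t ht t
    rw [show t / t ^ 2 = t⁻¹ by field_simp, mul_inv_eq_iff_eq_mul, rn] at h1
    simp only [← mul_assoc] at h1
    exact (mul_right_cancel h1).symm
  · have h1 := cx (-t) (neg_ne_zero.2 ht) (u * t ^ 2)
    rw [hneg, inv_inv, neg_sq, mul_div_cancel_right₀ _ (pow_ne_zero 2 ht)] at h1
    rw [← h1]
    simp [mul_assoc]

variable [Finite F]

/-- The torus lift as a homomorphism. -/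
noncomputable def hHom (j : Fin T.m) : (fld f (T.len j))ˣ →* E := (K.sl2Rels j).hom.comp dg

theorem hHom_apply (j : Fin T.m) (a : (fld f (T.len j))ˣ) :
    K.hHom j a = hE T G d f π j ((a : fld f (T.len j)) : F) := by
  rw [hHom, MonoidHom.comp_apply, ← rh_eq_dg]
  simp only [rh, rn, hE, Subfield.coe_inv, OneMemClass.coe_one]

theorem hE_mul {j : Fin T.m} {a b : F} (ha : InO T d f (sR T G j) a) (a0 : a ≠ 0)
    (hb : InO T d f (sR T G j) b) (b0 : b ≠ 0) :
    hE T G d f π j a * hE T G d f π j b = hE T G d f π j (a * b) := by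
  let u : (fld f (T.len j))ˣ := Units.mk0 ⟨a, K.inO_sR_iff.1 ha⟩ fun e => a0 (congrArg Subtype.val e)
  let v : (fld f (T.len j))ˣ := Units.mk0 ⟨b, K.inO_sR_iff.1 hb⟩ fun e => b0 (congrArg Subtype.val e)
  have := map_mul (K.hHom j) u v
  rw [hHom_apply, hHom_apply, hHom_apply] at this
  exact this.symm

theorem nE_eq {j : Fin T.m} {t : F} : nE T G d f π j t = hE T G d f π j t * nE T G d f π j 1 :=
  (inv_mul_cancel_right _ _).symm

theorem hE_mem {j : Fin T.m} {t : F} (ht : InO T d f (sR T G j) t) (h0 : t ≠ 0) :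
    hE T G d f π j t ∈ TE T G d f π := Subgroup.subset_closure ⟨j, t, ht, h0, rfl⟩

theorem torus_conj_nE {j : Fin T.m} {t : F} (ht : InO T d f (sR T G j) t) {h : E} {z : Fin D.rank → Fˣ}
    (hz : Fix T f z) (hh : π h = G.torus z) :
    h * nE T G d f π j t * h⁻¹ = nE T G d f π j ((G.torusVal z (sR T G j).val : F) * t) := by
  have hi : InO T d f (G.negF (sR T G j)) (-t⁻¹) := K.inO_negF_iff.2 (InO.neg f (InO.inv f ht))
  have e : h * nE T G d f π j t * h⁻¹ = (h * xE T G d f π j t * h⁻¹) * (h * yE T G d f π j t⁻¹ * h⁻¹) *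
      (h * xE T G d f π j t * h⁻¹) := by simp only [nE, rn]; group
  rw [e, xE, yE, K.L_torus ht hz hh, K.L_torus hi hz hh]
  simp only [nE, rn, xE, yE]
  congr 3
  rw [show ((G.negF (sR T G j)).val) = D.neg (sR T G j).val from rfl, G.torusVal_neg (Fin.is_lt _), mul_inv,
    Units.val_inv_eq_inv_val]
  ring

theorem torus_conj_hE {j : Fin T.m} {t : F} (ht : InO T d f (sR T G j) t) (h0 : t ≠ 0) {h : E}
    {z : Fin D.rank → Fˣ} (hz : Fix T f z) (hh : π h = G.torus z) :
    h * hE T G d f π j t * h⁻¹ = hE T G d f π j t := by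
  set c : F := (G.torusVal z (sR T G j).val : F)
  have hc : InO T d f (sR T G j) c := torusVal_inO K.ok K.orb f hz _
  have hc0 : c ≠ 0 := Units.ne_zero _
  have e : h * hE T G d f π j t * h⁻¹ = (h * nE T G d f π j t * h⁻¹) * (h * nE T G d f π j 1 * h⁻¹)⁻¹ := by
    simp only [hE, rh, nE]; group
  rw [e, K.torus_conj_nE ht hz hh, K.torus_conj_nE (InO.one f _) hz hh, mul_one, K.nE_eq,
    K.nE_eq (t := c), mul_inv_rev, mul_assoc, mul_inv_cancel_left, mul_comm c, ← K.hE_mul ht h0 hc hc0,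
    mul_inv_cancel_right]

theorem nE_conj_TE {j : Fin T.m} {x : E} (hx : x ∈ TE T G d f π) :
    nE T G d f π j 1 * x * (nE T G d f π j 1)⁻¹ ∈ TE T G d f π := by
  refine conj_mem_closure ?_ hx
  rintro _ ⟨i, t, ht, h0, rfl⟩
  obtain ⟨z, hz, hh⟩ := K.map_hE_mem ht h0
  set c : F := (G.torusVal z (sR T G j).val : F)
  have e := K.torus_conj_nE (InO.one f (sR T G j)) hz hh
  rw [mul_one, K.nE_eq (t := c)] at e
  have e' : nE T G d f π j 1 * (hE T G d f π i t)⁻¹ * (nE T G d f π j 1)⁻¹ =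
      (hE T G d f π i t)⁻¹ * hE T G d f π j c := by
    rw [eq_inv_mul_iff_mul_eq, ← mul_assoc, ← mul_assoc, e, mul_inv_cancel_right]
  have hm : nE T G d f π j 1 * (hE T G d f π i t)⁻¹ * (nE T G d f π j 1)⁻¹ ∈ TE T G d f π :=
    e'.symm ▸ mul_mem (inv_mem (K.hE_mem ht h0)) (K.hE_mem (torusVal_inO K.ok K.orb f hz _) (Units.ne_zero _))
  have := inv_mem hm
  rwa [mul_inv_rev, mul_inv_rev, inv_inv, inv_inv, ← mul_assoc] at this

end Lifts

end Cfsg.Agent.H46.TwistCover
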