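import Cfsg.Agent.H46.TwistCover.Bruhat
import Cfsg.Agent.H64.SzMult.Weight
import Cfsg.Agent.H82.Chev.Cext

/-!
# Lifts of one orbit group commute
-/

set_option autoImplicit false

namespace Cfsg.Agent.H46.TwistCover

open Cfsg.Lie Cfsg.Agent.H47 Cfsg.Agent.H46
open Cfsg.Agent.H82.Chev (commutator_congr commute_congr commute_commutator_of_map)
open scoped Matrix MatrixGroups commutatorElement

variable {D : ChevalleyDatum} {T : GraphData D} {G : Good D} {F : Type*} [Field F] {d : ℕ} {f : F →+* F}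
  {E : Type*} [Group E] {π : E →* GL D.Idx F}

/-- Lifts of the orbit group of a root commute. -/
def SelfAt (T : GraphData D) (G : Good D) (d : ℕ) (f : F →+* F) (π : E →* GL D.Idx F) (r : Fin D.nroots) : Prop :=
  ∀ t u, InO T d f r t → InO T d f r u → ∀ a b : E, π a = oX T G d f r t → π b = oX T G d f r u → Commute a b

variable (h : T.Ok G) (O : OrbOk T G d) (hc : π.ker ≤ Subgroup.center E)
  (hX : ∀ r t, InO T d f r t → oX T G d f r t ∈ π.range)

include h O

theorem exists_shift {r : Fin D.nroots} {t : F} (ht : InO T d f r t) :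
    ∀ i, ∃ t', InO T d f (T.πF^[i] r) t' ∧ oX T G d f (T.πF^[i] r) t' = oX T G d f r t
  | 0 => ⟨t, ht, rfl⟩
  | i + 1 => by
    obtain ⟨t', h1, h2⟩ := exists_shift ht i
    rw [Function.iterate_succ_apply']
    exact ⟨_, inO_pi h O f h1, (oX_pi h O f h1).trans h2⟩

theorem selfAt_orbit {r s : Fin D.nroots} (hs : s ∈ orbSet T d r) (hr : SelfAt T G d f π r) :
    SelfAt T G d f π s := by
  intro t u ht hu a b ha hb
  obtain ⟨i, -, rfl⟩ := Finset.mem_image.1 hs
  have e : T.πF^[(d - 1) * i] (T.πF^[i] r) = r := by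
    obtain ⟨n, rfl⟩ : ∃ n, d = n + 1 := ⟨d - 1, by have := O.d_pos; omega⟩
    rw [← Function.iterate_add_apply, Nat.add_sub_cancel, show n * i + i = (n + 1) * i by ring, Function.iterate_mul]
    exact Function.iterate_fixed (O.pi_iter r) i
  obtain ⟨t', ht', et⟩ := exists_shift h O ht ((d - 1) * i)
  obtain ⟨u', hu', eu⟩ := exists_shift h O hu ((d - 1) * i)
  rw [e] at ht' et hu' eu
  exact hr t' u' ht' hu' a b (ha.trans et.symm) (hb.trans eu.symm)

include hX

theorem genSet_le_range : Subgroup.closure (T.genSet G f) ≤ π.range := by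
  refine (Subgroup.closure_le _).2 ?_
  rintro g ⟨j, c, hj, rfl | rfl⟩
  · rw [pX_eq_oX h O hj]
    exact hX _ _ (sat_inO h O hj)
  · rw [nX_eq_oX h O hj]
    refine hX _ _ ?_
    rw [InO, olen_negF h]
    exact sat_inO h O hj

theorem nW_mem_range : ∀ w, nW T G F w ∈ π.range := fun w =>
  genSet_le_range h O hX (Subgroup.list_prod_mem _ fun x hx => by
    obtain ⟨j, -, rfl⟩ := List.mem_map.1 hx
    exact T.nPar_mem_closure h f j fun _ _ => (map_one f).symm)

theorem selfAt_conj {r : Fin D.nroots} (w : List (Fin T.m)) (hr : SelfAt T G d f π (actW T G w r)) :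
    SelfAt T G d f π r := by
  intro t u ht hu a b ha hb
  obtain ⟨e, he, hw⟩ := conj_actW f h O r w
  obtain ⟨m, hm⟩ := nW_mem_range h O hX w
  have hin : ∀ v, InO T d f r v → InO T d f (actW T G w r) (e * v) := fun v hv => by
    rw [InO, olen_actW h]; exact InO.mul f (InO.sign f he) hv
  have := hr _ _ (hin t ht) (hin u hu) (m * a * m⁻¹) (m * b * m⁻¹)
    (by rw [map_mul, map_mul, map_inv, hm, ha, hw]) (by rw [map_mul, map_mul, map_inv, hm, hb, hw])
  simpa using (Commute.conj_iff m).1 this

theorem selfAt_of_simple (hs : ∀ j, SelfAt T G d f π (sR T G j)) (r : Fin D.nroots) : SelfAt T G d f π r := by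
  have hpos : ∀ r : Fin D.nroots, D.nroots / 2 ≤ r.val → SelfAt T G d f π r := by
    intro r hr
    have hν : (G.negF r).val < D.nroots / 2 := by
      rcases lt_or_ge (G.negF r).val (D.nroots / 2) with hh | hh
      · exact hh
      · exact absurd hr (not_le.2 ((negF_pos_iff h r).1 hh))
    have ht : D.nroots / 2 ≤ (actW T G T.top (G.negF r)).val := by
      rw [actW_negF h O, negF_pos_iff h]; exact h.top_neg r hr
    obtain ⟨pre, p, mid, -, e1, e2⟩ := exists_letter h T.top (G.negF r) hν ht
    rw [actW_negF h O] at e1 e2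
    set y := actW T G mid r
    have hyp : D.nroots / 2 ≤ y.val := by
      have := (negF_pos_iff h (G.negF y)).2 e1
      rwa [negF_negF h] at this
    rw [O.wJ_neg, negF_pos_iff h] at e2
    exact selfAt_conj h O hX mid
      (selfAt_orbit h O ((mem_orb_sR h O).2 ((h.cls_iff p y).2 ⟨hyp, e2⟩)) (hs p))
  rcases le_or_gt (D.nroots / 2) r.val with hr | hr
  · exact hpos r hr
  · obtain ⟨s, hs', e⟩ := O.top_surj r hr
    refine selfAt_conj h O hX T.top.reverse ?_
    rw [← e]
    have e' : actW T G T.top.reverse (actW T G T.top s) = s := by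
      have := actW_reverse (G := G) h s T.top.reverse
      rwa [List.reverse_reverse] at this
    rw [e']
    exact hpos s hs'

omit hX

theorem oX_fixed {r : Fin D.nroots} (hr : T.πF r = r) (t : F) : oX T G d f r t = G.xg r.val t := by
  simp [oX, olen, hr, eS]

include hX hc

/-- A fixed root which is a sum of two fixed roots. -/
theorem selfAt_long {r a b : Fin D.nroots} (hr : T.πF r = r) (ha : T.πF a = a) (hb : T.πF b = b)
    (hne : b.val ≠ a.val) (hneg : b.val ≠ D.neg a.val) {e : ℤ} (he : e = 1 ∨ e = -1)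
    (hct : D.commTerms a.val b.val = [(r.val, e, 1, 1)]) (hra : D.commTerms r.val a.val = [])
    (hra' : a.val ≠ D.neg r.val) (hrb : D.commTerms r.val b.val = []) (hrb' : b.val ≠ D.neg r.val) :
    SelfAt T G d f π r := by
  intro t u ht hu x y hx hy
  have he' : (e : F) = 1 ∨ (e : F) = -1 := by rcases he with rfl | rfl <;> simp
  have he2 : (e : F) * e = 1 := by rcases he' with h1 | h1 <;> simp [h1]
  have hol : olen T d a = 1 ∧ olen T d r = 1 ∧ olen T d b = 1 := by simp [olen, ha, hb, hr]
  have hta : InO T d f a ((e : F) * t) := by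
    refine InO.mul f (InO.sign f he') ?_
    rw [InO, hol.1]; rwa [InO, hol.2.1] at ht
  obtain ⟨A, hA⟩ := hX a _ hta
  obtain ⟨B, hB⟩ := hX b 1 (InO.one f b)
  rw [oX_fixed h O ha] at hA
  rw [oX_fixed h O hb] at hB
  rw [oX_fixed h O hr] at hx hy
  have hd : Cfsg.Agent.H82.Chev.Dec D r.val a.val b.val e := ⟨r.2, a.2, b.2, hne, hneg, he, hct⟩
  have key : Commute y ⁅A, B⁆ := by
    refine commute_commutator_of_map hc ?_ ?_
    · rw [hy, hA]; exact G.xg_commute r.2 a.2 hra' hra _ _
    · rw [hy, hB]; exact G.xg_commute r.2 b.2 hrb' hrb _ _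
  refine (commute_congr hc rfl ?_ key).symm
  rw [map_commutatorElement, hA, hB, Cfsg.Agent.H82.Chev.commutator_xg G hd, mul_one, ← mul_assoc, he2, one_mul, hx]

/-- An orbit on which the torus acts by all scalars of its field. -/
theorem selfAt_short {r : Fin D.nroots}
    (hsurj : ∀ c, InO T d f r c → c ≠ 0 → ∃ z, Fix T f z ∧ (G.torusVal z r.val : F) = c)
    (hc0 : ∃ c, InO T d f r c ∧ c ≠ 0 ∧ 1 + c ≠ 0 ∧ c * c + c + 1 ≠ 0) : SelfAt T G d f π r := by
  set K := fld f (olen T d r)
  set s : K → E := fun t => sec π (oX T G d f r (t : F))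
  have hs : ∀ t : K, π (s t) = oX T G d f r (t : F) := fun t => map_sec (hX _ _ t.2)
  have hz : ∀ x y : K, ⁅s x, s y⁆ ∈ Subgroup.center E := fun x y => hc (by
    rw [MonoidHom.mem_ker, map_commutatorElement, commutatorElement_eq_one_iff_commute, hs, hs]
    exact oX_commute h O f r _ _)
  set β : K → K → E := fun x y => ⁅s x, s y⁆ with hβ
  obtain ⟨c, hc1, hc2, hc3, hc4⟩ := hc0
  have hl : ∀ a a' b, β (a + a') b = β a b * β a' b := fun a a' b => by
    simp only [hβ]
    rw [commutator_congr hc (a := s (a + a')) (a' := s a * s a') (b := s b) (b' := s b)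
      (by rw [map_mul, hs, hs, hs, oX_add h O f]; rfl) rfl,
      Cfsg.Agent.H82.Chev.commutator_mul_left_of_commute (Subgroup.mem_center_iff.1 (hz a' b) (s a)),
      ← Subgroup.mem_center_iff.1 (hz a b)]
  have hanti : ∀ a b, β a b = (β b a)⁻¹ := fun a b => (commutatorElement_inv (s b) (s a)).symm
  have key : ∀ a b, β a b = 1 := by
    refine Cfsg.Agent.H64.biadd_invariant_eq_one β id hl (fun a b b' => ?_) ?_ (fun x hx => hx)
      (c := (⟨c, hc1⟩ : K)) (fun e => hc2 (congrArg Subtype.val e)) (fun e => hc3 (congrArg Subtype.val e)) ?_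
    · rw [hanti a (b + b'), hl, mul_inv_rev, ← hanti, ← hanti]
      exact Subgroup.mem_center_iff.1 (hz a b) _
    · intro k hk a b
      obtain ⟨z, hzf, ez⟩ := hsurj (k : F) k.2 fun e => hk (Subtype.ext e)
      obtain ⟨g, hg⟩ := genSet_le_range h O hX (T.fixTorus_le_closure h f ⟨z, hzf, rfl⟩)
      simp only [hβ, id]
      have e : ∀ v : K, π (g * s v * g⁻¹) = oX T G d f r ((k : F) * v) := fun v => by
        rw [map_mul, map_mul, map_inv, hg, hs, torus_conj_oX h O f hzf, ez]
      rw [commutator_congr hc (a := s (k * a)) (a' := g * s a * g⁻¹) (b := s (k * b)) (b' := g * s b * g⁻¹)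
        (by rw [hs, e]; rfl) (by rw [hs, e]; rfl),
        show ⁅g * s a * g⁻¹, g * s b * g⁻¹⁆ = g * ⁅s a, s b⁆ * g⁻¹ by simp only [commutatorElement_def]; group,
        Subgroup.mem_center_iff.1 (hz a b) g, mul_inv_cancel_right]
    · intro hD
      apply hc4
      have hD' := congrArg Subtype.val hD
      simp only [id, Subfield.coe_sub, Subfield.coe_inv, Subfield.coe_add, OneMemClass.coe_one,
        ZeroMemClass.coe_zero] at hD'
      field_simp at hD'
      linear_combination -hD'
  intro t u ht hu a b ha hb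
  have := key ⟨t, ht⟩ ⟨u, hu⟩
  rw [hβ] at this
  exact commute_congr hc ((hs ⟨t, ht⟩).trans ha.symm) ((hs ⟨u, hu⟩).trans hb.symm)
    (commutatorElement_eq_one_iff_commute.1 this)

end Cfsg.Agent.H46.TwistCover
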